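/-
Two-subgroup covers: quotient by central subgroups, stabilisers of subspaces and of endomorphisms up
to additive shifts.
-/
import Mathlib

set_option autoImplicit false

namespace Cfsg.Agent.Cover5

open Module

universe u v

/-- `G` is the union of the conjugates of two proper subgroups. -/
def HasTwoCover (G : Type u) [Group G] : Prop :=
  ∃ H K : Subgroup G, H ≠ ⊤ ∧ K ≠ ⊤ ∧ ∀ g : G, ∃ x : G, x * g * x⁻¹ ∈ H ∨ x * g * x⁻¹ ∈ K

variable {G : Type u} [Group G]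

theorem hasTwoCover_map {G' : Type v} [Group G'] (f : G →* G') (hf : Function.Surjective f)
    (H K : Subgroup G) (hkH : f.ker ≤ H) (hkK : f.ker ≤ K) (hH : H ≠ ⊤) (hK : K ≠ ⊤)
    (h : ∀ g : G, ∃ x : G, x * g * x⁻¹ ∈ H ∨ x * g * x⁻¹ ∈ K) : HasTwoCover G' := by
  refine ⟨H.map f, K.map f, fun e => hH ?_, fun e => hK ?_, fun g => ?_⟩
  · rw [← Subgroup.comap_map_eq_self hkH, e, Subgroup.comap_top]
  · rw [← Subgroup.comap_map_eq_self hkK, e, Subgroup.comap_top]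
  · obtain ⟨g, rfl⟩ := hf g
    obtain ⟨x, hx⟩ := h g
    exact ⟨f x, hx.imp (fun h' => by simpa using Subgroup.mem_map_of_mem f h')
      (fun h' => by simpa using Subgroup.mem_map_of_mem f h')⟩

theorem hasTwoCover_quot {N : Subgroup G} [N.Normal] (H K : Subgroup G) (hkH : N ≤ H) (hkK : N ≤ K)
    (hH : H ≠ ⊤) (hK : K ≠ ⊤) (h : ∀ g : G, ∃ x : G, x * g * x⁻¹ ∈ H ∨ x * g * x⁻¹ ∈ K) :
    HasTwoCover (G ⧸ N) :=
  hasTwoCover_map (QuotientGroup.mk' N) (QuotientGroup.mk'_surjective _) H K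
    (by rw [QuotientGroup.ker_mk']; exact hkH) (by rw [QuotientGroup.ker_mk']; exact hkK) hH hK h

theorem HasTwoCover.congr {G' : Type v} [Group G'] (e : G ≃* G') (h : HasTwoCover G) :
    HasTwoCover G' := by
  obtain ⟨H, K, hH, hK, h⟩ := h
  exact hasTwoCover_map e.toMonoidHom e.surjective H K
    (by rw [(MonoidHom.ker_eq_bot_iff _).2 e.injective]; exact bot_le)
    (by rw [(MonoidHom.ker_eq_bot_iff _).2 e.injective]; exact bot_le) hH hK h

theorem ne_top_of_not_mem {H : Subgroup G} {g : G} (h : g ∉ H) : H ≠ ⊤ :=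
  fun e => h (e ▸ Subgroup.mem_top g)

variable {F : Type v} [Field F] {V : Type*} [AddCommGroup V] [Module F V] (ρ : G →* (V ≃ₗ[F] V))

theorem rho_mul (g h : G) (x : V) : ρ (g * h) x = ρ g (ρ h x) := by
  rw [map_mul]; rfl

theorem rho_inv_apply (g : G) (x : V) : ρ g⁻¹ (ρ g x) = x := by
  rw [← rho_mul, inv_mul_cancel, map_one]; rfl

theorem rho_apply_inv (g : G) (x : V) : ρ g (ρ g⁻¹ x) = x := by
  rw [← rho_mul, mul_inv_cancel, map_one]; rfl

/-- The stabiliser of a subspace. -/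
def stabSub (W : Submodule F V) : Subgroup G where
  carrier := {g | ∀ x, x ∈ W ↔ ρ g x ∈ W}
  mul_mem' {a b} ha hb := fun x => by rw [rho_mul]; exact (hb x).trans (ha _)
  one_mem' := fun x => by rw [map_one]; rfl
  inv_mem' {a} ha := fun x => by
    have := ha (ρ a⁻¹ x)
    rw [rho_apply_inv] at this
    exact this.symm

variable {ρ}

theorem mem_stabSub [FiniteDimensional F V] {W : Submodule F V} {g : G}
    (h : ∀ x ∈ W, ρ g x ∈ W) : g ∈ stabSub ρ W := by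
  have hle : W.map (ρ g).toLinearMap ≤ W := by
    rintro y ⟨x, hx, rfl⟩; exact h x hx
  have he : W.map (ρ g).toLinearMap = W :=
    Submodule.eq_of_le_of_finrank_eq hle (LinearEquiv.finrank_map_eq (ρ g) W)
  intro x
  refine ⟨h x, fun hx => ?_⟩
  obtain ⟨y, hy, hyx⟩ : ρ g x ∈ W.map (ρ g).toLinearMap := he.symm ▸ hx
  rwa [← (ρ g).injective hyx]

theorem scalar_mem_stabSub {g : G} {c : F} (hg : ∀ x, ρ g x = c • x) (W : Submodule F V) :
    g ∈ stabSub ρ W := fun x => by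
  rw [hg]
  refine ⟨W.smul_mem c, fun h => ?_⟩
  by_cases hc : c = 0
  · have : x = 0 := (ρ g).injective (by rw [hg, hc, zero_smul, map_zero])
    rw [this]; exact W.zero_mem
  · simpa [smul_smul, inv_mul_cancel₀ hc] using W.smul_mem c⁻¹ h

/-- Conjugating into a stabiliser. -/
theorem conj_mem_stabSub [FiniteDimensional F V] {g x : G} {W W' : Submodule F V}
    (hW' : ∀ y ∈ W', ρ g y ∈ W') (hx : W'.map (ρ x).toLinearMap = W) :
    x * g * x⁻¹ ∈ stabSub ρ W := by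
  refine mem_stabSub fun y hy => ?_
  rw [← hx] at hy ⊢
  obtain ⟨z, hz, rfl⟩ := hy
  exact ⟨ρ g z, hW' z hz, by rw [rho_mul, rho_mul]; simp⟩

variable (ρ)

/-- Elements conjugating `J` to `J + i` with `i` in an additive subgroup `S`. -/
def shiftStab (J : V →ₗ[F] V) (S : AddSubgroup F) : Subgroup G where
  carrier := {g | ∃ i ∈ S, ∀ x, ρ g (J x) = J (ρ g x) + i • ρ g x}
  mul_mem' {a b} := by
    rintro ⟨i, hi, ha⟩ ⟨j, hj, hb⟩
    refine ⟨i + j, S.add_mem hi hj, fun x => ?_⟩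
    rw [rho_mul, rho_mul, hb, map_add, map_smul, ha, add_smul, add_assoc]
  one_mem' := ⟨0, S.zero_mem, fun x => by simp⟩
  inv_mem' {a} := by
    rintro ⟨i, hi, ha⟩
    refine ⟨-i, S.neg_mem hi, fun x => (ρ a).injective ?_⟩
    have := ha (ρ a⁻¹ x)
    rw [rho_apply_inv] at this
    rw [rho_apply_inv, map_add, map_smul, rho_apply_inv, this, neg_smul]
    abel

variable {ρ}

theorem scalar_mem_shiftStab {g : G} {c : F} (hg : ∀ x, ρ g x = c • x) (J : V →ₗ[F] V)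
    (S : AddSubgroup F) : g ∈ shiftStab ρ J S :=
  ⟨0, S.zero_mem, fun x => by simp [hg]⟩

theorem conj_mem_shiftStab {g x : G} {J J' : V →ₗ[F] V} {S : AddSubgroup F} {i : F} (hi : i ∈ S)
    (hJ' : ∀ y, ρ g (J' y) = J' (ρ g y) + i • ρ g y) (hx : ∀ y, ρ x (J' y) = J (ρ x y)) :
    x * g * x⁻¹ ∈ shiftStab ρ J S := by
  refine ⟨i, hi, fun y => ?_⟩
  obtain ⟨z, rfl⟩ : ∃ z, ρ x z = y := ⟨ρ x⁻¹ y, rho_apply_inv ρ x y⟩
  rw [← hx, rho_mul, rho_mul, rho_inv_apply, rho_mul, rho_mul, rho_inv_apply, hJ', map_add,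
    map_smul, hx]

theorem conj_mem_centStab {g x : G} {J J' : V →ₗ[F] V}
    (hJ' : ∀ y, ρ g (J' y) = J' (ρ g y)) (hx : ∀ y, ρ x (J' y) = J (ρ x y)) :
    x * g * x⁻¹ ∈ shiftStab ρ J ⊥ :=
  conj_mem_shiftStab (i := 0) (AddSubgroup.zero_mem _) (fun y => by simp [hJ' y]) hx

end Cfsg.Agent.Cover5
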