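/-
In characteristic three: the operator `J` with `J³ - J = c` and the cyclic permutation shifting it.
-/
import Mathlib

set_option autoImplicit false
set_option linter.style.haveILetI false

namespace Cfsg.Agent.Cover5

open Polynomial

variable {F : Type} [Field F]

/-- The diagonal `(0, -1, 1)`. -/
def dvec (F : Type) [Field F] : Fin 3 → F := ![0, -1, 1]

/-- `diag (0, -1, 1) - c E`, `E` the all ones matrix. -/
def Jop (c : F) : (Fin 3 → F) →ₗ[F] (Fin 3 → F) where
  toFun x i := dvec F i * x i - c * (x 0 + x 1 + x 2)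
  map_add' x y := by ext i; simp; ring
  map_smul' a x := by ext i; simp; ring

theorem Jop_apply (c : F) (x : Fin 3 → F) (i : Fin 3) :
    Jop c x i = dvec F i * x i - c * (x 0 + x 1 + x 2) := rfl

/-- The cyclic permutation of coordinates. -/
def cyc : (Fin 3 → F) →ₗ[F] (Fin 3 → F) := LinearMap.funLeft F F (fun i : Fin 3 => i + 2)

theorem cyc_apply (x : Fin 3 → F) (i : Fin 3) : cyc x i = x (i + 2) := rfl

variable (h3 : (3 : F) = 0)
include h3

theorem cyc_Jop (c : F) (x : Fin 3 → F) :
    cyc (Jop c x) = Jop c (cyc x) + (1 : F) • cyc x := by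
  ext i
  fin_cases i <;> simp [cyc_apply, Jop_apply, dvec]
  · ring
  · ring
  · linear_combination -(x 1) * h3

theorem Jop_cube (c : F) (x : Fin 3 → F) : Jop c (Jop c (Jop c x)) = Jop c x + c • x := by
  ext i
  fin_cases i <;> simp [Jop_apply, dvec]
  · linear_combination (-(3 * c ^ 3 * (x 0 + x 1 + x 2) + c * x 0) + (c * x 0 - c ^ 2 * x 1 + c ^ 2 * x 2)) * h3
  · linear_combination (-(3 * c ^ 3 * (x 0 + x 1 + x 2) + c * x 1) + (-(c ^ 2 * x 0) - 2 * c ^ 2 * x 1)) * h3
  · linear_combination (-(3 * c ^ 3 * (x 0 + x 1 + x 2) + c * x 2) + (2 * c ^ 2 * x 2 + c ^ 2 * x 0)) * h3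

omit h3

/-- The Artin–Schreier polynomial. -/
noncomputable def asPoly (c : F) : F[X] := X ^ 3 - X - C c

theorem asPoly_natDegree (c : F) : (asPoly c).natDegree = 3 := by
  unfold asPoly; compute_degree!

theorem asPoly_irreducible {c : F} (hc : ∀ x : F, x ^ 3 - x ≠ c) : Irreducible (asPoly c) := by
  have hd := asPoly_natDegree c
  rw [irreducible_iff_roots_eq_zero_of_degree_le_three (by omega) (by omega),
    Multiset.eq_zero_iff_forall_notMem]
  intro x hx
  rw [mem_roots'] at hx
  refine hc x ?_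
  have := hx.2
  simp [asPoly] at this
  linear_combination this

theorem aeval_asPoly {R : Type*} [Ring R] [Algebra F R] (c : F) (y : R) :
    aeval y (asPoly c) = y ^ 3 - y - algebraMap F R c := by
  simp [asPoly]

theorem three_eq_zero [Fintype F] {k : ℕ} (hk : Fintype.card F = 3 ^ k) : (3 : F) = 0 := by
  have h := Nat.cast_card_eq_zero F
  rw [hk, Nat.cast_pow] at h
  exact_mod_cast pow_eq_zero_iff'.1 h |>.1

theorem two_ne_zero_of_three (h3 : (3 : F) = 0) : (2 : F) ≠ 0 := fun h =>
  one_ne_zero (α := F) (by linear_combination h3 - h)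

theorem sq_eq_one_cases {i : F} (h : i ^ 3 - i = 0) : i = 0 ∨ i = 1 ∨ i = -1 := by
  rcases mul_eq_zero.1 (show i * ((i - 1) * (i + 1)) = 0 by linear_combination h) with h | h
  · exact Or.inl h
  · rcases mul_eq_zero.1 h with h | h
    · exact Or.inr (Or.inl (sub_eq_zero.1 h))
    · exact Or.inr (Or.inr (eq_neg_of_add_eq_zero_left h))

end Cfsg.Agent.Cover5
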