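/-
Endomorphisms annihilated by an irreducible polynomial over a finite field: conjugacy with any
prescribed determinant, and roots inside the algebra generated by an endomorphism.
-/
import Mathlib

set_option autoImplicit false
set_option linter.style.haveILetI false

namespace Cfsg.Agent.Cover5

open Module Polynomial

universe u v

variable {F : Type u} [Field F] {V : Type v} [AddCommGroup V] [Module F V]

/-- `V` as a module over `F[X]/(f)` through `J`. -/
def AsF {f : F[X]} (J : Module.End F V) (_h : aeval J f = 0) := V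

variable {f : F[X]} {J : Module.End F V} {h : aeval J f = 0}

instance : AddCommGroup (AsF J h) := inferInstanceAs (AddCommGroup V)
instance : Module F (AsF J h) := inferInstanceAs (Module F V)
instance [FiniteDimensional F V] : FiniteDimensional F (AsF J h) :=
  inferInstanceAs (FiniteDimensional F V)

/-- The identity map to `AsF`. -/
def toAsF : V ≃ₗ[F] AsF J h := LinearEquiv.refl F V

/-- `J` transported to `AsF`. -/
noncomputable def endAsF : Module.End F V ≃ₐ[F] Module.End F (AsF J h) :=
  (toAsF (J := J) (h := h)).conjAlgEquiv F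

/-- The action of `F[X]/(f)`. -/
noncomputable def actHom : AdjoinRoot f →+* Module.End F (AsF J h) :=
  Ideal.Quotient.lift _ ((endAsF (h := h)).toAlgHom.comp (aeval J) : F[X] →ₐ[F] _).toRingHom
    (fun p hp => by
      obtain ⟨r, rfl⟩ := Ideal.mem_span_singleton'.1 hp
      simp [h])

theorem actHom_mk (p : F[X]) (x : AsF J h) :
    actHom (h := h) (AdjoinRoot.mk f p) x = toAsF (aeval J p ((toAsF (J := J) (h := h)).symm x)) :=
  rfl

noncomputable instance : Module (AdjoinRoot f) (AsF J h) := Module.compHom _ (actHom (h := h))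

theorem smul_asF (a : AdjoinRoot f) (x : AsF J h) : a • x = actHom (h := h) a x := rfl

theorem root_smul (x : V) :
    AdjoinRoot.root f • toAsF (J := J) (h := h) x = toAsF (J x) := by
  rw [smul_asF, ← AdjoinRoot.mk_X, actHom_mk, aeval_X]
  rfl

noncomputable instance : IsScalarTower F (AdjoinRoot f) (AsF J h) where
  smul_assoc c a x := by
    induction a using AdjoinRoot.induction_on with
    | ih p =>
      rw [AdjoinRoot.smul_mk, smul_asF, smul_asF, actHom_mk, actHom_mk, map_smul,
        LinearMap.smul_apply, map_smul]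

variable [Finite F] [FiniteDimensional F V]

omit [Finite F] [FiniteDimensional F V] in
theorem det_conj_toAsF (T : AsF J h ≃ₗ[F] AsF J h) :
    LinearMap.det ((toAsF.trans (T.trans toAsF.symm) : V ≃ₗ[F] V) : V →ₗ[F] V) =
      LinearMap.det (T : AsF J h →ₗ[F] AsF J h) := by
  rw [← LinearMap.det_conj (T : AsF J h →ₗ[F] AsF J h) (toAsF (J := J) (h := h)).symm]
  rfl

/-- Two endomorphisms annihilated by the same irreducible polynomial are conjugate by an automorphism
of any non-zero determinant. -/
theorem exists_conj (hf : Irreducible f) [Nontrivial V] (J' : Module.End F V)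
    (h : aeval J f = 0) (h' : aeval J' f = 0) {a : F} (ha : a ≠ 0) :
    ∃ T : V ≃ₗ[F] V, (∀ x, T (J x) = J' (T x)) ∧ LinearMap.det (T : V →ₗ[F] V) = a := by
  haveI := Fact.mk hf
  haveI hfin : FiniteDimensional F (AdjoinRoot f) := (AdjoinRoot.powerBasis hf.ne_zero).finite
  haveI : Finite (AdjoinRoot f) := Module.finite_of_finite F
  haveI : FiniteDimensional (AdjoinRoot f) (AsF J h) := Module.Finite.of_restrictScalars_finite F _ _
  haveI : FiniteDimensional (AdjoinRoot f) (AsF J' h') :=
    Module.Finite.of_restrictScalars_finite F _ _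
  haveI : Nontrivial (AsF J h) := ‹Nontrivial V›
  have hdim : finrank (AdjoinRoot f) (AsF J h) = finrank (AdjoinRoot f) (AsF J' h') := by
    refine Nat.eq_of_mul_eq_mul_left (finrank_pos (R := F) (M := AdjoinRoot f)) ?_
    rw [Module.finrank_mul_finrank, Module.finrank_mul_finrank]
    exact (LinearEquiv.finrank_eq (toAsF (J := J) (h := h))).symm.trans
      (LinearEquiv.finrank_eq (toAsF (J := J') (h := h')))
  let e := LinearEquiv.ofFinrankEq (AsF J h) (AsF J' h') hdim
  let T0 : V ≃ₗ[F] V := toAsF.trans ((e.restrictScalars F).trans toAsF.symm)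
  have hT0 : ∀ x, T0 (J x) = J' (T0 x) := fun x => by
    show toAsF.symm (e (toAsF (J x))) = J' (toAsF.symm (e (toAsF x)))
    rw [← root_smul, e.map_smul]
    obtain ⟨y, hy⟩ : ∃ y, toAsF (J := J') (h := h') y = e (toAsF x) :=
      ⟨_, LinearEquiv.apply_symm_apply _ _⟩
    rw [← hy, root_smul, LinearEquiv.symm_apply_apply, LinearEquiv.symm_apply_apply]
  obtain ⟨k, hk⟩ := FiniteField.norm_surjective F (AdjoinRoot f)
    (a / LinearMap.det (T0 : V →ₗ[F] V))
  let b := Module.finBasis (AdjoinRoot f) (AsF J h)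
  let i0 : Fin (finrank (AdjoinRoot f) (AsF J h)) := ⟨0, finrank_pos⟩
  let w : Fin (finrank (AdjoinRoot f) (AsF J h)) → AdjoinRoot f := Function.update 1 i0 k
  let D := Matrix.toLin b b (Matrix.diagonal w)
  have hD : LinearMap.det D = k := by
    rw [LinearMap.det_toLin, Matrix.det_diagonal, Finset.prod_update_of_mem (Finset.mem_univ _)]
    simp
  have hk0 : k ≠ 0 := fun h0 => by
    rw [h0, Algebra.norm_zero] at hk
    exact div_ne_zero ha (T0.isUnit_det'.ne_zero) hk.symm
  let S := LinearMap.equivOfDetNeZero D (hD ▸ hk0)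
  have hS : (S.restrictScalars F : AsF J h →ₗ[F] AsF J h) = D.restrictScalars F :=
    LinearMap.ext fun x => rfl
  refine ⟨(toAsF.trans ((S.restrictScalars F).trans toAsF.symm)).trans T0, fun x => ?_, ?_⟩
  · refine Eq.trans ?_ (hT0 _)
    show T0 _ = T0 _
    congr 1
    show toAsF.symm (S (toAsF (J x))) = J (toAsF.symm (S (toAsF x)))
    rw [← root_smul (h := h), S.map_smul]
    obtain ⟨y, hy⟩ : ∃ y, toAsF (J := J) (h := h) y = S (toAsF x) :=
      ⟨_, LinearEquiv.apply_symm_apply _ _⟩
    rw [← hy, root_smul, LinearEquiv.symm_apply_apply, LinearEquiv.symm_apply_apply]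
  · rw [LinearEquiv.coe_trans, LinearMap.det_comp, det_conj_toAsF, hS,
      LinearMap.det_restrictScalars, hD, hk, mul_div_cancel₀ _ T0.isUnit_det'.ne_zero]


omit [FiniteDimensional F V] in
theorem exists_root_modulo {p : F[X]} (hp : Irreducible p) (hf : Irreducible f)
    (hd : f.natDegree ∣ p.natDegree) : ∃ r : F[X], p ∣ aeval r f := by
  haveI := Fact.mk hf
  haveI := Fact.mk hp
  haveI : FiniteDimensional F (AdjoinRoot p) := (AdjoinRoot.powerBasis hp.ne_zero).finite
  haveI : Finite (AdjoinRoot p) := Module.finite_of_finite F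
  obtain ⟨φ⟩ := FiniteField.nonempty_algHom_of_finrank_dvd (F := F) (K := AdjoinRoot f)
    (L := AdjoinRoot p) (by
      rw [(AdjoinRoot.powerBasis hf.ne_zero).finrank, (AdjoinRoot.powerBasis hp.ne_zero).finrank]
      simpa [AdjoinRoot.powerBasis_dim] using hd)
  obtain ⟨r, hr⟩ := AdjoinRoot.mk_surjective (φ (AdjoinRoot.root f))
  refine ⟨r, AdjoinRoot.mk_eq_zero.1 ?_⟩
  show AdjoinRoot.mkₐ p (aeval r f) = 0
  rw [← aeval_algHom_apply]
  show aeval (AdjoinRoot.mk p r) f = 0
  rw [hr, aeval_algHom_apply, AdjoinRoot.aeval_eq, AdjoinRoot.mk_self, map_zero]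

omit [FiniteDimensional F V] in
theorem exists_root_simultaneous (hf : Irreducible f) (s : Finset F[X])
    (hs : ∀ p ∈ s, Irreducible p ∧ p.Monic ∧ f.natDegree ∣ p.natDegree) :
    ∃ r : F[X], ∀ p ∈ s, p ∣ aeval r f := by
  classical
  induction s using Finset.induction_on with
  | empty => exact ⟨0, by simp⟩
  | @insert p s hps ih =>
    obtain ⟨hp, hpm, hd⟩ := hs p (Finset.mem_insert_self p s)
    obtain ⟨r', hr'⟩ := ih fun x hx => hs x (Finset.mem_insert_of_mem hx)
    obtain ⟨r₀, hr₀⟩ := exists_root_modulo hp hf hd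
    have hcop : IsCoprime p (∏ x ∈ s, x) := by
      refine IsCoprime.prod_right fun x hx => ?_
      obtain ⟨hx1, hx2, -⟩ := hs x (Finset.mem_insert_of_mem hx)
      refine (hp.coprime_iff_not_dvd).2 fun hdvd => hps ?_
      rwa [eq_of_monic_of_associated hpm hx2 (hp.associated_of_dvd hx1 hdvd)]
    obtain ⟨a, b, hab⟩ := hcop
    refine ⟨r₀ * (b * ∏ x ∈ s, x) + r' * (a * p), fun x hx => ?_⟩
    have key : ∀ u w : F[X], u - w ∣ aeval u f - aeval w f := fun u w => by
      have := (f.map (algebraMap F F[X])).sub_dvd_eval_sub (a := u) (b := w)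
      simpa [aeval_def, eval_map] using this
    rcases Finset.mem_insert.1 hx with rfl | hx
    · have h1 : x ∣ r₀ * (b * ∏ y ∈ s, y) + r' * (a * x) - r₀ :=
        ⟨a * (r' - r₀), by linear_combination r₀ * hab⟩
      have h2 := dvd_add (h1.trans (key _ _)) hr₀
      rwa [sub_add_cancel] at h2
    · have h1 : x ∣ r₀ * (b * ∏ y ∈ s, y) + r' * (a * p) - r' := by
        refine (Finset.dvd_prod_of_mem (fun y => y) hx).trans ⟨b * (r₀ - r'), ?_⟩
        linear_combination r' * hab
      have h2 := dvd_add (h1.trans (key _ _)) (hr' x hx)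
      rwa [sub_add_cancel] at h2

/-- If the residue degrees of `g` are divisible by the degree of an irreducible `f`, then the algebra
generated by `g` contains a root of `f`. -/
theorem exists_root_mem_adjoin (hf : Irreducible f) (g : Module.End F V)
    (hg : ∀ p : F[X], Irreducible p → p ∣ minpoly F g → f.natDegree ∣ p.natDegree) :
    ∃ y ∈ Algebra.adjoin F {g}, aeval y f = 0 := by
  classical
  haveI := Fintype.ofFinite F
  have hm : minpoly F g ≠ 0 := minpoly.ne_zero (Algebra.IsIntegral.isIntegral g)
  set s := UniqueFactorizationMonoid.normalizedFactors (minpoly F g) with hs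
  obtain ⟨r, hr⟩ := exists_root_simultaneous hf s.toFinset fun p hp => by
    rw [Multiset.mem_toFinset] at hp
    have h1 := UniqueFactorizationMonoid.irreducible_of_normalized_factor p hp
    refine ⟨h1, ?_, hg p h1 (UniqueFactorizationMonoid.dvd_of_mem_normalizedFactors hp)⟩
    rw [← UniqueFactorizationMonoid.normalize_normalized_factor p hp]
    exact monic_normalize h1.ne_zero
  have hdvd : minpoly F g ∣ aeval r f ^ Multiset.card s := by
    refine ((UniqueFactorizationMonoid.prod_normalizedFactors hm).symm.dvd).trans ?_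
    rw [← hs, ← Multiset.prod_replicate, ← Multiset.map_const' s]
    conv_lhs => rw [← Multiset.map_id' s]
    exact Multiset.prod_dvd_prod_of_dvd _ _ fun p hp => hr p (Multiset.mem_toFinset.2 hp)
  set y₀ := aeval g r with hy₀
  have h0 : aeval y₀ f ^ Multiset.card s = 0 := by
    rw [hy₀, aeval_algHom_apply, ← map_pow]
    obtain ⟨k, hk⟩ := hdvd
    rw [hk, map_mul, minpoly.aeval, zero_mul]
  have hfrob : ∀ M : ℕ, aeval (y₀ ^ Fintype.card F ^ M) f = aeval y₀ f ^ Fintype.card F ^ M := by
    intro M
    induction M with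
    | zero => simp
    | succ M ih =>
      rw [pow_succ, pow_mul, ← expand_aeval, FiniteField.expand_card, map_pow, ih, ← pow_mul]
  refine ⟨y₀ ^ Fintype.card F ^ Multiset.card s, pow_mem (aeval_mem_adjoin_singleton F g) _, ?_⟩
  rw [hfrob]
  exact pow_eq_zero_of_le (Nat.lt_pow_self Fintype.one_lt_card).le h0

end Cfsg.Agent.Cover5
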