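/-
Automorphisms of the split octonions moving elements of trace one onto normal forms.
-/
import Mathlib
import Cfsg.Prelude.Def_G2

set_option autoImplicit false
set_option maxHeartbeats 400000

namespace Cfsg.Agent.Cover5

open Cfsg.Lie
open scoped Matrix

variable {F : Type} [Field F]

/-- The action on column vectors. -/
abbrev g2act (g : G2 F) (x : Fin 8 → F) : Fin 8 → F :=
  ((g : GL (Fin 8) F) : Matrix (Fin 8) (Fin 8) F) *ᵥ x

theorem g2act_mul (g h : G2 F) (x : Fin 8 → F) : g2act (g * h) x = g2act g (g2act h x) :=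
  (Matrix.mulVec_mulVec x _ _).symm

theorem g2act_one (x : Fin 8 → F) : g2act (1 : G2 F) x = x := by simp [g2act]

theorem exists_g2 (φ : (Fin 8 → F) ≃ₗ[F] (Fin 8 → F))
    (h : ∀ x y, φ (zornMul x y) = zornMul (φ x) (φ y)) : ∃ g : G2 F, ∀ x, g2act g x = φ x := by
  let u : GL (Fin 8) F :=
    ⟨LinearMap.toMatrix' φ.toLinearMap, LinearMap.toMatrix' φ.symm.toLinearMap,
      by rw [← LinearMap.toMatrix'_comp]; simp,
      by rw [← LinearMap.toMatrix'_comp]; simp⟩
  have hu : ∀ x, (u : Matrix (Fin 8) (Fin 8) F) *ᵥ x = φ x :=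
    LinearMap.toMatrix'_mulVec φ.toLinearMap
  exact ⟨⟨u, fun x y => by
    show (u : Matrix (Fin 8) (Fin 8) F) *ᵥ zornMul x y = zornMul (_ *ᵥ x) (_ *ᵥ y)
    simp only [Units.coeHom_apply, hu, h]⟩, hu⟩

/-- The shear at `u`. -/
def shear (u : Fin 3 → F) : (Fin 8 → F) →ₗ[F] (Fin 8 → F) where
  toFun x :=
    let s := u 0 * x 4 + u 1 * x 5 + u 2 * x 6
    ![x 0 - s,
      x 1 + (x 0 - x 7) * u 0 - s * u 0, x 2 + (x 0 - x 7) * u 1 - s * u 1,
      x 3 + (x 0 - x 7) * u 2 - s * u 2,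
      x 4 + (u 1 * x 3 - u 2 * x 2), x 5 + (u 2 * x 1 - u 0 * x 3),
      x 6 + (u 0 * x 2 - u 1 * x 1), x 7 + s]
  map_add' x y := by ext i; fin_cases i <;> simp <;> ring
  map_smul' c x := by ext i; fin_cases i <;> simp <;> ring

theorem shear_apply (u : Fin 3 → F) (x : Fin 8 → F) :
    shear u x = ![x 0 - (u 0 * x 4 + u 1 * x 5 + u 2 * x 6),
      x 1 + (x 0 - x 7) * u 0 - (u 0 * x 4 + u 1 * x 5 + u 2 * x 6) * u 0,
      x 2 + (x 0 - x 7) * u 1 - (u 0 * x 4 + u 1 * x 5 + u 2 * x 6) * u 1,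
      x 3 + (x 0 - x 7) * u 2 - (u 0 * x 4 + u 1 * x 5 + u 2 * x 6) * u 2,
      x 4 + (u 1 * x 3 - u 2 * x 2), x 5 + (u 2 * x 1 - u 0 * x 3),
      x 6 + (u 0 * x 2 - u 1 * x 1), x 7 + (u 0 * x 4 + u 1 * x 5 + u 2 * x 6)] := rfl

theorem shear_norm (u : Fin 3 → F) (y : Fin 8 → F) :
    shear u y 0 * shear u y 7 -
        (shear u y 1 * shear u y 4 + shear u y 2 * shear u y 5 + shear u y 3 * shear u y 6) =
      y 0 * y 7 - (y 1 * y 4 + y 2 * y 5 + y 3 * y 6) := by
  simp only [shear_apply, Matrix.cons_val_zero, Matrix.cons_val_one, Matrix.cons_val]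
  ring

theorem shear_mul (u : Fin 3 → F) (x y : Fin 8 → F) :
    shear u (zornMul x y) = zornMul (shear u x) (shear u y) := by
  ext i
  fin_cases i <;> simp [shear, zornMul, zA, zB, dot3, cross3] <;> ring

theorem shear_neg (u : Fin 3 → F) (x : Fin 8 → F) : shear (-u) (shear u x) = x := by
  ext i
  fin_cases i <;> simp [shear] <;> ring

theorem exists_g2_shear (u : Fin 3 → F) : ∃ g : G2 F, ∀ x, g2act g x = shear u x :=
  exists_g2 (LinearEquiv.ofLinearMap (shear u) (shear (-u))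
    (LinearMap.ext fun x => by simpa using shear_neg (-u) x)
    (LinearMap.ext fun x => shear_neg u x)) (shear_mul u)

/-- The swap of the two diagonal idempotents. -/
def swapMap : (Fin 8 → F) →ₗ[F] (Fin 8 → F) where
  toFun x := ![x 7, -x 4, -x 5, -x 6, -x 1, -x 2, -x 3, x 0]
  map_add' x y := by ext i; fin_cases i <;> simp <;> ring
  map_smul' c x := by ext i; fin_cases i <;> simp

theorem exists_g2_swap : ∃ g : G2 F, ∀ x, g2act g x = swapMap x :=
  exists_g2 (LinearEquiv.ofLinearMap swapMap swapMap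
    (LinearMap.ext fun x => by ext i; fin_cases i <;> simp [swapMap])
    (LinearMap.ext fun x => by ext i; fin_cases i <;> simp [swapMap])) fun x y => by
    show swapMap (zornMul x y) = zornMul (swapMap x) (swapMap y)
    ext i
    fin_cases i <;> simp [swapMap, zornMul, zA, zB, dot3, cross3] <;> ring

/-- The map with first columns `a, p, q` on the upper vector, their cross products on the lower. -/
def colMap (a p q : Fin 3 → F) : (Fin 8 → F) →ₗ[F] (Fin 8 → F) where
  toFun x :=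
    ![x 0, x 1 * a 0 + x 2 * p 0 + x 3 * q 0, x 1 * a 1 + x 2 * p 1 + x 3 * q 1,
      x 1 * a 2 + x 2 * p 2 + x 3 * q 2,
      x 4 * cross3 p q 0 + x 5 * cross3 q a 0 + x 6 * cross3 a p 0,
      x 4 * cross3 p q 1 + x 5 * cross3 q a 1 + x 6 * cross3 a p 1,
      x 4 * cross3 p q 2 + x 5 * cross3 q a 2 + x 6 * cross3 a p 2, x 7]
  map_add' x y := by ext i; fin_cases i <;> simp <;> ring
  map_smul' c x := by ext i; fin_cases i <;> simp <;> ring

theorem exists_g2_col (a p q : Fin 3 → F) (hdet : dot3 a (cross3 p q) = 1) :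
    ∃ g : G2 F, ∀ x, g2act g x = colMap a p q x := by
  have hd : a 0 * (p 1 * q 2 - p 2 * q 1) + a 1 * (p 2 * q 0 - p 0 * q 2) +
      a 2 * (p 0 * q 1 - p 1 * q 0) = 1 := by
    simpa [dot3, cross3] using hdet
  have hinj : Function.Injective (colMap a p q) := by
    refine (injective_iff_map_eq_zero _).2 fun x hx => ?_
    have e := fun i => congrFun hx i
    have e0 := e 0; have e1 := e 1; have e2 := e 2; have e3 := e 3
    have e4 := e 4; have e5 := e 5; have e6 := e 6; have e7 := e 7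
    simp [colMap, cross3] at e0 e1 e2 e3 e4 e5 e6 e7
    ext i
    fin_cases i <;> simp only [Pi.zero_apply, Fin.isValue, Fin.mk_one, Fin.reduceFinMk,
      Fin.zero_eta]
    · exact e0
    · linear_combination (p 1 * q 2 - p 2 * q 1) * e1 + (p 2 * q 0 - p 0 * q 2) * e2 +
        (p 0 * q 1 - p 1 * q 0) * e3 - x 1 * hd
    · linear_combination (q 1 * a 2 - q 2 * a 1) * e1 + (q 2 * a 0 - q 0 * a 2) * e2 +
        (q 0 * a 1 - q 1 * a 0) * e3 - x 2 * hd
    · linear_combination (a 1 * p 2 - a 2 * p 1) * e1 + (a 2 * p 0 - a 0 * p 2) * e2 +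
        (a 0 * p 1 - a 1 * p 0) * e3 - x 3 * hd
    · linear_combination a 0 * e4 + a 1 * e5 + a 2 * e6 - x 4 * hd
    · linear_combination p 0 * e4 + p 1 * e5 + p 2 * e6 - x 5 * hd
    · linear_combination q 0 * e4 + q 1 * e5 + q 2 * e6 - x 6 * hd
    · exact e7
  refine exists_g2 (LinearEquiv.ofInjectiveEndo _ hinj) fun x y => ?_
  show colMap a p q (zornMul x y) = zornMul (colMap a p q x) (colMap a p q y)
  ext i
  fin_cases i <;>
    simp only [colMap, zornMul, zA, zB, dot3, cross3, LinearMap.coe_mk, AddHom.coe_mk,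
      Matrix.cons_val_zero, Matrix.cons_val_one, Matrix.cons_val, Fin.isValue, Fin.mk_one,
      Fin.reduceFinMk, Fin.zero_eta, Pi.add_apply, Pi.sub_apply, Pi.smul_apply, smul_eq_mul]
  · linear_combination -(x 1 * y 4 + x 2 * y 5 + x 3 * y 6) * hd
  · linear_combination
      (a 0 * (x 5 * y 6 - x 6 * y 5) + p 0 * (x 6 * y 4 - x 4 * y 6) +
        q 0 * (x 4 * y 5 - x 5 * y 4)) * hd
  · linear_combination
      (a 1 * (x 5 * y 6 - x 6 * y 5) + p 1 * (x 6 * y 4 - x 4 * y 6) +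
        q 1 * (x 4 * y 5 - x 5 * y 4)) * hd
  · linear_combination
      (a 2 * (x 5 * y 6 - x 6 * y 5) + p 2 * (x 6 * y 4 - x 4 * y 6) +
        q 2 * (x 4 * y 5 - x 5 * y 4)) * hd
  · ring
  · ring
  · ring
  · linear_combination -(x 4 * y 1 + x 5 * y 2 + x 6 * y 3) * hd

omit [Field F] in
theorem vec8_eta (y : Fin 8 → F) : ![y 0, y 1, y 2, y 3, y 4, y 5, y 6, y 7] = y := by
  funext i
  fin_cases i <;> rfl

theorem colMap_std (a p q : Fin 3 → F) (r : F) :
    colMap a p q ![1, 1, 0, 0, r, 0, 0, 0] =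
      ![1, a 0, a 1, a 2, r * cross3 p q 0, r * cross3 p q 1, r * cross3 p q 2, 0] := by
  simp only [colMap, LinearMap.coe_mk, AddHom.coe_mk, Matrix.cons_val_zero, Matrix.cons_val_one,
    Matrix.cons_val, zero_mul, one_mul, add_zero]

/-- Being in one orbit. -/
def G2Orb (x y : Fin 8 → F) : Prop := ∃ g : G2 F, g2act g x = y

theorem G2Orb.trans {x y z : Fin 8 → F} (h : G2Orb x y) (h' : G2Orb y z) : G2Orb x z := by
  obtain ⟨g, rfl⟩ := h
  obtain ⟨g', rfl⟩ := h'
  exact ⟨g' * g, g2act_mul g' g x⟩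

theorem G2Orb.symm {x y : Fin 8 → F} (h : G2Orb x y) : G2Orb y x := by
  obtain ⟨g, rfl⟩ := h
  exact ⟨g⁻¹, by rw [← g2act_mul, inv_mul_cancel, g2act_one]⟩

theorem g2Orb_shear (x : Fin 8 → F) (u : Fin 3 → F) : G2Orb x (shear u x) := by
  obtain ⟨g, hg⟩ := exists_g2_shear u
  exact ⟨g, hg x⟩

theorem g2Orb_swap (x : Fin 8 → F) : G2Orb x (swapMap x) := by
  obtain ⟨g, hg⟩ := exists_g2_swap (F := F)
  exact ⟨g, hg x⟩

theorem exists_dot3_eq {b : Fin 3 → F} (hb : b ≠ 0) (t : F) :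
    ∃ u : Fin 3 → F, u 0 * b 0 + u 1 * b 1 + u 2 * b 2 = t := by
  obtain ⟨i, hi⟩ : ∃ i, b i ≠ 0 := by
    by_contra! hall
    exact hb (funext hall)
  fin_cases i <;> simp at hi
  · exact ⟨![t / b 0, 0, 0], by simp [hi]⟩
  · exact ⟨![0, t / b 1, 0], by simp [hi]⟩
  · exact ⟨![0, 0, t / b 2], by simp [hi]⟩

/-- An idempotent of trace one is conjugate to the standard one. -/
theorem g2Orb_idem (x : Fin 8 → F) (hT : x 0 + x 7 = 1)
    (hN : x 0 * x 7 - (x 1 * x 4 + x 2 * x 5 + x 3 * x 6) = 0) :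
    G2Orb x ![1, 0, 0, 0, 0, 0, 0, 0] := by
  have low : ∀ y : Fin 8 → F, y 0 = 0 → y 7 = 1 → y 4 = 0 → y 5 = 0 → y 6 = 0 →
      G2Orb y ![1, 0, 0, 0, 0, 0, 0, 0] := by
    intro y h0 h7 h4 h5 h6
    refine ((g2Orb_shear y ![y 1, y 2, y 3]).trans (g2Orb_swap _)).trans ⟨1, ?_⟩
    rw [g2act_one]
    ext i
    fin_cases i <;> simp [shear, swapMap, h0, h7, h4, h5, h6] <;> ring
  have high : ∀ y : Fin 8 → F, y 0 = 1 → y 7 = 0 →
      y 1 * y 4 + y 2 * y 5 + y 3 * y 6 = 0 → G2Orb y ![1, 0, 0, 0, 0, 0, 0, 0] := by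
    intro y h0 h7 hd
    set z := shear ![-y 1, -y 2, -y 3] y with hz
    have hs : -y 1 * y 4 + -y 2 * y 5 + -y 3 * y 6 = 0 := by linear_combination -hd
    have hzv : z = ![1, 0, 0, 0, y 4, y 5, y 6, 0] := by
      rw [hz, shear_apply]
      simp only [Matrix.cons_val_zero, Matrix.cons_val_one, Matrix.cons_val, h0, h7, hs]
      ext i
      fin_cases i <;> simp <;> ring
    have h2 : G2Orb (swapMap z) ![1, 0, 0, 0, 0, 0, 0, 0] :=
      low _ (by simp [hzv, swapMap]) (by simp [hzv, swapMap]) (by simp [hzv, swapMap])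
        (by simp [hzv, swapMap]) (by simp [hzv, swapMap])
    exact ((g2Orb_shear y _).trans (g2Orb_swap z)).trans h2
  by_cases hb : ![x 4, x 5, x 6] = 0
  · have h4 : x 4 = 0 := congrFun hb 0
    have h5 : x 5 = 0 := congrFun hb 1
    have h6 : x 6 = 0 := congrFun hb 2
    rw [h4, h5, h6] at hN
    simp at hN
    rcases hN with h0 | h7
    · exact low x h0 (by linear_combination hT - h0) h4 h5 h6
    · exact high x (by linear_combination hT - h7) h7 (by simp [h4, h5, h6])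
  · obtain ⟨u, hu⟩ := exists_dot3_eq hb (x 0 - 1)
    simp at hu
    have e0 : shear u x 0 = 1 := by
      simp only [shear_apply, Matrix.cons_val_zero]; linear_combination -hu
    have e7 : shear u x 7 = 0 := by
      simp only [shear_apply, Matrix.cons_val]; linear_combination hT + hu
    have hn := shear_norm u x
    rw [e0, e7, hN] at hn
    exact (g2Orb_shear x u).trans (high _ e0 e7 (by linear_combination -hn))

/-- An element of trace one and norm `c` (not the norm of a scalar of trace one) is conjugate to a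
standard one. -/
theorem g2Orb_norm (x : Fin 8 → F) {c : F} (hc : ∀ z : F, z * (1 - z) ≠ c) (hT : x 0 + x 7 = 1)
    (hN : x 0 * x 7 - (x 1 * x 4 + x 2 * x 5 + x 3 * x 6) = c) :
    G2Orb x ![1, 1, 0, 0, -c, 0, 0, 0] := by
  have hc0 : c ≠ 0 := fun h => hc 0 (by rw [h]; ring)
  have hb : ![x 4, x 5, x 6] ≠ 0 := fun h => by
    refine hc (x 0) ?_
    have h4 : x 4 = 0 := congrFun h 0
    have h5 : x 5 = 0 := congrFun h 1
    have h6 : x 6 = 0 := congrFun h 2
    rw [h4, h5, h6] at hN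
    linear_combination hN - x 0 * hT
  obtain ⟨u, hu⟩ := exists_dot3_eq hb (x 0 - 1)
  simp at hu
  set y := shear u x with hy
  have h0 : y 0 = 1 := by
    simp only [hy, shear_apply, Matrix.cons_val_zero]; linear_combination -hu
  have h7 : y 7 = 0 := by
    simp only [hy, shear_apply, Matrix.cons_val]; linear_combination hT + hu
  have hd : y 1 * y 4 + y 2 * y 5 + y 3 * y 6 = -c := by
    have := shear_norm u x
    rw [← hy, hN, h0, h7] at this
    linear_combination -this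
  clear_value y
  obtain ⟨p, q, hpq⟩ : ∃ p q : Fin 3 → F, cross3 p q = (-c)⁻¹ • ![y 4, y 5, y 6] := by
    by_cases hb0 : y 4 = 0
    · refine ⟨![(-c)⁻¹, 0, 0], ![0, y 6, -y 5], ?_⟩
      ext i
      fin_cases i <;> simp [cross3, hb0]
    · refine ⟨((-c)⁻¹ / y 4) • ![-y 5, y 4, 0], ![-y 6, 0, y 4], ?_⟩
      ext i
      fin_cases i <;> simp [cross3] <;> field_simp
  obtain ⟨g, hg⟩ := exists_g2_col ![y 1, y 2, y 3] p q (by
    rw [hpq]
    simp [dot3]
    field_simp
    linear_combination -hd)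
  refine ((g2Orb_shear x u).trans ?_)
  rw [← hy]
  refine G2Orb.symm ⟨g, ?_⟩
  have hnc : -c ≠ 0 := neg_ne_zero.2 hc0
  have k0 : -c * cross3 p q 0 = y 4 := by
    rw [hpq, Pi.smul_apply, smul_eq_mul, ← mul_assoc, mul_inv_cancel₀ hnc, one_mul]; rfl
  have k1 : -c * cross3 p q 1 = y 5 := by
    rw [hpq, Pi.smul_apply, smul_eq_mul, ← mul_assoc, mul_inv_cancel₀ hnc, one_mul]; rfl
  have k2 : -c * cross3 p q 2 = y 6 := by
    rw [hpq, Pi.smul_apply, smul_eq_mul, ← mul_assoc, mul_inv_cancel₀ hnc, one_mul]; rfl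
  rw [hg, colMap_std, k0, k1, k2]
  refine Eq.trans ?_ (vec8_eta y)
  simp only [Matrix.cons_val_zero, Matrix.cons_val_one, Matrix.cons_val, h0, h7]

end Cfsg.Agent.Cover5
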