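/-
`G₂(q)`, `q` even, is the union of the conjugates of two proper subgroups.
-/
import Cfsg.Agent.Cover5.Basic
import Cfsg.Agent.Cover5.G2Maps

set_option autoImplicit false
set_option maxHeartbeats 400000

namespace Cfsg.Agent.Cover5

open Cfsg.Lie Module
open scoped Matrix

variable {F : Type} [Field F]

/-- The unit. -/
def oneO : Fin 8 → F := ![1, 0, 0, 0, 0, 0, 0, 1]

/-- The norm. -/
def nrm (x : Fin 8 → F) : F := x 0 * x 7 - (x 1 * x 4 + x 2 * x 5 + x 3 * x 6)

/-- The trace. -/
def trc : (Fin 8 → F) →ₗ[F] F :=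
  (LinearMap.proj (0 : Fin 8) : (Fin 8 → F) →ₗ[F] F) + LinearMap.proj (7 : Fin 8)

theorem trc_apply (x : Fin 8 → F) : trc x = x 0 + x 7 := rfl

/-- The polar form of the norm. -/
def pol : (Fin 8 → F) →ₗ[F] (Fin 8 → F) →ₗ[F] F :=
  LinearMap.mk₂ F (fun x y => x 0 * y 7 + x 7 * y 0 -
      (x 1 * y 4 + x 2 * y 5 + x 3 * y 6 + x 4 * y 1 + x 5 * y 2 + x 6 * y 3))
    (fun x x' y => by simp only [Pi.add_apply]; ring)
    (fun c x y => by simp only [Pi.smul_apply, smul_eq_mul]; ring)
    (fun x y y' => by simp only [Pi.add_apply]; ring)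
    (fun c x y => by simp only [Pi.smul_apply, smul_eq_mul]; ring)

theorem pol_apply (x y : Fin 8 → F) : pol x y = x 0 * y 7 + x 7 * y 0 -
    (x 1 * y 4 + x 2 * y 5 + x 3 * y 6 + x 4 * y 1 + x 5 * y 2 + x 6 * y 3) := rfl

theorem nrm_add (x y : Fin 8 → F) : nrm (x + y) = nrm x + nrm y + pol x y := by
  simp only [nrm, pol_apply, Pi.add_apply]; ring

theorem pol_one (y : Fin 8 → F) : pol oneO y = trc y := by
  rw [pol_apply, trc_apply]; simp [oneO]; ring

theorem pol_comm (x y : Fin 8 → F) : pol x y = pol y x := by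
  simp only [pol_apply]; ring

theorem pol_injective : Function.Injective (pol : (Fin 8 → F) →ₗ[F] _) := by
  refine (injective_iff_map_eq_zero _).2 fun x hx => ?_
  have e := fun j : Fin 8 => LinearMap.congr_fun hx (Pi.single j 1)
  ext i
  fin_cases i
  · simpa [pol_apply] using e 7
  · simpa [pol_apply] using e 4
  · simpa [pol_apply] using e 5
  · simpa [pol_apply] using e 6
  · simpa [pol_apply] using e 1
  · simpa [pol_apply] using e 2
  · simpa [pol_apply] using e 3
  · simpa [pol_apply] using e 0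

theorem sq_identity (x : Fin 8 → F) : zornMul x x = trc x • x - nrm x • oneO := by
  ext i
  fin_cases i <;> simp [zornMul, zA, zB, dot3, cross3, trc_apply, nrm, oneO] <;> ring

theorem zornMul_one (x : Fin 8 → F) : zornMul oneO x = x := by
  ext i
  fin_cases i <;> simp [zornMul, zA, zB, dot3, cross3, oneO]

theorem one_zornMul (x : Fin 8 → F) : zornMul x oneO = x := by
  ext i
  fin_cases i <;> simp [zornMul, zA, zB, dot3, cross3, oneO]

theorem g2act_add (g : G2 F) (x y : Fin 8 → F) : g2act g (x + y) = g2act g x + g2act g y :=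
  Matrix.mulVec_add _ _ _

theorem g2act_smul (g : G2 F) (c : F) (x : Fin 8 → F) : g2act g (c • x) = c • g2act g x :=
  Matrix.mulVec_smul _ _ _

theorem g2act_sub (g : G2 F) (x y : Fin 8 → F) : g2act g (x - y) = g2act g x - g2act g y :=
  Matrix.mulVec_sub _ _ _

theorem g2act_inv (g : G2 F) (x : Fin 8 → F) : g2act g (g2act g⁻¹ x) = x := by
  rw [← g2act_mul, mul_inv_cancel, g2act_one]

theorem g2act_mulO (g : G2 F) (x y : Fin 8 → F) :
    g2act g (zornMul x y) = zornMul (g2act g x) (g2act g y) := g.2 x y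

theorem g2act_oneO (g : G2 F) : g2act g oneO = oneO := by
  calc g2act g oneO = zornMul (g2act g oneO) oneO := (one_zornMul _).symm
    _ = zornMul (g2act g oneO) (g2act g (g2act g⁻¹ oneO)) := by rw [g2act_inv]
    _ = g2act g (zornMul oneO (g2act g⁻¹ oneO)) := (g2act_mulO g _ _).symm
    _ = oneO := by rw [zornMul_one, g2act_inv]

/-- Trace and norm are invariant. -/
theorem g2act_trc_nrm (g : G2 F) (x : Fin 8 → F) :
    trc (g2act g x) = trc x ∧ nrm (g2act g x) = nrm x := by
  by_cases hs : ∃ μ : F, g2act g x = μ • oneO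
  · obtain ⟨μ, hμ⟩ := hs
    have hx : x = μ • oneO := by
      rw [← g2act_inv g⁻¹ x, inv_inv, hμ, g2act_smul, g2act_oneO]
    rw [hμ, hx]
    exact ⟨rfl, rfl⟩
  push Not at hs
  have h := congrArg (g2act g) (sq_identity x)
  rw [g2act_mulO, sq_identity, g2act_sub, g2act_smul, g2act_smul, g2act_oneO] at h
  have h' : (trc (g2act g x) - trc x) • g2act g x = (nrm (g2act g x) - nrm x) • oneO := by
    rw [sub_smul, sub_smul, sub_eq_sub_iff_sub_eq_sub]
    exact h
  have ht : trc (g2act g x) - trc x = 0 := by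
    by_contra hne
    refine hs ((trc (g2act g x) - trc x)⁻¹ * (nrm (g2act g x) - nrm x)) ?_
    rw [mul_smul, ← h', inv_smul_smul₀ hne]
  rw [ht, zero_smul, eq_comm, smul_eq_zero] at h'
  refine ⟨sub_eq_zero.1 ht, sub_eq_zero.1 (h'.resolve_right fun h0 => ?_)⟩
  simpa [oneO] using congrFun h0 0

theorem g2act_pol (g : G2 F) (x y : Fin 8 → F) : pol (g2act g x) (g2act g y) = pol x y := by
  have h := nrm_add (g2act g x) (g2act g y)
  rw [← g2act_add, (g2act_trc_nrm g _).2, (g2act_trc_nrm g x).2, (g2act_trc_nrm g y).2, nrm_add]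
    at h
  exact (add_left_cancel h).symm

variable [CharP F 2]

theorem trc_one : trc (oneO : Fin 8 → F) = 0 := by
  rw [trc_apply]; simp [oneO, CharTwo.add_self_eq_zero]

/-- The stabiliser of `{e, e + 1}`. -/
def pairStab (e : Fin 8 → F) : Subgroup (G2 F) where
  carrier := {g | g2act g e = e ∨ g2act g e = e + oneO}
  mul_mem' {g h} hg hh := by
    show g2act (g * h) e = e ∨ g2act (g * h) e = e + oneO
    rw [g2act_mul]
    rcases hh with hh | hh <;> rw [hh]
    · exact hg
    · rw [g2act_add, g2act_oneO]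
      rcases hg with hg | hg <;> rw [hg]
      · exact Or.inr rfl
      · left
        rw [add_assoc, ← two_smul F (oneO : Fin 8 → F), CharTwo.two_eq_zero, zero_smul, add_zero]
  one_mem' := Or.inl (g2act_one e)
  inv_mem' {g} hg := by
    show g2act g⁻¹ e = e ∨ g2act g⁻¹ e = e + oneO
    rcases hg with hg | hg
    · left
      conv_lhs => rw [← hg]
      rw [← g2act_mul, inv_mul_cancel, g2act_one]
    · right
      have h := congrArg (g2act g⁻¹) hg
      rw [← g2act_mul, inv_mul_cancel, g2act_one, g2act_add, g2act_oneO] at h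
      conv_rhs => rw [h]
      rw [add_assoc, ← two_smul F (oneO : Fin 8 → F), CharTwo.two_eq_zero, zero_smul, add_zero]

/-- Every automorphism fixes a pair `{e, e + 1}` with `trc e = 1`. -/
theorem exists_fixed_pair (g : G2 F) : ∃ e, trc e = 1 ∧ g ∈ pairStab e := by
  set e0 : Fin 8 → F := ![1, 0, 0, 0, 0, 0, 0, 0] with he0
  have ht0 : trc e0 = 1 := by simp [he0, trc_apply]
  set d := g2act g e0 + e0 with hd
  let M : (Fin 8 → F) →ₗ[F] (Fin 8 → F) :=
    (Matrix.toLin' ((g : GL (Fin 8) F) : Matrix (Fin 8) (Fin 8) F)) + LinearMap.id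
  have hM : ∀ x, M x = g2act g x + x := fun x => rfl
  by_cases hmem : d ∈ (LinearMap.ker trc).map M ⊔ F ∙ (oneO : Fin 8 → F)
  · obtain ⟨p, hp, r, hr, hpr⟩ := Submodule.mem_sup.1 hmem
    obtain ⟨w, hw, rfl⟩ := hp
    obtain ⟨μ, rfl⟩ := Submodule.mem_span_singleton.1 hr
    rw [SetLike.mem_coe, LinearMap.mem_ker] at hw
    refine ⟨e0 + w, by rw [map_add, ht0, hw, add_zero], ?_⟩
    have he : g2act g (e0 + w) = (e0 + w) + μ • oneO := by
      have h2 : ∀ z : Fin 8 → F, z + z = 0 := fun z => by
        ext i; exact CharTwo.add_self_eq_zero _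
      rw [g2act_add]
      have : g2act g e0 = g2act g w + w + μ • oneO + e0 := by
        rw [← hM, hpr, hd, add_assoc, h2, add_zero]
      rw [this]
      calc g2act g w + w + μ • oneO + e0 + g2act g w
          = (g2act g w + g2act g w) + (e0 + w + μ • oneO) := by abel
        _ = _ := by rw [h2, zero_add]
    have hN := (g2act_trc_nrm g (e0 + w)).2
    rw [he, nrm_add, map_smul, smul_eq_mul, pol_comm, pol_one, map_add, ht0, hw, add_zero,
      mul_one] at hN
    have hnμ : nrm (μ • (oneO : Fin 8 → F)) = μ * μ := by simp [nrm, oneO]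
    rw [hnμ, add_assoc, add_eq_left] at hN
    rcases mul_eq_zero.1 (show μ * (μ + 1) = 0 by linear_combination hN) with h | h
    · left; rw [he, h, zero_smul, add_zero]
    · right; rw [he, CharTwo.add_eq_zero.1 h, one_smul]
  · exfalso
    obtain ⟨f, hfd, hf⟩ := Submodule.exists_dual_map_eq_bot_of_notMem hmem inferInstance
    have hfL : ∀ x ∈ (LinearMap.ker trc).map M ⊔ F ∙ (oneO : Fin 8 → F), f x = 0 := fun x hx => by
      have := Submodule.mem_map_of_mem (f := f) hx
      rwa [hf, Submodule.mem_bot] at this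
    have hsurj : Function.Surjective (pol : (Fin 8 → F) →ₗ[F] _) :=
      (LinearMap.injective_iff_surjective_of_finrank_eq_finrank
        Subspace.dual_finrank_eq.symm).1 pol_injective
    obtain ⟨u, rfl⟩ := hsurj f
    have htu : trc u = 0 := by
      rw [← pol_one, pol_comm]
      exact hfL _ (Submodule.mem_sup_right (Submodule.mem_span_singleton_self _))
    set v := g2act g⁻¹ u + u with hv
    have hvW : ∀ x, trc x = 0 → pol v x = 0 := by
      intro x hx
      have h1 := hfL _ (Submodule.mem_sup_left (Submodule.mem_map_of_mem (f := M)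
        (LinearMap.mem_ker.2 hx)))
      rw [hM, map_add] at h1
      rw [hv, map_add, LinearMap.add_apply, ← g2act_pol g (g2act g⁻¹ u) x, g2act_inv]
      exact h1
    have hvs : v = pol v e0 • oneO := by
      apply pol_injective
      refine LinearMap.ext fun x => ?_
      have h1 := hvW (x - trc x • e0) (by rw [map_sub, map_smul, ht0, smul_eq_mul, mul_one, sub_self])
      rw [map_sub, map_smul, smul_eq_mul, sub_eq_zero] at h1
      rw [map_smul, LinearMap.smul_apply, smul_eq_mul, pol_one, h1, mul_comm]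
    set μ := pol v e0
    have hgu : g2act g⁻¹ u = u + μ • oneO := by
      rw [← hvs, hv, add_comm (g2act g⁻¹ u), ← add_assoc,
        ← two_smul F u, CharTwo.two_eq_zero, zero_smul, zero_add]
    have hN := (g2act_trc_nrm g⁻¹ u).2
    have hnμ : nrm (μ • (oneO : Fin 8 → F)) = μ * μ := by simp [nrm, oneO]
    rw [hgu, nrm_add, map_smul, smul_eq_mul, pol_comm, pol_one, htu, mul_zero, add_zero, hnμ,
      add_eq_left] at hN
    rw [mul_self_eq_zero.1 hN, zero_smul, add_zero] at hgu
    have hgu' : g2act g u = u := by conv_lhs => rw [← hgu, g2act_inv]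
    apply hfd
    rw [hd, map_add, ← g2act_pol g u e0, hgu', CharTwo.add_self_eq_zero]

theorem g2_cover [Fintype F] (hq : 2 < Fintype.card F) : HasTwoCover (G2 F) := by
  classical
  -- the Artin–Schreier map
  let ψ : F →+ F := AddMonoidHom.mk' (fun z => z ^ 2 + z) (fun x y => by
    show (x + y) ^ 2 + (x + y) = _
    rw [CharTwo.add_sq]; ring)
  have hψ : ∀ z, ψ z = z ^ 2 + z := fun z => rfl
  have hker : (ψ.ker : Set F) = {0, 1} := by
    ext z
    simp only [SetLike.mem_coe, AddMonoidHom.mem_ker, hψ, Set.mem_insert_iff,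
      Set.mem_singleton_iff]
    constructor
    · intro hz
      rcases mul_eq_zero.1 (show z * (z + 1) = 0 by linear_combination hz) with h | h
      · exact Or.inl h
      · exact Or.inr (CharTwo.add_eq_zero.1 h)
    · rintro (rfl | rfl) <;> simp [CharTwo.add_self_eq_zero]
  have hindex : ψ.range.index = 2 := by
    have h1 : Nat.card ψ.ker = 2 := by
      rw [← SetLike.coe_sort_coe, Nat.card_coe_set_eq, hker, Set.ncard_pair zero_ne_one]
    have h2 := AddSubgroup.index_mul_card ψ.range
    have h3 : Nat.card F = Nat.card ψ.range * Nat.card ψ.ker := by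
      rw [AddSubgroup.card_eq_card_quotient_mul_card_addSubgroup ψ.ker,
        Nat.card_congr (QuotientAddGroup.quotientKerEquivRange ψ).toEquiv]
    rw [h3, h1, mul_comm (Nat.card ψ.range) 2] at h2
    exact Nat.eq_of_mul_eq_mul_right Nat.card_pos h2
  obtain ⟨c, hcr⟩ : ∃ c : F, c ∉ ψ.range := by
    by_contra! hall
    rw [(AddSubgroup.eq_top_iff' _).2 hall, AddSubgroup.index_top] at hindex
    omega
  have hc : ∀ z : F, z * (1 - z) ≠ c := fun z hz => hcr ⟨z, by
    rw [hψ, ← hz, CharTwo.sub_eq_add]; ring⟩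
  set e0 : Fin 8 → F := ![1, 0, 0, 0, 0, 0, 0, 0] with he0
  set e1 : Fin 8 → F := ![1, 1, 0, 0, -c, 0, 0, 0] with he1
  have hc0 : c ≠ 0 := fun h => hcr (h ▸ ψ.range.zero_mem)
  obtain ⟨r, hr0, hr1⟩ : ∃ r : F, r ≠ 0 ∧ r ≠ 1 := by
    by_contra! hall
    have := Finset.card_le_card (show (Finset.univ : Finset F) ⊆ {0, 1} from fun z _ => by
      by_cases hz : z = 0
      · simp [hz]
      · simp [hall z hz])
    rw [Finset.card_univ] at this
    have h2 := (Finset.card_le_two : ({0, 1} : Finset F).card ≤ 2)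
    omega
  refine ⟨pairStab e0, pairStab e1, ?_, ?_, fun g => ?_⟩
  · obtain ⟨g, hg⟩ := G2Orb.symm (g2Orb_idem (![1, 1, 0, 0, 0, 0, 0, 0] : Fin 8 → F)
      (by simp) (by simp))
    refine ne_top_of_not_mem (g := g) ?_
    rintro (h | h) <;> rw [hg] at h <;> simpa [he0, oneO] using congrFun h 1
  · obtain ⟨g, hg⟩ := G2Orb.symm (g2Orb_norm (![1, r, 0, 0, -c / r, 0, 0, 0] : Fin 8 → F) hc
      (by simp) (by simp; field_simp))
    refine ne_top_of_not_mem (g := g) ?_
    rintro (h | h) <;> rw [hg] at h <;> exact hr1 (by simpa [he1, oneO] using congrFun h 1)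
  · obtain ⟨e, ht, hg⟩ := exists_fixed_pair g
    -- shift to a normal form
    have hshift : ∀ s : F, g ∈ pairStab (e + s • oneO) ∧ trc (e + s • oneO) = 1 ∧
        nrm (e + s • oneO) = nrm e + ψ s := by
      intro s
      refine ⟨?_, by rw [map_add, map_smul, trc_one, ht, smul_zero, add_zero], ?_⟩
      · show g2act g _ = _ ∨ g2act g _ = _
        rw [g2act_add, g2act_smul, g2act_oneO]
        rcases hg with h | h <;> rw [h]
        · exact Or.inl rfl
        · exact Or.inr (by abel)
      · rw [nrm_add, map_smul, smul_eq_mul, pol_comm, pol_one, ht, hψ]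
        simp [nrm, oneO]; ring
    have key : ∀ (e' target : Fin 8 → F), G2Orb e' target → g ∈ pairStab e' →
        ∃ x : G2 F, x * g * x⁻¹ ∈ pairStab target := by
      intro e' target ⟨x, hx⟩ h
      refine ⟨x, ?_⟩
      show g2act _ target = target ∨ g2act _ target = target + oneO
      have hx' : g2act x⁻¹ target = e' := by
        rw [← hx, ← g2act_mul, inv_mul_cancel, g2act_one]
      rw [g2act_mul, g2act_mul, hx']
      rcases h with h | h <;> rw [h]
      · exact Or.inl hx
      · exact Or.inr (by rw [g2act_add, hx, g2act_oneO])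
    by_cases hn : nrm e ∈ ψ.range
    · obtain ⟨s, hs⟩ := hn
      obtain ⟨h1, h2, h3⟩ := hshift s
      rw [hs, CharTwo.add_self_eq_zero] at h3
      obtain ⟨x, hx⟩ := key _ e0 (g2Orb_idem _ ((trc_apply _).symm.trans h2) h3) h1
      exact ⟨x, Or.inl hx⟩
    · obtain ⟨s, hs⟩ : nrm e + c ∈ ψ.range :=
        (AddSubgroup.add_mem_iff_of_index_two hindex).2 (iff_of_false hn hcr)
      obtain ⟨h1, h2, h3⟩ := hshift s
      rw [hs, ← add_assoc, CharTwo.add_self_eq_zero, zero_add] at h3
      obtain ⟨x, hx⟩ := key _ e1 (g2Orb_norm _ hc ((trc_apply _).symm.trans h2) h3) h1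
      exact ⟨x, Or.inr hx⟩

end Cfsg.Agent.Cover5
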