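/-
`PSL_2`, `PSL_3`, `PSL_4` are unions of the conjugates of two proper subgroups.
-/
import Cfsg.Agent.Cover5.Basic
import Cfsg.Agent.Cover5.Field

set_option autoImplicit false
set_option linter.style.haveILetI false

namespace Cfsg.Agent.Cover5

open Module Polynomial

variable {F : Type} [Field F]

theorem exists_irreducible_natDegree [Finite F] {d : ℕ} (hd : 0 < d) :
    ∃ f : F[X], Irreducible f ∧ f.natDegree = d := by
  haveI : NeZero d := ⟨hd.ne'⟩
  obtain ⟨p, hp⟩ := CharP.exists F
  haveI : Fact p.Prime := ⟨CharP.char_is_prime F p⟩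
  obtain ⟨α, hα⟩ := Field.exists_primitive_element F (FiniteField.Extension F p d)
  have hi : IsIntegral F α := Algebra.IsIntegral.isIntegral α
  refine ⟨minpoly F α, minpoly.irreducible hi, ?_⟩
  rw [← IntermediateField.adjoin.finrank hi, hα, IntermediateField.finrank_top',
    FiniteField.finrank_extension]

theorem exists_annihilated [Finite F] {f : F[X]} (hf : Irreducible f) {n : ℕ}
    (hd : f.natDegree ∣ n) : ∃ J : Module.End F (Fin n → F), aeval J f = 0 := by
  haveI := Fact.mk hf
  haveI : FiniteDimensional F (AdjoinRoot f) := (AdjoinRoot.powerBasis hf.ne_zero).finite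
  obtain ⟨k, hk⟩ := hd
  have hdim : finrank F (Fin k → AdjoinRoot f) = finrank F (Fin n → F) := by
    rw [finrank_pi_fintype, (AdjoinRoot.powerBasis hf.ne_zero).finrank, AdjoinRoot.powerBasis_dim,
      Finset.sum_const, Finset.card_univ, Fintype.card_fin, finrank_fin_fun, hk, smul_eq_mul,
      mul_comm]
  refine ⟨(LinearEquiv.ofFinrankEq _ _ hdim).conjAlgEquiv F
    (Algebra.lsmul F F (Fin k → AdjoinRoot f) (AdjoinRoot.root f)), ?_⟩
  rw [← AlgEquiv.coe_toAlgHom, aeval_algHom_apply, aeval_algHom_apply]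
  simp [AdjoinRoot.aeval_eq]

variable {n : ℕ}

/-- The action of `SL_n` on column vectors. -/
noncomputable abbrev slRho (n : ℕ) (F : Type) [Field F] :
    Matrix.SpecialLinearGroup (Fin n) F →* ((Fin n → F) ≃ₗ[F] (Fin n → F)) :=
  Matrix.SpecialLinearGroup.toLin'

theorem exists_sl (T : (Fin n → F) →ₗ[F] (Fin n → F)) (h : LinearMap.det T = 1) :
    ∃ g : Matrix.SpecialLinearGroup (Fin n) F, ∀ x, slRho n F g x = T x :=
  ⟨⟨LinearMap.toMatrix' T, by rw [LinearMap.det_toMatrix', h]⟩, fun x => by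
    show Matrix.toLin' (LinearMap.toMatrix' T) x = T x
    rw [Matrix.toLin'_toMatrix']⟩

theorem exists_sl_shear {u w : Fin n → F} (h : w ∉ F ∙ u) :
    ∃ g : Matrix.SpecialLinearGroup (Fin n) F, slRho n F g u = u ∧ slRho n F g w = w + u := by
  obtain ⟨φ, hφw, hφu⟩ := Submodule.exists_dual_map_eq_bot_of_notMem h inferInstance
  have hu0 : φ u = 0 := by
    have : φ u ∈ (F ∙ u).map φ := Submodule.mem_map_of_mem (Submodule.mem_span_singleton_self u)
    rwa [hφu, Submodule.mem_bot] at this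
  obtain ⟨g, hg⟩ := exists_sl (LinearMap.transvection φ ((φ w)⁻¹ • u)) (by
    rw [LinearMap.transvection.det]; simp [hu0])
  refine ⟨g, ?_, ?_⟩
  · rw [hg, LinearMap.transvection.apply]; simp [hu0]
  · rw [hg, LinearMap.transvection.apply, smul_smul, mul_inv_cancel₀ hφw, one_smul]

theorem exists_sl_line (hn : 2 ≤ n) {u e : Fin n → F} (hu : u ≠ 0) (he : e ≠ 0) :
    ∃ g : Matrix.SpecialLinearGroup (Fin n) F, slRho n F g u = e := by
  have he' : LinearIndepOn F id ({e} : Set (Fin n → F)) := LinearIndepOn.singleton he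
  have hu' : LinearIndepOn F id ({u} : Set (Fin n → F)) := LinearIndepOn.singleton hu
  obtain ⟨bu, iu, hiu⟩ : ∃ (b : Basis (Fin n) F (Fin n → F)) (i : Fin n), b i = u := by
    let b := Basis.extend hu'
    let i0 : hu'.extend (Set.subset_univ _) := ⟨u, hu'.subset_extend _ (Set.mem_singleton u)⟩
    haveI : Fintype (hu'.extend (Set.subset_univ _)) := FiniteDimensional.fintypeBasisIndex b
    let σ := Fintype.equivFinOfCardEq (α := hu'.extend (Set.subset_univ _)) (n := n)
      (by rw [← finrank_eq_card_basis b, finrank_fin_fun])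
    exact ⟨b.reindex σ, σ i0, by simp [b, i0]⟩
  obtain ⟨be, ie, hie⟩ : ∃ (b : Basis (Fin n) F (Fin n → F)) (i : Fin n), b i = e := by
    let b := Basis.extend he'
    let i0 : he'.extend (Set.subset_univ _) := ⟨e, he'.subset_extend _ (Set.mem_singleton e)⟩
    haveI : Fintype (he'.extend (Set.subset_univ _)) := FiniteDimensional.fintypeBasisIndex b
    let σ := Fintype.equivFinOfCardEq (α := he'.extend (Set.subset_univ _)) (n := n)
      (by rw [← finrank_eq_card_basis b, finrank_fin_fun])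
    exact ⟨b.reindex σ, σ i0, by simp [b, i0]⟩
  let T := bu.equiv be (Equiv.swap iu ie)
  haveI : Nontrivial (Fin n) := ⟨⟨⟨0, by omega⟩, ⟨1, by omega⟩, by simp⟩⟩
  obtain ⟨j, hj⟩ := exists_ne ie
  let w : Fin n → F := Function.update 1 j (LinearMap.det (T : (Fin n → F) →ₗ[F] Fin n → F))⁻¹
  let D := Matrix.toLin be be (Matrix.diagonal w)
  obtain ⟨g, hg⟩ := exists_sl (D ∘ₗ (T : (Fin n → F) →ₗ[F] Fin n → F)) (by
    rw [LinearMap.det_comp, LinearMap.det_toLin, Matrix.det_diagonal,
      Finset.prod_update_of_mem (Finset.mem_univ _)]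
    simp [inv_mul_cancel₀ T.isUnit_det'.ne_zero])
  refine ⟨g, ?_⟩
  rw [hg, ← hiu, LinearMap.comp_apply, LinearEquiv.coe_coe, Basis.equiv_apply,
    Equiv.swap_apply_left, Matrix.toLin_self, Finset.sum_eq_single ie (fun i _ hi => by
      rw [Matrix.diagonal_apply_ne _ hi, zero_smul]) (by simp)]
  simp [w, Function.update_of_ne hj.symm, hie]

theorem exists_not_mem_span (hn : 2 ≤ n) (u : Fin n → F) : ∃ w : Fin n → F, w ∉ F ∙ u := by
  refine SetLike.exists_not_mem_of_ne_top (F ∙ u) (fun h => ?_) rfl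
  have h1 := finrank_span_le_card (R := F) ({u} : Set (Fin n → F))
  rw [h, finrank_top, finrank_fin_fun] at h1
  simp at h1
  omega

theorem psl_cover [Finite F] (hn : 2 ≤ n) {d : ℕ} (hd : 2 ≤ d) (hdn : d ∣ n)
    (hdeg : ∀ g : Module.End F (Fin n → F), (∀ μ : F, ¬ g.HasEigenvalue μ) →
      ∀ p : F[X], Irreducible p → p ∣ minpoly F g → d ∣ p.natDegree) :
    HasTwoCover (Matrix.ProjectiveSpecialLinearGroup (Fin n) F) := by
  obtain ⟨f, hf, hfd⟩ := exists_irreducible_natDegree (F := F) (show 0 < d by omega)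
  obtain ⟨J, hJ⟩ := exists_annihilated (n := n) hf (hfd ▸ hdn)
  haveI : NeZero n := ⟨by omega⟩
  set e : Fin n → F := Pi.single 0 1 with he
  have he0 : e ≠ 0 := by simp [he]
  have hcen : ∀ z ∈ Subgroup.center (Matrix.SpecialLinearGroup (Fin n) F),
      ∃ c : F, ∀ x, slRho n F z x = c • x := by
    intro z hz
    obtain ⟨c, -, hc⟩ := Matrix.SpecialLinearGroup.mem_center_iff.1 hz
    exact ⟨c, fun x => by
      rw [Matrix.SpecialLinearGroup.toLin'_apply, ← hc]
      ext i; simp [Matrix.mulVec_diagonal]⟩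
  refine hasTwoCover_quot (stabSub (slRho n F) (F ∙ e)) (shiftStab (slRho n F) J ⊥)
    (fun z hz => by obtain ⟨c, hc⟩ := hcen z hz; exact scalar_mem_stabSub hc _)
    (fun z hz => by obtain ⟨c, hc⟩ := hcen z hz; exact scalar_mem_shiftStab hc _ _) ?_ ?_ ?_
  · obtain ⟨w, hw⟩ := exists_not_mem_span hn e
    have hw0 : w ≠ 0 := fun h => hw (h ▸ Submodule.zero_mem _)
    obtain ⟨g, hg⟩ := exists_sl_line hn he0 hw0
    exact ne_top_of_not_mem (g := g) fun h =>
      hw (hg ▸ (h e).1 (Submodule.mem_span_singleton_self e))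
  · obtain ⟨v, hv⟩ : ∃ v, J v ∉ F ∙ v := by
      by_contra! hall
      obtain ⟨a, ha⟩ : ∃ a : F, ∀ v, J v = a • v := by
        obtain ⟨a, ha⟩ := (LinearMap.exists_eq_smul_id_of_forall_notLinearIndependent (f := J)
          fun v hli => by
            obtain ⟨c, hc⟩ := Submodule.mem_span_singleton.1 (hall v)
            have := LinearIndependent.pair_iff.1 hli c (-1) (by rw [hc]; simp)
            simp at this)
        exact ⟨a, fun v => by rw [ha]; rfl⟩
      have h1 : aeval J f = algebraMap F _ (f.eval a) := by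
        rw [show J = algebraMap F (Module.End F (Fin n → F)) a from LinearMap.ext ha,
          aeval_algebraMap_apply, coe_aeval_eq_eval]
      rw [hJ, eq_comm, map_eq_zero] at h1
      exact hf.not_isRoot_of_natDegree_ne_one (by omega) h1
    have hv0 : v ≠ 0 := fun h => hv (by simp [h])
    obtain ⟨g, hg1, hg2⟩ := exists_sl_shear hv
    refine ne_top_of_not_mem (g := g) ?_
    rintro ⟨i, hi, h⟩
    rw [AddSubgroup.mem_bot] at hi
    subst hi
    have := h v
    rw [hg2, hg1, zero_smul, add_zero] at this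
    exact hv0 (by simpa using this)
  · intro g
    by_cases hev : ∃ μ : F, Module.End.HasEigenvalue (slRho n F g : Module.End F (Fin n → F)) μ
    · obtain ⟨μ, hμ⟩ := hev
      obtain ⟨v, hv⟩ := hμ.exists_hasEigenvector
      obtain ⟨x, hx⟩ := exists_sl_line hn hv.2 he0
      refine ⟨x, Or.inl (conj_mem_stabSub (W' := F ∙ v) (fun y hy => ?_) ?_)⟩
      · obtain ⟨c, rfl⟩ := Submodule.mem_span_singleton.1 hy
        have := hv.apply_eq_smul
        rw [LinearEquiv.coe_coe] at this
        rw [map_smul, this]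
        exact Submodule.smul_mem _ _ (Submodule.smul_mem _ _ (Submodule.mem_span_singleton_self v))
      · rw [Submodule.map_span, Set.image_singleton, LinearEquiv.coe_coe, hx]
    · push Not at hev
      obtain ⟨y, hy, hyf⟩ := exists_root_mem_adjoin hf (slRho n F g : Module.End F (Fin n → F))
        fun p hp hpd => hfd ▸ hdeg _ hev p hp hpd
      obtain ⟨T, hT, hdet⟩ := exists_conj hf J hyf hJ (one_ne_zero (α := F))
      obtain ⟨x, hx⟩ := exists_sl (T : (Fin n → F) →ₗ[F] Fin n → F) hdet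
      refine ⟨x, Or.inr (conj_mem_centStab (J' := y) (fun z => ?_) fun z => ?_)⟩
      · have hc : Commute (slRho n F g : Module.End F (Fin n → F)) y :=
          Algebra.commute_of_mem_adjoin_singleton_of_commute hy (Commute.refl _)
        exact LinearMap.congr_fun hc.eq z
      · rw [hx, hx]; exact hT z

theorem minpoly_factor_natDegree (g : Module.End F (Fin n → F)) (h : ∀ μ : F, ¬ g.HasEigenvalue μ)
    {p : F[X]} (hp : Irreducible p) (hd : p ∣ minpoly F g) :
    2 ≤ p.natDegree ∧ p.natDegree ≤ n ∧ p.natDegree + 1 ≠ n := by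
  have hc : g.charpoly.natDegree = n := by rw [LinearMap.charpoly_natDegree, finrank_fin_fun]
  have hroot : ∀ r : F[X], r ∣ g.charpoly → r.natDegree ≠ 1 := by
    intro r hr h1
    obtain ⟨μ, hμ⟩ := exists_root_of_degree_eq_one (p := r)
      ((degree_eq_iff_natDegree_eq_of_pos one_pos).2 h1)
    exact h μ ((Module.End.hasEigenvalue_iff_isRoot_charpoly g μ).2 (hμ.dvd hr))
  have hne : g.charpoly ≠ 0 := g.charpoly_monic.ne_zero
  obtain ⟨r, hr⟩ := hd.trans g.minpoly_dvd_charpoly
  have hr0 : r ≠ 0 := fun h0 => hne (by rw [hr, h0, mul_zero])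
  have hadd : p.natDegree + r.natDegree = n := by rw [← natDegree_mul hp.ne_zero hr0, ← hr, hc]
  have h1 := hroot p ⟨r, hr⟩
  have h2 := hroot r ⟨p, hr.trans (mul_comm _ _)⟩
  have h3 := hp.natDegree_pos
  omega

theorem psl_two_cover [Finite F] : HasTwoCover (Matrix.ProjectiveSpecialLinearGroup (Fin 2) F) :=
  psl_cover le_rfl le_rfl dvd_rfl fun g hg p hp hd => by
    obtain ⟨h1, h2, -⟩ := minpoly_factor_natDegree g hg hp hd
    exact ⟨1, by omega⟩

theorem psl_three_cover [Finite F] : HasTwoCover (Matrix.ProjectiveSpecialLinearGroup (Fin 3) F) :=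
  psl_cover (d := 3) (by omega) (by omega) dvd_rfl fun g hg p hp hd => by
    obtain ⟨h1, h2, h3⟩ := minpoly_factor_natDegree g hg hp hd
    exact ⟨1, by omega⟩

theorem psl_four_cover [Finite F] : HasTwoCover (Matrix.ProjectiveSpecialLinearGroup (Fin 4) F) :=
  psl_cover (d := 2) (by omega) le_rfl ⟨2, rfl⟩ fun g hg p hp hd => by
    obtain ⟨h1, h2, h3⟩ := minpoly_factor_natDegree g hg hp hd
    exact ⟨p.natDegree / 2, by omega⟩

end Cfsg.Agent.Cover5
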