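/-
The symplectic group on column vectors, for covering by two subgroups.
-/
import Cfsg.Agent.Cover5.Basic
import Cfsg.Agent.Linear.Symplectic

set_option autoImplicit false
set_option linter.style.haveILetI false

namespace Cfsg.Agent.Cover5

open Module Cfsg.Agent.Forms Cfsg.Agent.Linear
open scoped Matrix

variable {F : Type} [Field F] {m : ℕ}

/-- `Sp` on column vectors. -/
noncomputable def spRho (m : ℕ) (F : Type) [Field F] :
    Matrix.symplecticGroup (Fin m) F →* ((Fin m ⊕ Fin m → F) ≃ₗ[F] (Fin m ⊕ Fin m → F)) where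
  toFun g :=
    { Matrix.toLin' g.1 with
      invFun := fun v => Symp.app g⁻¹ v
      left_inv := fun v => Symp.app_inv_app g v
      right_inv := fun v => by
        show Symp.app g (Symp.app g⁻¹ v) = v
        rw [← Symp.app_mul, mul_inv_cancel, Symp.app_one] }
  map_one' := LinearEquiv.ext fun v => Symp.app_one v
  map_mul' g h := LinearEquiv.ext fun v => Symp.app_mul g h v

theorem spRho_apply (g : Matrix.symplecticGroup (Fin m) F) (v : Fin m ⊕ Fin m → F) :
    spRho m F g v = Symp.app g v := rfl

theorem spRho_bil (g : Matrix.symplecticGroup (Fin m) F) (u v : Fin m ⊕ Fin m → F) :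
    sympBil m F (spRho m F g u) (spRho m F g v) = sympBil m F u v := Symp.sympBil_app g u v

theorem exists_sp (T : (Fin m ⊕ Fin m → F) →ₗ[F] (Fin m ⊕ Fin m → F))
    (h : ∀ u v, sympBil m F (T u) (T v) = sympBil m F u v) :
    ∃ g : Matrix.symplecticGroup (Fin m) F, ∀ x, spRho m F g x = T x :=
  ⟨⟨LinearMap.toMatrix' T, mem_symplecticGroup_iff_sympForm.2 fun u v => by
    simpa [← sympBil_apply, LinearMap.toMatrix'_mulVec] using h u v⟩, fun x => by
    show LinearMap.toMatrix' T *ᵥ x = T x
    rw [LinearMap.toMatrix'_mulVec]⟩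

theorem sp_center_scalar [NeZero m] (z : Matrix.symplecticGroup (Fin m) F)
    (hz : z ∈ Subgroup.center (Matrix.symplecticGroup (Fin m) F)) :
    ∃ c : F, c ^ 2 = 1 ∧ ∀ v, spRho m F z v = c • v := Symp.center_scalar hz

end Cfsg.Agent.Cover5
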