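/-
`PSp_{2m}(F)`, `|F|` even: every element fixes a quadratic form polarising to the symplectic form.
-/
import Cfsg.Agent.Cover5.SpBase
import Cfsg.Agent.Forms.FiniteQuadratic

set_option autoImplicit false
set_option linter.style.haveILetI false

namespace Cfsg.Agent.Cover5

open Module Cfsg.Agent.Forms Cfsg.Agent.Linear

variable {F : Type} [Field F] {m : ℕ}

/-- Quadratic forms polarising to the symplectic form. -/
def IsPolarized (m : ℕ) (Q : (Fin m ⊕ Fin m → F) → F) : Prop :=
  (∀ x y, Q (x + y) = Q x + Q y + sympBil m F x y) ∧ ∀ (a : F) x, Q (a • x) = a ^ 2 * Q x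

/-- The stabiliser of a function. -/
def stabQ (m : ℕ) (Q : (Fin m ⊕ Fin m → F) → F) : Subgroup (Matrix.symplecticGroup (Fin m) F) where
  carrier := {g | ∀ v, Q (spRho m F g v) = Q v}
  mul_mem' {a b} ha hb := fun v => by rw [rho_mul, ha, hb]
  one_mem' := fun v => by rw [map_one]; rfl
  inv_mem' {a} ha := fun v => by
    conv_rhs => rw [← rho_apply_inv (spRho m F) a v, ha]

variable [CharP F 2]

theorem isPolarized_add_sq {Q : (Fin m ⊕ Fin m → F) → F} (hQ : IsPolarized m Q)
    (k : (Fin m ⊕ Fin m → F) →ₗ[F] F) : IsPolarized m (fun v => Q v + k v ^ 2) :=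
  ⟨fun x y => by
    show Q (x + y) + k (x + y) ^ 2 = _
    rw [hQ.1, map_add, CharTwo.add_sq]; ring,
  fun a x => by
    show Q (a • x) + k (a • x) ^ 2 = _
    rw [hQ.2, map_smul, smul_eq_mul]; ring⟩

theorem isPolarized_plus : IsPolarized m (Cfsg.quadFormPlus m F) := by
  refine ⟨fun x y => ?_, fun a x => ?_⟩
  · rw [sympBil_apply, sympForm_apply]
    simp only [Cfsg.quadFormPlus, Pi.add_apply, CharTwo.sub_eq_add, ← Finset.sum_add_distrib]
    refine Finset.sum_congr rfl fun i _ => ?_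
    ring
  · simp only [Cfsg.quadFormPlus, Pi.smul_apply, smul_eq_mul, Finset.mul_sum]
    exact Finset.sum_congr rfl fun i _ => by ring

variable [Finite F]

/-- Every symplectic transformation fixes a polarised form. -/
theorem exists_fixed_form (g : Matrix.symplecticGroup (Fin m) F) :
    ∃ Q, IsPolarized m Q ∧ g ∈ stabQ m Q := by
  haveI : PerfectRing F 2 := PerfectRing.ofFiniteOfIsReduced 2 F
  set Q0 := Cfsg.quadFormPlus m F with hQ0
  have h0 : IsPolarized m Q0 := isPolarized_plus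
  let r : F → F := fun x => (frobeniusEquiv F 2).symm x
  have hr : ∀ x : F, r x ^ 2 = x := fun x =>
    frobeniusEquiv_symm_pow_p F 2 x
  have hinj : ∀ x y : F, x ^ 2 = y ^ 2 → x = y := fun x y h => CharTwo.sq_injective h
  let T := spRho m F g
  let D : (Fin m ⊕ Fin m → F) → F := fun x => Q0 (T x) + Q0 x
  let ell : (Fin m ⊕ Fin m → F) →ₗ[F] F :=
    { toFun := fun x => r (D x)
      map_add' := fun x y => hinj _ _ (by
        rw [hr, CharTwo.add_sq, hr, hr]
        show Q0 (T (x + y)) + Q0 (x + y) = (Q0 (T x) + Q0 x) + (Q0 (T y) + Q0 y)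
        rw [map_add, h0.1, h0.1, spRho_bil]
        linear_combination CharTwo.add_self_eq_zero (sympBil m F x y))
      map_smul' := fun a x => hinj _ _ (by
        rw [hr, RingHom.id_apply, smul_eq_mul, mul_pow, hr]
        show Q0 (T (a • x)) + Q0 (a • x) = a ^ 2 * (Q0 (T x) + Q0 x)
        rw [map_smul, h0.2, h0.2]; ring) }
  have hell : ∀ x, ell x ^ 2 = Q0 (T x) + Q0 x := fun x => hr _
  set M : (Fin m ⊕ Fin m → F) →ₗ[F] (Fin m ⊕ Fin m → F) := T.toLinearMap - LinearMap.id with hM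
  have hker : ell ∈ (LinearMap.ker M).dualAnnihilator := by
    rw [Submodule.mem_dualAnnihilator]
    intro x hx
    rw [LinearMap.mem_ker, hM, LinearMap.sub_apply, sub_eq_zero] at hx
    refine hinj _ _ ?_
    rw [hell, show T x = x from hx, CharTwo.add_self_eq_zero, zero_pow two_ne_zero]
  rw [← LinearMap.range_dualMap_eq_dualAnnihilator_ker] at hker
  obtain ⟨k, hk⟩ := hker
  refine ⟨fun v => Q0 v + k v ^ 2, isPolarized_add_sq h0 k, fun v => ?_⟩
  show Q0 (T v) + k (T v) ^ 2 = Q0 v + k v ^ 2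
  have h1 : ell v = k (T v) + k v := by
    rw [← hk, LinearMap.dualMap_apply, hM, LinearMap.sub_apply, map_sub, CharTwo.sub_eq_add]
    rfl
  have h2 := hell v
  rw [h1, CharTwo.add_sq] at h2
  linear_combination h2 - CharTwo.add_self_eq_zero (k v ^ 2) + CharTwo.add_self_eq_zero (Q0 (T v))

/-- The reference form of minus type. -/
def qMinus (m : ℕ) (r : F) (v : Fin (m + 1) ⊕ Fin (m + 1) → F) : F :=
  Cfsg.quadFormPlus (m + 1) F v + (v (Sum.inl 0) + r * v (Sum.inr 0)) ^ 2

omit [Finite F] in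
theorem isPolarized_qMinus (m : ℕ) (r : F) : IsPolarized (m + 1) (qMinus m r) :=
  isPolarized_add_sq (F := F) (m := m + 1) isPolarized_plus
    ((LinearMap.proj (Sum.inl 0) : (Fin (m + 1) ⊕ Fin (m + 1) → F) →ₗ[F] F) + r • LinearMap.proj (Sum.inr 0))

omit [CharP F 2] [Finite F] in
theorem exists_iso_form {Q Q' : (Fin m ⊕ Fin m → F) → F} (hQ : IsPolarized m Q)
    (hQ' : IsPolarized m Q') (e : (Fin m ⊕ Fin m → F) ≃ₗ[F] (Fin m ⊕ Fin m → F))
    (he : ∀ v, Q v = Q' (e v)) :
    ∃ x : Matrix.symplecticGroup (Fin m) F, ∀ v, Q v = Q' (spRho m F x v) := by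
  obtain ⟨x, hx⟩ := exists_sp (e : (Fin m ⊕ Fin m → F) →ₗ[F] _) fun u v => by
    have h1 := hQ.1 u v
    rw [he, he, he, map_add, hQ'.1] at h1
    exact add_left_cancel h1
  exact ⟨x, fun v => by rw [hx, he]; rfl⟩

theorem psp_even_cover (hm : 2 ≤ m) : HasTwoCover (Cfsg.PSp m F) := by
  obtain ⟨m, rfl⟩ : ∃ k, m = k + 1 := ⟨m - 1, by omega⟩
  haveI : PerfectRing F 2 := PerfectRing.ofFiniteOfIsReduced 2 F
  obtain ⟨a, b, hab⟩ := exists_binaryAniso (F := F)
  obtain ⟨sb, hsb⟩ : ∃ s : F, s ^ 2 = b :=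
    ⟨(frobeniusEquiv F 2).symm b, frobeniusEquiv_symm_pow_p F 2 b⟩
  have ha : a ≠ 0 := fun h => by
    have := hab sb 1 (by
      rw [h, hsb]; linear_combination CharTwo.add_self_eq_zero b)
    exact one_ne_zero this.2
  set r := sb / a with hr
  -- the standard model of minus type
  let eM : (Fin (m + 1) ⊕ Fin (m + 1) → F) ≃ₗ[F] ((Fin m ⊕ Fin m) ⊕ Fin 2 → F) :=
    { toFun := fun v => Sum.elim (Sum.elim (fun i => v (.inl i.succ)) (fun i => v (.inr i.succ)))
        ![v (.inl 0), v (.inr 0) / a]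
      invFun := fun y => Sum.elim (Fin.cons (y (.inr 0)) fun i => y (.inl (.inl i)))
        (Fin.cons (a * y (.inr 1)) fun i => y (.inl (.inr i)))
      map_add' := fun x y => by
        ext ((i | i) | j) <;> first | rfl | (fin_cases j <;> simp [add_div])
      map_smul' := fun c x => by
        ext ((i | i) | j) <;> first | rfl | (fin_cases j <;> simp [mul_div_assoc])
      left_inv := fun x => by
        ext (i | i) <;> cases i using Fin.cases <;> simp [mul_div_cancel₀ _ ha]
      right_inv := fun y => by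
        ext ((i | i) | j)
        · simp
        · simp
        · fin_cases j <;> simp [mul_div_cancel_left₀ _ ha] }
  have heM : ∀ v, qMinus m r v = Cfsg.quadFormMinus m F a b (eM v) := fun v => by
    show _ = (∑ i : Fin m, v (.inl i.succ) * v (.inr i.succ)) +
      (v (.inl 0) ^ 2 + a * v (.inl 0) * (v (.inr 0) / a) + b * (v (.inr 0) / a) ^ 2)
    rw [qMinus, Cfsg.quadFormPlus, Fin.sum_univ_succ, CharTwo.add_sq, hr, mul_pow, div_pow, hsb]
    field_simp
    ring
  -- classification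
  have hclass : ∀ Q, IsPolarized (m + 1) Q →
      (∃ x, ∀ v, Q v = Cfsg.quadFormPlus (m + 1) F (spRho (m + 1) F x v)) ∨
      (∃ x, ∀ v, Q v = qMinus m r (spRho (m + 1) F x v)) := by
    intro Q hQ
    have hpol : ∀ x y, QuadraticMap.polar Q x y = sympBil (m + 1) F x y := fun x y => by
      rw [QuadraticMap.polar, hQ.1]; ring
    let QF : QuadraticForm F (Fin (m + 1) ⊕ Fin (m + 1) → F) :=
      QuadraticMap.ofPolar Q (fun c x => by rw [hQ.2, smul_eq_mul, sq])
        (fun x x' y => by rw [hpol, hpol, hpol, map_add, LinearMap.add_apply])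
        (fun c x y => by rw [hpol, hpol, map_smul, LinearMap.smul_apply])
    have hns : NonsingOn QF ⊤ := fun u _ h _ => sympBil_nondegenerate.1 u fun z => by
      rw [← hpol]; exact h z trivial
    have hdim : finrank F (Fin (m + 1) ⊕ Fin (m + 1) → F) = 2 * (m + 1) := by
      rw [Module.finrank_pi, Fintype.card_sum, Fintype.card_fin]; omega
    obtain ⟨k, hk⟩ := exists_finite_witt_decomposition QF hns
    rcases hk with ⟨hd, e, he⟩ | ⟨hd, -⟩ | ⟨hd, a', b', hab', e, he⟩
    · obtain rfl : k = m + 1 := by omega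
      exact Or.inl (exists_iso_form hQ isPolarized_plus e he)
    · omega
    · obtain rfl : k = m := by omega
      obtain ⟨e2, he2⟩ := exists_quadFormMinus_equiv hab' hab k
      exact Or.inr (exists_iso_form hQ (isPolarized_qMinus k r) (e.trans (e2.trans eM.symm))
        fun v => by
          show QF v = _
          rw [he, heM, LinearEquiv.trans_apply, LinearEquiv.trans_apply,
            LinearEquiv.apply_symm_apply, he2])
  have hone : ∀ z ∈ Subgroup.center (Matrix.symplecticGroup (Fin (m + 1)) F),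
      ∀ v, spRho (m + 1) F z v = v := by
    intro z hz v
    obtain ⟨c, hc, hzc⟩ := sp_center_scalar z hz
    rw [hzc, CharTwo.sq_injective (hc.trans (one_pow 2).symm), one_smul]
  have hproper : ∀ Q : (Fin (m + 1) ⊕ Fin (m + 1) → F) → F, IsPolarized (m + 1) Q →
      Q (Pi.single (Sum.inl (1 : Fin (m + 1))) 1) = 0 → stabQ (m + 1) Q ≠ ⊤ := by
    intro Q hQ hv
    set v : Fin (m + 1) ⊕ Fin (m + 1) → F := Pi.single (Sum.inl 1) 1 with hvdef
    obtain ⟨w, hw⟩ := Symp.exists_bil_eq_one (x := v) (by simp [hvdef])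
    refine ne_top_of_not_mem (g := Symp.tau v 1) fun h => ?_
    have h1 := h w
    rw [spRho_apply, Symp.app_tau, one_mul, hQ.1, hQ.2, hv, mul_zero, add_zero, map_smul,
      smul_eq_mul, add_eq_left] at h1
    rw [Symp.bil_swap w v, hw] at h1
    simp at h1
  have h1ne : (1 : Fin (m + 1)) ≠ 0 := fun h => by
    have := congrArg Fin.val h
    simp [Nat.mod_eq_of_lt (show 1 < m + 1 by omega)] at this
  refine hasTwoCover_quot (stabQ (m + 1) (Cfsg.quadFormPlus (m + 1) F))
    (stabQ (m + 1) (qMinus m r))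
    (fun z hz v => by rw [hone z hz]) (fun z hz v => by rw [hone z hz])
    (hproper _ isPolarized_plus (by simp [Cfsg.quadFormPlus, Pi.single_apply]))
    (hproper _ (isPolarized_qMinus m r)
      (by simp [qMinus, Cfsg.quadFormPlus, Pi.single_apply, h1ne.symm])) fun g => ?_
  obtain ⟨Q, hQ, hg⟩ := exists_fixed_form g
  have hconj : ∀ (Q' : (Fin (m + 1) ⊕ Fin (m + 1) → F) → F) x,
      (∀ v, Q v = Q' (spRho (m + 1) F x v)) → x * g * x⁻¹ ∈ stabQ (m + 1) Q' := by
    intro Q' x hx v
    rw [rho_mul, rho_mul, ← hx, hg, hx, rho_apply_inv]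
  rcases hclass Q hQ with ⟨x, hx⟩ | ⟨x, hx⟩
  · exact ⟨x, Or.inl (hconj _ x hx)⟩
  · exact ⟨x, Or.inr (hconj _ x hx)⟩

end Cfsg.Agent.Cover5
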