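/-
Isometries of a 6-dimensional alternating space: invariant planes and self-adjoint operators.
-/
import Cfsg.Agent.Cover5.SpBase
import Cfsg.Agent.Cover5.CharThree
import Cfsg.Agent.Forms.Alternating

set_option autoImplicit false
set_option linter.style.haveILetI false

namespace Cfsg.Agent.Cover5

open Module Cfsg.Agent.Forms Cfsg.Agent.Linear Polynomial

variable {F : Type} [Field F]

/-- Column vectors of length six. -/
abbrev V6 (F : Type) : Type := Fin 3 ⊕ Fin 3 → F

/-- The symplectic form in dimension six. -/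
noncomputable abbrev B6 (F : Type) [Field F] : LinearMap.BilinForm F (V6 F) := sympBil 3 F

theorem B6_self (v : V6 F) : B6 F v v = 0 := sympBil_isAlt.self_eq_zero v

theorem B6_swap (u v : V6 F) : B6 F u v = -B6 F v u := Symp.bil_swap u v

theorem finrank_V6 : finrank F (V6 F) = 6 := by simp

/-- An invariant non-degenerate plane exists. -/
def HasPlane (T : Module.End F (V6 F)) : Prop :=
  ∃ v w, B6 F v w ≠ 0 ∧ T v ∈ Submodule.span F {v, w} ∧ T w ∈ Submodule.span F {v, w}

/-- The block diagonal operator. -/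
def X6 (c : F) : Module.End F (V6 F) where
  toFun z := Sum.elim (Jop c fun i => z (.inl i)) (Jop c fun i => z (.inr i))
  map_add' x y := by
    ext (i | i) <;> simp [Jop_apply] <;> ring
  map_smul' a x := by
    ext (i | i) <;> simp [Jop_apply] <;> ring

/-- `T` becomes, in a symplectic basis, a map shifting `X6 c` by a constant of the prime field. -/
def HasShiftModel (c : F) (T : Module.End F (V6 F)) : Prop :=
  ∃ (L M : Module.End F (V6 F)) (i : F), i ∈ AddSubgroup.zmultiples (1 : F) ∧
    (∀ x y, B6 F (L x) (L y) = B6 F x y) ∧ (∀ x, T (L x) = L (M x)) ∧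
    ∀ x, M (X6 c x) = X6 c (M x) + i • M x

theorem injective_of_isometry (L : Module.End F (V6 F)) (hL : ∀ x y, B6 F (L x) (L y) = B6 F x y) :
    Function.Injective L := (injective_iff_map_eq_zero _).2 fun x hx =>
  sympBil_nondegenerate.1 x fun y => by
    have := hL x y
    rw [hx, map_zero, LinearMap.zero_apply] at this
    exact this.symm

theorem hasPlane_smul {T : Module.End F (V6 F)} (a : F) (h : HasPlane T) : HasPlane (a • T) := by
  obtain ⟨v, w, h0, h1, h2⟩ := h
  exact ⟨v, w, h0, Submodule.smul_mem _ a h1, Submodule.smul_mem _ a h2⟩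

theorem hasShiftModel_smul {T : Module.End F (V6 F)} {c : F} (a : F) (h : HasShiftModel c T) :
    HasShiftModel c (a • T) := by
  obtain ⟨L, M, i, hi, hL, h1, h2⟩ := h
  refine ⟨L, a • M, i, hi, hL, fun x => ?_, fun x => ?_⟩
  · rw [LinearMap.smul_apply, LinearMap.smul_apply, h1, map_smul]
  · rw [LinearMap.smul_apply, LinearMap.smul_apply, h2, map_smul, smul_add, smul_comm]

theorem selfAdj_self {A : Module.End F (V6 F)} (h2 : (2 : F) ≠ 0)
    (hA : ∀ u w, B6 F (A u) w = B6 F u (A w)) (u : V6 F) : B6 F (A u) u = 0 := by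
  have h : (2 : F) * B6 F (A u) u = 0 := by
    linear_combination hA u u + B6_swap u (A u)
  exact (mul_eq_zero.1 h).resolve_left h2

theorem selfAdj_aeval {A : Module.End F (V6 F)} (hA : ∀ u w, B6 F (A u) w = B6 F u (A w))
    (P : F[X]) (u w : V6 F) : B6 F (aeval A P u) w = B6 F u (aeval A P w) := by
  induction P using Polynomial.induction_on generalizing u w with
  | C a =>
    rw [aeval_C, Module.algebraMap_end_apply, Module.algebraMap_end_apply, map_smul,
      LinearMap.smul_apply, map_smul]
  | add P Q h h' =>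
    rw [map_add, LinearMap.add_apply, LinearMap.add_apply, map_add, LinearMap.add_apply, map_add,
      h, h']
  | monomial k a ih =>
    rw [pow_succ, ← mul_assoc, map_mul, aeval_X, Module.End.mul_apply, Module.End.mul_apply, ih, hA]
    rw [show A (aeval A (C a * Polynomial.X ^ k) w) = aeval A (C a * Polynomial.X ^ k) (A w) from by
      rw [← Module.End.mul_apply, ← Module.End.mul_apply]
      congr 1
      conv_lhs => rw [show A * aeval A (C a * Polynomial.X ^ k) =
        aeval A (Polynomial.X * (C a * Polynomial.X ^ k)) by rw [map_mul (aeval A) Polynomial.X, aeval_X]]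
      rw [mul_comm, map_mul, aeval_X]]

/-- Cyclic subspaces of self-adjoint operators are totally isotropic. -/
theorem selfAdj_cyclic {A : Module.End F (V6 F)} (h2 : (2 : F) ≠ 0)
    (hA : ∀ u w, B6 F (A u) w = B6 F u (A w)) (P Q : F[X]) (v : V6 F) :
    B6 F (aeval A P v) (aeval A Q v) = 0 := by
  rw [← selfAdj_aeval hA, ← Module.End.mul_apply, ← map_mul]
  exact selfAdj_self h2 (selfAdj_aeval hA _) v

theorem finrank_orth (W : Submodule F (V6 F)) :
    finrank F ((B6 F).orthogonal W) = 6 - finrank F W := by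
  rw [LinearMap.BilinForm.finrank_orthogonal sympBil_nondegenerate, finrank_V6]

theorem finrank_le_three_of_isotropic (W : Submodule F (V6 F))
    (hW : ∀ x ∈ W, ∀ y ∈ W, B6 F x y = 0) : finrank F W ≤ 3 := by
  have h := Submodule.finrank_mono (show W ≤ (B6 F).orthogonal W from fun y hy x hx => hW x hx y hy)
  rw [finrank_orth] at h
  omega

theorem even_finrank_of_nondegenerate (W : Submodule F (V6 F))
    (hW : ∀ x ∈ W, (∀ y ∈ W, B6 F x y = 0) → x = 0) : Even (finrank F W) := by
  obtain ⟨m, b, -⟩ := exists_symplectic_basis (B := (B6 F).restrict W) (fun x => B6_self _)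
    ⟨fun x hx => Subtype.ext (hW x.1 x.2 fun y hy => hx ⟨y, hy⟩),
     fun x hx => Subtype.ext (hW x.1 x.2 fun y hy => by
      rw [B6_swap, show B6 F y x.1 = 0 from hx ⟨y, hy⟩, neg_zero])⟩
  rw [finrank_eq_card_basis b, Fintype.card_sum, Fintype.card_fin]
  exact ⟨m, rfl⟩

/-- The rank of a self-adjoint operator is even. -/
theorem even_finrank_range {D : Module.End F (V6 F)} (h2 : (2 : F) ≠ 0)
    (hD : ∀ u w, B6 F (D u) w = B6 F u (D w)) : Even (finrank F (LinearMap.range D)) := by
  obtain ⟨C, hC⟩ := Submodule.exists_isCompl (LinearMap.ker D)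
  have hdim : finrank F C = finrank F (LinearMap.range D) := by
    have h1 := Submodule.finrank_add_eq_of_isCompl hC
    have h3 := LinearMap.finrank_range_add_finrank_ker D
    omega
  obtain ⟨m, b, -⟩ := exists_symplectic_basis
    (B := (LinearMap.compl₁₂ (B6 F) (D.comp C.subtype) C.subtype : LinearMap.BilinForm F C))
    (fun x => selfAdj_self h2 hD x.1) (by
      have hl : ∀ x : C, (∀ y : C, B6 F (D x.1) y.1 = 0) → x = 0 := fun x hx => by
        have h0 : D x.1 = 0 := sympBil_nondegenerate.1 _ fun z => by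
          obtain ⟨k, hk, y, hy, rfl⟩ := Submodule.mem_sup.1 (hC.sup_eq_top ▸ Submodule.mem_top (x := z))
          rw [map_add, hD x.1 k, LinearMap.mem_ker.1 hk, map_zero, zero_add]
          exact hx ⟨y, hy⟩
        exact Subtype.ext ((Submodule.disjoint_def.1 hC.disjoint) x.1 (LinearMap.mem_ker.2 h0) x.2)
      exact ⟨hl, fun y hy => hl y fun x => by
        rw [hD, B6_swap, show B6 F (D x.1) y.1 = 0 from hy x, neg_zero]⟩)
  rw [← hdim, finrank_eq_card_basis b, Fintype.card_sum, Fintype.card_fin]
  exact ⟨m, rfl⟩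

theorem mem_span_pair_of_finrank {W : Submodule F (V6 F)} (hW : finrank F W = 2) {v w : V6 F}
    (hv : v ∈ W) (hw : w ∈ W) (h : B6 F v w ≠ 0) {x : V6 F} (hx : x ∈ W) :
    x ∈ Submodule.span F {v, w} := by
  have hind : LinearIndependent F ![v, w] := by
    rw [LinearIndependent.pair_iff]
    intro a b hab
    have h1 := congrArg (fun z => B6 F z w) hab
    have h1' := congrArg (fun z => B6 F z v) hab
    simp [B6_self] at h1 h1'
    exact ⟨h1.resolve_right h, h1'.resolve_right fun e => h (by rw [B6_swap, e, neg_zero])⟩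
  have h3 := finrank_span_eq_card hind
  rw [Matrix.range_cons_cons_empty, Fintype.card_fin] at h3
  rwa [Submodule.eq_of_le_of_finrank_eq (Submodule.span_le.2 (Set.insert_subset hv
    (Set.singleton_subset_iff.2 hw))) (h3.trans hW.symm)]

/-- A non-degenerate invariant subspace of dimension two, four gives an invariant plane. -/
theorem hasPlane_of_invariant {T : Module.End F (V6 F)}
    (hT : ∀ u w, B6 F (T u) (T w) = B6 F u w) (W : Submodule F (V6 F))
    (hW : ∀ x ∈ W, (∀ y ∈ W, B6 F x y = 0) → x = 0) (hTW : ∀ x ∈ W, T x ∈ W)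
    (hd : finrank F W = 2 ∨ finrank F W = 4) : HasPlane T := by
  have key : ∀ W : Submodule F (V6 F), (∀ x ∈ W, (∀ y ∈ W, B6 F x y = 0) → x = 0) →
      (∀ x ∈ W, T x ∈ W) → finrank F W = 2 → HasPlane T := by
    intro W hW hTW hd
    obtain ⟨v, hv, hv0⟩ := Submodule.exists_mem_ne_zero_of_ne_bot (p := W) (fun h => by
      rw [h, finrank_bot] at hd; omega)
    obtain ⟨w, hw, hvw⟩ : ∃ w ∈ W, B6 F v w ≠ 0 := by
      by_contra! hc
      exact hv0 (hW v hv hc)
    exact ⟨v, w, hvw, mem_span_pair_of_finrank hd hv hw hvw (hTW v hv),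
      mem_span_pair_of_finrank hd hv hw hvw (hTW w hw)⟩
  rcases hd with hd | hd
  · exact key W hW hTW hd
  · have hinj := injective_of_isometry T hT
    have hmap : W.map T = W := Submodule.eq_of_le_of_finrank_eq
      (by rintro _ ⟨x, hx, rfl⟩; exact hTW x hx)
      (Submodule.equivMapOfInjective T hinj W).finrank_eq.symm
    have hc := LinearMap.BilinForm.isCompl_orthogonal_of_restrict_nondegenerate
      (B := B6 F) (W := W) sympBil_isAlt.isRefl
      ⟨fun x hx => Subtype.ext (hW x.1 x.2 fun y hy => hx ⟨y, hy⟩),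
        fun x hx => Subtype.ext (hW x.1 x.2 fun y hy => by
          rw [B6_swap, show B6 F y x.1 = 0 from hx ⟨y, hy⟩, neg_zero])⟩
    refine key ((B6 F).orthogonal W) (fun x hx hall => ?_) (fun x hx z hz => ?_) ?_
    · refine sympBil_nondegenerate.1 x fun z => ?_
      obtain ⟨k, hk, y, hy, rfl⟩ := Submodule.mem_sup.1 (hc.sup_eq_top ▸ Submodule.mem_top (x := z))
      rw [map_add, hall y hy, add_zero]
      show B6 F x k = 0
      rw [B6_swap, show B6 F k x = 0 from hx k hk, neg_zero]
    · obtain ⟨z', hz', rfl⟩ : z ∈ W.map T := hmap.symm ▸ hz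
      show B6 F (T z') (T x) = 0
      rw [hT]
      exact hx z' hz'
    · rw [finrank_orth, hd]

/-- An isometry with `B(v, T v) ≠ 0` and `T²v ∈ ⟨v, Tv⟩`. -/
theorem hasPlane_of_cyclic {T : Module.End F (V6 F)} {v : V6 F} (h : B6 F v (T v) ≠ 0)
    (h' : ∃ a b : F, T (T v) = a • v + b • T v) : HasPlane T := by
  obtain ⟨a, b, hab⟩ := h'
  exact ⟨v, T v, h, Submodule.mem_span_pair.2 ⟨0, 1, by simp⟩,
    Submodule.mem_span_pair.2 ⟨a, b, hab.symm⟩⟩

theorem cyc6_Jop (h3 : (3 : F) = 0) (c : F) (z : V6 F) :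
    (Sum.elim (cyc fun i => X6 c z (.inl i)) (cyc fun i => X6 c z (.inr i)) : V6 F) =
      X6 c (Sum.elim (cyc fun i => z (.inl i)) (cyc fun i => z (.inr i))) +
        (1 : F) • Sum.elim (cyc fun i => z (.inl i)) (cyc fun i => z (.inr i)) := by
  ext (i | i)
  · exact congrFun (cyc_Jop h3 c fun i => z (.inl i)) i
  · exact congrFun (cyc_Jop h3 c fun i => z (.inr i)) i

end Cfsg.Agent.Cover5
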