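/-
Unipotent isometries in dimension six, characteristic three: an invariant plane or a shift model.
-/
import Cfsg.Agent.Cover5.SpSixBase

set_option autoImplicit false
set_option linter.style.haveILetI false
set_option linter.unusedSimpArgs false
set_option linter.unnecessarySeqFocus false

namespace Cfsg.Agent.Cover5

open Module

variable {F : Type} [Field F]

/-- The cyclic permutation on both halves. -/
def cyc6 : Module.End F (V6 F) where
  toFun z := Sum.elim (cyc fun i => z (.inl i)) (cyc fun i => z (.inr i))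
  map_add' x y := by ext (i | i) <;> rfl
  map_smul' a x := by ext (i | i) <;> rfl

theorem cyc6_X6 (h3 : (3 : F) = 0) (c : F) (z : V6 F) :
    cyc6 (X6 c z) = X6 c (cyc6 z) + (1 : F) • cyc6 z := cyc6_Jop h3 c z

/-- The model regular unipotent element. -/
def g0 (c β : F) : Module.End F (V6 F) where
  toFun z := Sum.elim ((cyc fun i => z (.inl i)) + β • Jop c (Jop c (cyc fun i => z (.inr i))))
    (cyc fun i => z (.inr i))
  map_add' x y := by
    ext (i | i) <;> simp [cyc_apply, Jop_apply] <;> ring
  map_smul' a x := by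
    ext (i | i) <;> simp [cyc_apply, Jop_apply] <;> ring

theorem g0_X6 (h3 : (3 : F) = 0) (c β : F) (z : V6 F) :
    g0 c β (X6 c z) = X6 c (g0 c β z) + (1 : F) • g0 c β z := by
  ext (i | i)
  · show (cyc (Jop c fun j => z (.inl j)) + β • Jop c (Jop c (cyc (Jop c fun j => z (.inr j))))) i =
      (Jop c ((cyc fun j => z (.inl j)) + β • Jop c (Jop c (cyc fun j => z (.inr j))))) i +
        1 * ((cyc fun j => z (.inl j)) + β • Jop c (Jop c (cyc fun j => z (.inr j)))) i
    rw [cyc_Jop h3, cyc_Jop h3]
    simp only [map_add, map_smul, Pi.add_apply, Pi.smul_apply, smul_eq_mul]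
    ring
  · exact congrFun (cyc_Jop h3 c fun j => z (.inr j)) i

theorem B6_apply (z z' : V6 F) : B6 F z z' =
    z (.inr 0) * z' (.inl 0) + z (.inr 1) * z' (.inl 1) + z (.inr 2) * z' (.inl 2) -
      (z (.inl 0) * z' (.inr 0) + z (.inl 1) * z' (.inr 1) + z (.inl 2) * z' (.inr 2)) := by
  show Forms.sympBil 3 F z z' = _
  rw [Forms.sympBil_apply, Forms.sympForm_apply, Fin.sum_univ_three]
  ring

theorem g0_isometry (c β : F) (z z' : V6 F) : B6 F (g0 c β z) (g0 c β z') = B6 F z z' := by
  rw [B6_apply, B6_apply]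
  simp [g0, cyc_apply, Jop_apply, dvec]
  ring

/-- Powers of `N` applied to a vector, paired. -/
noncomputable def gram (N : Module.End F (V6 F)) (v : V6 F) (i j : ℕ) : F :=
  B6 F ((N ^ i) v) ((N ^ j) v)

variable {N : Module.End F (V6 F)}
  (hN : ∀ a b, B6 F (N a) b + B6 F a (N b) + B6 F (N a) (N b) = 0)
include hN

theorem nid (a b : V6 F) (i j : ℕ) : B6 F ((N ^ (i + 1)) a) ((N ^ j) b) +
    B6 F ((N ^ i) a) ((N ^ (j + 1)) b) + B6 F ((N ^ (i + 1)) a) ((N ^ (j + 1)) b) = 0 := by
  simp only [pow_succ', Module.End.mul_apply]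
  exact hN _ _

theorem pair_vanish {n : ℕ} (hn : N ^ n = 0) (a b : V6 F) :
    ∀ j i, n ≤ i + j → B6 F ((N ^ i) a) ((N ^ j) b) = 0 := by
  intro j
  induction j with
  | zero =>
    intro i hi
    rw [pow_eq_zero_of_le (show n ≤ i by omega) hn]; simp
  | succ j ih =>
    intro i
    induction hk : n - i using Nat.strong_induction_on generalizing i with
    | _ k ihk =>
      intro hi
      by_cases hin : n ≤ i
      · rw [pow_eq_zero_of_le hin hn]; simp
      have h := nid hN a b i j
      rw [ih (i + 1) (by omega), ihk (n - (i + 1)) (by omega) (i + 1) rfl (by omega), zero_add,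
        add_zero] at h
      exact h

theorem pair_shift {n : ℕ} (hn : N ^ n = 0) (a b : V6 F) (i j : ℕ) (hij : n ≤ i + j + 2) :
    B6 F ((N ^ (i + 1)) a) ((N ^ j) b) = -B6 F ((N ^ i) a) ((N ^ (j + 1)) b) := by
  have h := nid hN a b i j
  rw [pair_vanish hN hn a b (j + 1) (i + 1) (by omega), add_zero] at h
  exact eq_neg_of_add_eq_zero_left h

theorem gram_rec (v : V6 F) (i j : ℕ) :
    gram N v i (j + 1) = -gram N v (i + 1) j - gram N v (i + 1) (j + 1) := by
  unfold gram
  linear_combination nid hN v v i j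

theorem gram_column (hN6 : N ^ 6 = 0) (v : V6 F) :
    gram N v 4 0 = 2 * gram N v 5 0 ∧ gram N v 2 0 = gram N v 3 0 - gram N v 5 0 := by
  have z : ∀ i j, 6 ≤ i + j → gram N v i j = 0 := fun i j h => pair_vanish hN hN6 v v j i h
  have hself : ∀ i, gram N v i i = 0 := fun i => B6_self _
  have e41 := gram_rec hN v 4 0
  have e31 := gram_rec hN v 3 0
  have e21 := gram_rec hN v 2 0
  have e11 := gram_rec hN v 1 0
  have e32 := gram_rec hN v 3 1
  have e22 := gram_rec hN v 2 1
  simp only [Nat.reduceAdd, z 5 1 le_rfl, z 4 2 le_rfl, hself] at e41 e31 e21 e11 e32 e22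
  constructor
  · linear_combination -2 * e41 + e31 - e22 + e32
  · linear_combination e41 + e22 - e32 - e21 + e11

theorem gram_eq {N' : Module.End F (V6 F)}
    (hN' : ∀ a b, B6 F (N' a) b + B6 F a (N' b) + B6 F (N' a) (N' b) = 0)
    (h6 : N ^ 6 = 0) (h6' : N' ^ 6 = 0) (v v' : V6 F)
    (hcol : ∀ i, i < 6 → gram N v i 0 = gram N' v' i 0) :
    ∀ j i, gram N v i j = gram N' v' i j := by
  intro j
  induction j with
  | zero =>
    intro i
    by_cases hi : i < 6
    · exact hcol i hi
    · unfold gram
      rw [pow_eq_zero_of_le (Nat.le_of_not_lt hi) h6, pow_eq_zero_of_le (Nat.le_of_not_lt hi) h6']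
      simp
  | succ j ih =>
    intro i
    induction hk : 6 - i using Nat.strong_induction_on generalizing i with
    | _ k ihk =>
      by_cases hi : i < 6
      · rw [gram_rec hN, gram_rec hN', ih, ihk (6 - (i + 1)) (by omega) (i + 1) rfl]
      · unfold gram
        rw [pow_eq_zero_of_le (Nat.le_of_not_lt hi) h6, pow_eq_zero_of_le (Nat.le_of_not_lt hi) h6']
        simp

omit hN in
theorem pow_apply (m k : ℕ) (v : V6 F) : (N ^ m) ((N ^ k) v) = (N ^ (m + k)) v := by
  rw [pow_add, Module.End.mul_apply]

theorem exists_normalised (h2 : (2 : F) ≠ 0) (hN6 : N ^ 6 = 0) (v : V6 F)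
    (hτ : gram N v 5 0 ≠ 0) :
    ∃ v', gram N v' 5 0 = gram N v 5 0 ∧ gram N v' 1 0 = 0 ∧ gram N v' 3 0 = 0 := by
  -- first kill `gram 3 0`
  have step1 : ∃ v', gram N v' 5 0 = gram N v 5 0 ∧ gram N v' 3 0 = 0 := by
    have z : ∀ i j, 6 ≤ i + j → gram N v i j = 0 := fun i j h => pair_vanish hN hN6 v v j i h
    have hs : gram N v 3 2 = gram N v 5 0 := by
      have e41 := gram_rec hN v 4 0
      have e32 := gram_rec hN v 3 1
      simp only [Nat.reduceAdd, z 5 1 le_rfl, z 4 2 le_rfl] at e41 e32
      linear_combination e32 - e41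
    set a := -gram N v 3 0 / (2 * gram N v 5 0) with ha
    refine ⟨v + a • (N ^ 2) v, ?_, ?_⟩
    · unfold gram
      simp only [map_add, map_smul, pow_apply, LinearMap.add_apply, LinearMap.smul_apply,
        smul_eq_mul, Nat.reduceAdd]
      simp only [pow_eq_zero_of_le (show 6 ≤ 7 by omega) hN6, LinearMap.zero_apply, map_zero,
        mul_zero, add_zero, pow_zero, Module.End.one_apply]
      have := z 5 2 (by omega)
      unfold gram at this
      linear_combination a * this
    · unfold gram at z hs hτ ⊢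
      simp only [map_add, map_smul, pow_apply, LinearMap.add_apply, LinearMap.smul_apply,
        smul_eq_mul, Nat.reduceAdd, z 5 2 (by omega), hs, pow_zero, Module.End.one_apply,
        mul_zero, add_zero]
      rw [ha]
      unfold gram
      simp only [pow_zero, Module.End.one_apply] at hτ ⊢
      field_simp
      ring
  obtain ⟨w, hw5, hw3⟩ := step1
  have z : ∀ i j, 6 ≤ i + j → gram N w i j = 0 := fun i j h => pair_vanish hN hN6 w w j i h
  have hs : gram N w 1 4 = gram N w 5 0 := by
    have e41 := gram_rec hN w 4 0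
    simp only [Nat.reduceAdd, z 5 1 le_rfl] at e41
    have : gram N w 1 4 = -gram N w 4 1 := B6_swap _ _
    linear_combination this - e41
  have hτw : gram N w 5 0 ≠ 0 := hw5 ▸ hτ
  set b := -gram N w 1 0 / (2 * gram N w 5 0) with hb
  refine ⟨w + b • (N ^ 4) w, ?_, ?_, ?_⟩
  · rw [← hw5]
    unfold gram at z ⊢
    simp only [map_add, map_smul, pow_apply, LinearMap.add_apply, LinearMap.smul_apply,
      smul_eq_mul, Nat.reduceAdd, z 5 4 (by omega), mul_zero, add_zero]
    simp only [pow_eq_zero_of_le (show 6 ≤ 9 by omega) hN6, LinearMap.zero_apply, map_zero,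
      mul_zero, add_zero]
  · unfold gram at z hs hτw ⊢
    simp only [map_add, map_smul, pow_apply, LinearMap.add_apply, LinearMap.smul_apply,
      smul_eq_mul, Nat.reduceAdd, hs, z 5 4 (by omega), pow_zero, Module.End.one_apply,
      mul_zero, add_zero]
    rw [hb]
    unfold gram
    simp only [pow_zero, Module.End.one_apply] at hτw ⊢
    field_simp
    ring
  · unfold gram at z hw3 ⊢
    simp only [map_add, map_smul, pow_apply, LinearMap.add_apply, LinearMap.smul_apply,
      smul_eq_mul, Nat.reduceAdd, z 3 4 (by omega), mul_zero, add_zero]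
    simp only [pow_eq_zero_of_le (show 6 ≤ 7 by omega) hN6, LinearMap.zero_apply, map_zero,
      mul_zero, add_zero, hw3]

omit hN in
/-- The span of the orbit of a vector under powers. -/
noncomputable def lam6 (N : Module.End F (V6 F)) (v : V6 F) : (Fin 6 → F) →ₗ[F] V6 F :=
  Fintype.linearCombination F (fun k : Fin 6 => (N ^ k.1) v)

omit hN in
theorem lam6_apply (v : V6 F) (a : Fin 6 → F) : lam6 N v a = a 0 • v + a 1 • (N ^ 1) v +
    a 2 • (N ^ 2) v + a 3 • (N ^ 3) v + a 4 • (N ^ 4) v + a 5 • (N ^ 5) v := by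
  simp [lam6, Fintype.linearCombination_apply, Fin.sum_univ_six]

omit hN in
theorem lam6_shift (hN6 : N ^ 6 = 0) (v : V6 F) (a : Fin 6 → F) :
    N (lam6 N v a) = lam6 N v ![0, a 0, a 1, a 2, a 3, a 4] := by
  rw [lam6_apply, lam6_apply]
  have h : ∀ k, N ((N ^ k) v) = (N ^ (k + 1)) v := fun k => by
    rw [pow_succ', Module.End.mul_apply]
  simp only [map_add, map_smul, h, Nat.reduceAdd, hN6, LinearMap.zero_apply, smul_zero]
  rw [show N v = (N ^ 1) v by rw [pow_one]]
  simp

omit hN in
theorem lam6_bijective (hN6 : N ^ 6 = 0) {v : V6 F} (hv : (N ^ 5) v ≠ 0) :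
    Function.Bijective (lam6 N v) := by
  have hinj : Function.Injective (lam6 N v) := by
    refine (injective_iff_map_eq_zero _).2 fun a ha => ?_
    rw [lam6_apply] at ha
    have z : ∀ k, 6 ≤ k → N ^ k = 0 := fun k h => pow_eq_zero_of_le h hN6
    have h := fun m : ℕ => congrArg (⇑(N ^ m)) ha
    have z6 := z 6 le_rfl
    have z7 := z 7 (by omega)
    have z8 := z 8 (by omega)
    have z9 := z 9 (by omega)
    have z10 := z 10 (by omega)
    simp only [map_add, map_smul, map_zero, pow_apply] at h
    have a0 : a 0 = 0 := by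
      have := h 5
      simp only [Nat.reduceAdd, z6, z7, z8, z9, z10, LinearMap.zero_apply, smul_zero, add_zero] at this
      exact (smul_eq_zero.1 this).resolve_right hv
    simp only [a0, zero_smul, zero_add] at h ha
    have a1 : a 1 = 0 := by
      have := h 4
      simp only [Nat.reduceAdd, z6, z7, z8, z9, LinearMap.zero_apply, smul_zero, add_zero] at this
      exact (smul_eq_zero.1 this).resolve_right hv
    simp only [a1, zero_smul, zero_add] at h ha
    have a2 : a 2 = 0 := by
      have := h 3
      simp only [Nat.reduceAdd, z6, z7, z8, LinearMap.zero_apply, smul_zero, add_zero] at this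
      exact (smul_eq_zero.1 this).resolve_right hv
    simp only [a2, zero_smul, zero_add] at h ha
    have a3 : a 3 = 0 := by
      have := h 2
      simp only [Nat.reduceAdd, z6, z7, LinearMap.zero_apply, smul_zero, add_zero] at this
      exact (smul_eq_zero.1 this).resolve_right hv
    simp only [a3, zero_smul, zero_add] at h ha
    have a4 : a 4 = 0 := by
      have := h 1
      simp only [Nat.reduceAdd, z6, LinearMap.zero_apply, smul_zero, add_zero] at this
      exact (smul_eq_zero.1 this).resolve_right hv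
    simp only [a4, zero_smul, zero_add] at ha
    have a5 : a 5 = 0 := (smul_eq_zero.1 ha).resolve_right hv
    ext k; fin_cases k <;> simpa
  exact ⟨hinj, (LinearMap.injective_iff_surjective_of_finrank_eq_finrank
    (by rw [finrank_fin_fun, finrank_V6])).1 hinj⟩

omit hN in
theorem B6_lam6 (v : V6 F) (a b : Fin 6 → F) :
    B6 F (lam6 N v a) (lam6 N v b) = ∑ k : Fin 6, ∑ l : Fin 6, a k * (b l * gram N v k.1 l.1) := by
  simp only [lam6, Fintype.linearCombination_apply, map_sum, map_smul, LinearMap.sum_apply,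
    LinearMap.smul_apply, smul_eq_mul, gram, Finset.mul_sum]
  rw [Finset.sum_comm]
  exact Finset.sum_congr rfl fun k _ => Finset.sum_congr rfl fun l _ => by ring

end Cfsg.Agent.Cover5
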