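/-
Isometries `T` in dimension six with `T + T⁻¹ - λ` nilpotent, `λ² ≠ 1`, characteristic three.
-/
import Cfsg.Agent.Cover5.SpSixUnip

set_option autoImplicit false
set_option linter.style.haveILetI false
set_option linter.unusedSimpArgs false

namespace Cfsg.Agent.Cover5

open Module

variable {F : Type} [Field F]

theorem semisimple_parts (h3 : (3 : F) = 0) {lam : F} (hlam : lam ^ 2 ≠ 1)
    (T S : Module.End F (V6 F)) (hTS : T * S = 1) (hST : S * T = 1)
    (hadj : ∀ a b, B6 F (T a) b = B6 F a (S b)) (hD : (T + S - lam • 1) ^ 3 = 0) :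
    ∃ s t u : Module.End F (V6 F), T = s * u ∧ Commute s u ∧ s * t = 1 ∧ t * s = 1 ∧
      s + t = lam • 1 ∧ u ^ 3 = 1 ∧ S = t * u ^ 2 ∧
      (∀ a b, B6 F (s a) b = B6 F a (t b)) ∧ ∀ a b, B6 F (u a) (u b) = B6 F a b := by
  set l := lam ^ 2 - 1 with hl
  have hl0 : l ≠ 0 := sub_ne_zero.2 hlam
  have three : ∀ X : Module.End F (V6 F), (3 : F) • X = 0 := fun X => by rw [h3, zero_smul]
  set a := T ^ 3 with ha
  set b := S ^ 3 with hb
  have hab : a * b = 1 := by
    rw [ha, hb, ← (Commute.mul_pow (hTS.trans hST.symm) 3), hTS, one_pow]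
  have hba : b * a = 1 := by
    rw [ha, hb, ← (Commute.mul_pow (hST.trans hTS.symm) 3), hST, one_pow]
  have hsum : a + b = lam ^ 3 • (1 : Module.End F (V6 F)) := by
    obtain ⟨D, hD'⟩ : ∃ D, T + S - lam • (1 : Module.End F (V6 F)) = D := ⟨_, rfl⟩
    rw [hD'] at hD
    have e1 : (T + S) ^ 3 = a + b + (3 : F) • (T + S) := by
      simp only [ha, hb, pow_succ, pow_zero, one_mul, add_mul, mul_add, mul_assoc]
      simp only [hTS, hST, mul_one, ← mul_assoc T S, ← mul_assoc S T, one_mul, smul_add]
      module
    have e2 : (T + S) ^ 3 = D ^ 3 + lam ^ 3 • 1 + (3 : F) • (lam • D ^ 2 + lam ^ 2 • D) := by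
      rw [show T + S = D + lam • (1 : Module.End F (V6 F)) by rw [← hD']; abel]
      simp only [pow_succ, pow_zero, one_mul, add_mul, mul_add, smul_mul_assoc, mul_smul_comm,
        mul_one, one_mul, smul_add, smul_smul]
      module
    rw [e2, hD, three, three, zero_add, add_zero, add_zero] at e1
    exact e1.symm
  set s := l⁻¹ • (lam • (1 : Module.End F (V6 F)) + a) with hs
  set t := l⁻¹ • (lam • (1 : Module.End F (V6 F)) + b) with ht
  have hlsq : lam ^ 2 + lam ^ 4 + 1 = l * l := by
    rw [hl]; linear_combination lam ^ 2 * h3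
  have hst : s * t = 1 := by
    rw [hs, ht, smul_mul_smul_comm]
    have : (lam • (1 : Module.End F (V6 F)) + a) * (lam • 1 + b) =
        (lam ^ 2) • 1 + lam • (a + b) + a * b := by
      simp only [add_mul, mul_add, smul_mul_assoc, mul_smul_comm, mul_one, one_mul, smul_add,
        smul_smul]
      module
    rw [this, hab, hsum, smul_smul, ← add_smul]
    nth_rewrite 2 [← one_smul F (1 : Module.End F (V6 F))]
    rw [← add_smul, smul_smul, show lam ^ 2 + lam * lam ^ 3 + 1 = l * l by rw [← hlsq]; ring,
      show l⁻¹ * l⁻¹ * (l * l) = 1 by field_simp, one_smul]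
  have hcomm : Commute a b := hab.trans hba.symm
  have hts : t * s = 1 := by
    rw [← hst, hs, ht]
    exact (((Commute.one_left _).smul_left _).add_left
      ((hcomm.symm).add_right (Commute.refl _) |> fun _ => (Commute.one_right _).smul_right lam
        |>.add_right hcomm.symm)).smul_left _ |>.smul_right _ |>.eq
  have hadd : s + t = lam • 1 := by
    rw [hs, ht, ← smul_add, show lam • (1 : Module.End F (V6 F)) + a + (lam • 1 + b) =
      (lam + lam) • 1 + (a + b) by module, hsum, ← add_smul, smul_smul,
      show l⁻¹ * (lam + lam + lam ^ 3) = lam by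
        field_simp
        rw [hl]
        linear_combination lam * h3]
  have hs3 : s ^ 3 = a := by
    have h2 : a * a = lam ^ 3 • a - 1 := by
      have := congrArg (a * ·) hsum
      simp only [mul_add, hab, mul_smul_comm, mul_one] at this
      rw [← this, add_sub_cancel_right]
    have h4 : (lam • (1 : Module.End F (V6 F)) + a) ^ 3 = (lam ^ 6 - 1) • a := by
      have e : (lam • (1 : Module.End F (V6 F)) + a) ^ 3 = lam ^ 3 • 1 + a * a * a +
          (3 : F) • (lam • (a * a) + lam ^ 2 • a) := by
        simp only [pow_succ, pow_zero, one_mul, add_mul, mul_add, smul_mul_assoc, mul_smul_comm,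
          mul_one, one_mul, smul_add, smul_smul]
        module
      rw [e, three, add_zero, h2, sub_mul, one_mul, smul_mul_assoc, h2]
      module
    rw [hs, smul_pow, h4, smul_smul, inv_pow, show lam ^ 6 - 1 = l ^ 3 by
      rw [hl]; linear_combination (lam ^ 4 - lam ^ 2) * h3, inv_mul_cancel₀ (pow_ne_zero _ hl0),
      one_smul]
  have hTa : Commute T a := Commute.self_pow T 3
  have hTb : Commute T b := (Commute.pow_right (hTS.trans hST.symm) 3)
  have hsT : Commute s T :=
    (((Commute.one_left T).smul_left lam).add_left hTa.symm).smul_left _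
  have htT : Commute t T :=
    (((Commute.one_left T).smul_left lam).add_left hTb.symm).smul_left _
  have hcst : Commute s t := hst.trans hts.symm
  have hu3 : (t * T) ^ 3 = 1 := by
    rw [htT.mul_pow, ← ha, ← hs3, ← hcst.symm.mul_pow, hts, one_pow]
  have hsu : s * (t * T) = T := by rw [← mul_assoc, hst, one_mul]
  have hcomu : Commute s (t * T) := hcst.mul_right hsT
  have hS : S = t * (t * T) ^ 2 := by
    have h5 : T * (t * (t * T) ^ 2) = 1 := by
      conv_lhs => enter [1]; rw [← hsu, hcomu.eq]
      rw [mul_assoc, ← mul_assoc s t, hst, one_mul, ← pow_succ', hu3]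
    calc S = S * (T * (t * (t * T) ^ 2)) := by rw [h5, mul_one]
      _ = t * (t * T) ^ 2 := by rw [← mul_assoc, hST, one_mul]
  have hadjst : ∀ x y, B6 F (s x) y = B6 F x (t y) := fun x y => by
    rw [hs, ht]
    simp only [ha, hb, LinearMap.smul_apply, LinearMap.add_apply, Module.End.one_apply, map_smul,
      map_add, pow_succ, pow_zero, one_mul, Module.End.mul_apply, smul_eq_mul, hadj]
  refine ⟨s, t, t * T, hsu.symm, hcomu, hst, hts, hadd, hu3, hS, hadjst, fun x y => ?_⟩
  have h1 : ∀ p q, B6 F (t p) (t q) = B6 F p q := fun p q => by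
    rw [← hadjst, ← Module.End.mul_apply, hst, Module.End.one_apply, ]
  rw [Module.End.mul_apply, Module.End.mul_apply, h1, hadj, ← Module.End.mul_apply, hST,
    Module.End.one_apply]

theorem semisimple_case (h3 : (3 : F) = 0) (c : F) {lam : F} (hlam : lam ^ 2 ≠ 1)
    (T S : Module.End F (V6 F)) (hTS : T * S = 1) (hST : S * T = 1)
    (hadj : ∀ a b, B6 F (T a) b = B6 F a (S b)) (hD : (T + S - lam • 1) ^ 3 = 0) :
    HasPlane T ∨ HasShiftModel c T := by
  have h2 := two_ne_zero_of_three h3
  set D := T + S - lam • (1 : Module.End F (V6 F)) with hDdef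
  have hl4 : lam ^ 2 - 4 ≠ 0 := fun h => hlam (by linear_combination h + h3)
  have hTT : ∀ a b, B6 F (T a) (T b) = B6 F a b := fun a b => by
    rw [hadj, ← Module.End.mul_apply, hST, Module.End.one_apply]
  have hadj' : ∀ a b, B6 F (S a) b = B6 F a (T b) := fun a b => by
    rw [B6_swap, ← hadj, B6_swap, neg_neg]
  have hDadj : ∀ a b, B6 F (D a) b = B6 F a (D b) := fun a b => by
    simp only [hDdef, LinearMap.sub_apply, LinearMap.add_apply, LinearMap.smul_apply,
      Module.End.one_apply, map_sub, map_add, map_smul, hadj, hadj', smul_eq_mul]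
    ring
  have hcycle : ∀ v, D v = 0 → ∃ a b : F, T (T v) = a • v + b • T v := fun v hv => by
    refine ⟨-1, lam, ?_⟩
    have h1 := congrArg T hv
    rw [hDdef] at h1
    simp only [LinearMap.sub_apply, LinearMap.add_apply, LinearMap.smul_apply, Module.End.one_apply,
      map_sub, map_add, map_smul, map_zero, ← Module.End.mul_apply, hTS, sub_eq_zero] at h1
    rw [← Module.End.mul_apply, neg_one_smul, ← h1]
    abel
  -- no totally isotropic behaviour of `v ↦ B(v, T v)` on an invariant subspace killed by `D`
  have hTI : ∀ W : Submodule F (V6 F), (∀ x ∈ W, D x = 0) → (∀ x ∈ W, T x - S x ∈ W) →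
      (∀ x ∈ W, B6 F x (T x) = 0) → ∀ x ∈ W, ∀ y ∈ W, B6 F x y = 0 := by
    intro W hW hA hq
    have hanti : ∀ x ∈ W, ∀ y ∈ W, B6 F x ((T - S) y) = 0 := fun x hx y hy => by
      have h := hq (x + y) (W.add_mem hx hy)
      simp only [map_add, LinearMap.add_apply, hq x hx, hq y hy] at h
      rw [LinearMap.sub_apply, map_sub]
      have e : B6 F x (S y) = -B6 F y (T x) := by rw [← hadj, B6_swap]
      linear_combination h - e
    intro x hx y hy
    have hy2 : (T - S) ((T - S) y) = (lam ^ 2 - 4) • y := by
      have hk : ∀ z, D z = 0 → T z + S z = lam • z := fun z hz => by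
        rwa [hDdef, LinearMap.sub_apply, LinearMap.add_apply, LinearMap.smul_apply,
          Module.End.one_apply, sub_eq_zero] at hz
      have e1 := congrArg T (hk y (hW y hy))
      have e2 := congrArg S (hk y (hW y hy))
      rw [map_add, map_smul, ← Module.End.mul_apply T S, hTS, Module.End.one_apply] at e1
      rw [map_add, map_smul, ← Module.End.mul_apply S T, hST, Module.End.one_apply] at e2
      simp only [LinearMap.sub_apply, map_sub, ← Module.End.mul_apply T S, ← Module.End.mul_apply S T,
        hTS, hST, Module.End.one_apply]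
      rw [sub_smul, show lam ^ 2 • y = lam • (T y + S y) by rw [hk y (hW y hy), smul_smul, sq]]
      rw [show T (T y) = lam • T y - y by rw [← e1]; abel,
        show S (S y) = lam • S y - y by rw [← e2]; abel]
      module
    have hyA : (T - S) y ∈ W := hA y hy
    have := hanti x hx _ hyA
    rw [hy2, map_smul, smul_eq_mul] at this
    exact (mul_eq_zero.1 this).resolve_left hl4
  by_cases hD2 : D * D = 0
  · left
    set W := LinearMap.ker D with hW
    by_cases hq : ∃ v ∈ W, B6 F v (T v) ≠ 0
    · obtain ⟨v, hv, hvq⟩ := hq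
      exact hasPlane_of_cyclic hvq (hcycle v (LinearMap.mem_ker.1 hv))
    push Not at hq
    exfalso
    have hcD : ∀ x, D (T x - S x) = T (D x) - S (D x) := fun x => by
      simp only [hDdef, LinearMap.sub_apply, LinearMap.add_apply, LinearMap.smul_apply,
        Module.End.one_apply, map_sub, map_add, map_smul, ← Module.End.mul_apply, hTS, hST]
      module
    have h1 := finrank_le_three_of_isotropic W (hTI W (fun x hx => LinearMap.mem_ker.1 hx)
      (fun x hx => LinearMap.mem_ker.2 (by
        rw [hcD, LinearMap.mem_ker.1 hx, map_zero, map_zero, sub_zero])) hq)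
    have h4 := LinearMap.finrank_range_add_finrank_ker D
    rw [finrank_V6, ← hW] at h4
    have h5 := Submodule.finrank_mono (show LinearMap.range D ≤ W by
      rintro _ ⟨x, rfl⟩
      rw [hW, LinearMap.mem_ker, ← Module.End.mul_apply, hD2, LinearMap.zero_apply])
    obtain ⟨k, hk⟩ := even_finrank_range h2 hDadj
    omega
  · right
    obtain ⟨s, t, u, rfl, hsu, hst, hts, hadd, hu3, hS, hsadj, hu⟩ :=
      semisimple_parts h3 hlam T S hTS hST hadj hD
    set N := u - 1 with hNdef
    have huN : ∀ a, u a = a + N a := fun a => by rw [hNdef]; simp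
    have hN : ∀ a b, B6 F (N a) b + B6 F a (N b) + B6 F (N a) (N b) = 0 := fun a b => by
      have h := hu a b
      simp only [huN, map_add, LinearMap.add_apply] at h
      linear_combination h
    have hN3 : N ^ 3 = 0 := by
      have e : N ^ 3 = u ^ 3 - 1 - (3 : F) • (u ^ 2 - u) := by
        simp only [hNdef, pow_succ, pow_zero, one_mul, sub_mul, mul_sub, mul_one, smul_sub]
        module
      rw [e, hu3, h3, zero_smul, sub_self, sub_zero]
    have hsN : ∀ x, s (N x) = N (s x) := fun x => by
      simp only [hNdef, LinearMap.sub_apply, Module.End.one_apply, map_sub]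
      rw [← Module.End.mul_apply, hsu.eq, Module.End.mul_apply]
    have hsq : ∀ a, N (N a) = (N ^ 2) a := fun a => by rw [pow_two, Module.End.mul_apply]
    have hsN2 : ∀ x, s ((N ^ 2) x) = (N ^ 2) (s x) := fun x => by rw [← hsq, ← hsq, hsN, hsN]
    have hM : ∀ a b, B6 F ((N ^ 2) a) b = B6 F a ((N ^ 2) b) := fun a b => by
      have e1 := pair_shift hN hN3 a b 1 0 le_rfl
      have e2 := pair_shift hN hN3 a b 0 1 le_rfl
      simp only [Nat.reduceAdd, pow_zero, Module.End.one_apply] at e1 e2
      linear_combination e1 - e2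
    have hNN : ∀ a b, B6 F (N a) (N b) = -B6 F a ((N ^ 2) b) := fun a b => by
      simpa using pair_shift hN hN3 a b 0 1 le_rfl
    have z12 : ∀ a b, B6 F (N a) ((N ^ 2) b) = 0 := fun a b => by
      simpa using pair_vanish hN hN3 a b 2 1 le_rfl
    have z21 : ∀ a b, B6 F ((N ^ 2) a) (N b) = 0 := fun a b => by
      simpa using pair_vanish hN hN3 a b 1 2 le_rfl
    have z22 : ∀ a b, B6 F ((N ^ 2) a) ((N ^ 2) b) = 0 := fun a b =>
      pair_vanish hN hN3 a b 2 2 (by omega)
    have hcube : ∀ a, N ((N ^ 2) a) = 0 := fun a => by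
      rw [← Module.End.mul_apply, ← pow_succ', hN3, LinearMap.zero_apply]
    have hswap : ∀ x y, B6 F x (s y) = lam * B6 F x y + B6 F y (s x) := fun x y => by
      have h : t y = lam • y - s y := by
        have := LinearMap.congr_fun hadd y
        simp only [LinearMap.add_apply, LinearMap.smul_apply, Module.End.one_apply] at this
        rw [← this, add_sub_cancel_left]
      have h' := hsadj x y
      rw [h, map_sub, map_smul, smul_eq_mul, B6_swap (s x) y] at h'
      linear_combination h'
    -- a vector with non-zero `τ`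
    obtain ⟨v0, hv0⟩ : ∃ v0, B6 F ((N ^ 2) v0) (s v0) ≠ 0 := by
      by_contra! hall
      refine hD2 ?_
      have hz : ∀ x, (N ^ 2) (s x) - (N ^ 2) (t x) = 0 := fun x =>
        Forms.sympBil_nondegenerate.1 _ fun y => by
          have h := hall (x + y)
          simp only [map_add, LinearMap.add_apply, hall x, hall y] at h
          have e1 : B6 F ((N ^ 2) y) (s x) = -B6 F ((N ^ 2) (s x)) y := by
            rw [hM y, B6_swap]
          have e2 : B6 F ((N ^ 2) x) (s y) = B6 F ((N ^ 2) (t x)) y := by
            have hta : ∀ p q, B6 F (t p) q = B6 F p (s q) := fun p q => by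
              rw [B6_swap, ← hsadj, B6_swap, neg_neg]
            rw [hM, hM, hta, hsN2]
          rw [map_sub, LinearMap.sub_apply]
          linear_combination e1 + e2 - h
      have hN2 : ∀ x, (N ^ 2) x = 0 := fun x => by
        have hrel : ∀ w, s w + t w = lam • w := fun w => LinearMap.congr_fun hadd w
        have h1 := hz (s x - t x)
        simp only [map_sub] at h1
        have e1 : s (s x) = lam • s x - x := by
          rw [← hrel, ← Module.End.mul_apply t s, hts, Module.End.one_apply, add_sub_cancel_right]
        have e2 : t (t x) = lam • t x - x := by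
          rw [← hrel, ← Module.End.mul_apply s t, hst, Module.End.one_apply, add_sub_cancel_left]
        rw [e1, e2, ← Module.End.mul_apply s t, hst, ← Module.End.mul_apply t s, hts,
          Module.End.one_apply] at h1
        simp only [map_sub, map_smul] at h1
        have h4 : (lam ^ 2 - 4) • (N ^ 2) x = 0 := by
          have hlx : lam • ((N ^ 2) (s x) + (N ^ 2) (t x)) = lam ^ 2 • (N ^ 2) x := by
            rw [← map_add, hrel, map_smul, smul_smul, ← pow_two lam]
          rw [sub_smul, ← hlx]
          rw [← h1]
          module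
        exact (smul_eq_zero.1 h4).resolve_left hl4
      have hDN : ∀ x, D x = s (N x) - t (N x) := fun x => by
        have hu2 : (u ^ 2) x = x + (2 : F) • N x := by
          rw [pow_two, Module.End.mul_apply, huN (u x), huN x, map_add, hsq, hN2]
          module
        have hx := LinearMap.congr_fun hadd x
        simp only [LinearMap.add_apply, LinearMap.smul_apply, Module.End.one_apply] at hx
        simp only [hDdef, hS, LinearMap.sub_apply, LinearMap.add_apply, LinearMap.smul_apply,
          Module.End.one_apply, Module.End.mul_apply, hu2, huN x, map_add, map_smul, ← hx]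
        have e : (3 : F) • t (N x) = 0 := by rw [h3, zero_smul]
        rw [← sub_eq_zero]
        refine Eq.trans ?_ e
        module
      refine LinearMap.ext fun x => ?_
      rw [Module.End.mul_apply, LinearMap.zero_apply, hDN]
      have htN : ∀ w, t (N w) = N (t w) := fun w => by
        have e : ∀ z, t z = lam • z - s z := fun z => by
          have := LinearMap.congr_fun hadd z
          simp only [LinearMap.add_apply, LinearMap.smul_apply, Module.End.one_apply] at this
          rw [← this, add_sub_cancel_left]
        rw [e, e, map_sub, map_smul, hsN]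
      rw [hDN x, map_sub, hsN x, htN x, hsq, hsq, hN2, hN2]
      simp
    set t0 := B6 F ((N ^ 2) v0) (s v0) with ht0
    have ht0' : B6 F v0 (s ((N ^ 2) v0)) = t0 := by rw [hsN2, ← hM]
    set β := -B6 F (N v0) v0 / t0 with hβ
    set v1 := v0 + β • s (N v0) with hv1
    have m1 : B6 F (N v1) v1 = 0 := by
      have f1 : B6 F (N v0) (s (N v0)) = -t0 := by
        rw [hsN, hNN, ← hsN2, ht0']
      have f2 : B6 F (s ((N ^ 2) v0)) v0 = -t0 := by rw [B6_swap, ht0']
      have f3 : B6 F (s ((N ^ 2) v0)) (s (N v0)) = 0 := by rw [hsN2, hsN, z21]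
      rw [hv1]
      simp only [map_add, map_smul, LinearMap.add_apply, LinearMap.smul_apply, smul_eq_mul]
      rw [← hsN (N v0), hsq, f1, f2, f3, hβ]
      field_simp
      linear_combination B6 F (N v0) v0 * t0 ^ 2 * h3
    have t1 : B6 F ((N ^ 2) v1) (s v1) = t0 := by
      have f4 : (N ^ 2) (s (N v0)) = 0 := by
        rw [← hsN2, ← Module.End.mul_apply (N ^ 2) N, ← pow_succ, hN3, LinearMap.zero_apply,
          map_zero]
      have f5 : B6 F ((N ^ 2) v0) (s (s (N v0))) = 0 := by rw [hsN, hsN, z21]
      rw [hv1]
      simp only [map_add, map_smul, LinearMap.add_apply, LinearMap.smul_apply, smul_eq_mul, f4, f5,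
        map_zero, smul_zero, add_zero, LinearMap.zero_apply, mul_zero]
      rw [ht0]
    clear_value v1
    set γ := (t0 - B6 F v1 (s v1)) / (2 * t0) with hγ
    set v := v1 + γ • (N ^ 2) v1 with hv
    have hm : B6 F (N v) v = 0 := by
      rw [hv]
      simp only [map_add, map_smul, LinearMap.add_apply, LinearMap.smul_apply, smul_eq_mul, hcube,
        z12, m1, map_zero, smul_zero, LinearMap.zero_apply, mul_zero, add_zero]
    have ht : B6 F ((N ^ 2) v) (s v) = t0 := by
      rw [hv]
      simp only [map_add, map_smul, LinearMap.add_apply, LinearMap.smul_apply, smul_eq_mul, hsN2,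
        z22, t1]
      have : (N ^ 2) ((N ^ 2) v1) = 0 := by
        rw [← Module.End.mul_apply, ← pow_add, pow_eq_zero_of_le (by omega) hN3,
          LinearMap.zero_apply]
      rw [this]; simp
    have he : B6 F v (s v) = t0 := by
      have f6 : B6 F v1 (s ((N ^ 2) v1)) = t0 := by rw [hsN2, ← hM, t1]
      rw [hv]
      simp only [map_add, map_smul, LinearMap.add_apply, LinearMap.smul_apply, smul_eq_mul, f6, t1]
      rw [show B6 F ((N ^ 2) v1) (s ((N ^ 2) v1)) = 0 by rw [hsN2, z22], hγ]
      field_simp
      ring
    clear_value v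
    have hn1 : B6 F (N v) (s v) = -t0 := by
      have f7 : B6 F (N v) (s (N v)) = -t0 := by rw [hsN, hNN, ← hM, ht]
      have h := hN v (s v)
      rw [← hsN, hswap v (N v), B6_swap v (N v), hm, f7] at h
      linear_combination -h + B6 F (N v) (s v) * h3
    have hsc : ∀ x, s (u x) = u (s x) := fun x => by
      rw [← Module.End.mul_apply, hsu.eq, Module.End.mul_apply]
    have hu3' : ∀ x, u (u (u x)) = x := fun x => by
      have := LinearMap.congr_fun hu3 x
      simpa [pow_succ, Module.End.mul_apply] using this
    have p2 : B6 F (u v) v = 0 := by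
      rw [huN, map_add, LinearMap.add_apply, B6_self, hm, add_zero]
    have p1 : B6 F v (u v) = 0 := by rw [B6_swap, p2, neg_zero]
    have p3 : B6 F (u (u v)) v = 0 := by rw [← hu (u (u v)) v, hu3', p1]
    have p4 : B6 F v (u (u v)) = 0 := by rw [B6_swap, p3, neg_zero]
    have q1 : B6 F (u v) (s v) = 0 := by
      rw [huN, map_add, LinearMap.add_apply, he, hn1, add_neg_cancel]
    have q2 : B6 F (u (u v)) (s v) = 0 := by
      rw [huN (u v), huN v]
      simp only [map_add, LinearMap.add_apply, hsq, he, hn1, ht]
      linear_combination (0 : F) * h3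
    have q3 : B6 F v (u (s v)) = 0 := by rw [← hu, ← hu, hu3', q2]
    have q4 : B6 F v (u (u (s v))) = 0 := by rw [← hu, hu3', q1]
    set κ := -t0⁻¹ with hκ
    have hκ0 : κ ≠ 0 := neg_ne_zero.2 (inv_ne_zero hv0)
    let L : Module.End F (V6 F) :=
      { toFun := fun z => z (.inl 0) • v + z (.inl 1) • u v + z (.inl 2) • u (u v) +
          κ • (z (.inr 0) • s v + z (.inr 1) • u (s v) + z (.inr 2) • u (u (s v)))
        map_add' := fun x y => by simp only [Pi.add_apply]; module
        map_smul' := fun r x => by simp only [Pi.smul_apply, smul_eq_mul, RingHom.id_apply]; module }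
    have hL : ∀ z, L z = z (.inl 0) • v + z (.inl 1) • u v + z (.inl 2) • u (u v) +
        κ • (z (.inr 0) • s v + z (.inr 1) • u (s v) + z (.inr 2) • u (u (s v))) := fun z => rfl
    let R : Module.End F (V6 F) :=
      { toFun := fun z => Sum.elim (fun i => -(κ * z (.inr i)))
          (fun i => κ⁻¹ * z (.inl i) + lam * z (.inr i))
        map_add' := fun x y => by ext (i | i) <;> simp <;> ring
        map_smul' := fun r x => by ext (i | i) <;> simp <;> ring }
    refine ⟨L, R * cyc6, 1, AddSubgroup.mem_zmultiples 1, fun x z => ?_, fun x => ?_, fun x => ?_⟩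
    · have hss : ∀ p q, B6 F (s p) (s q) = B6 F p q := fun p q => by
        rw [hsadj, ← Module.End.mul_apply, hts, Module.End.one_apply]
      have r1 : B6 F (s v) (u (s v)) = 0 := by rw [← hsc, hss, p1]
      have r2 : B6 F (u (s v)) (s v) = 0 := by rw [B6_swap, r1, neg_zero]
      have r3 : B6 F (s v) (u (u (s v))) = 0 := by rw [← hsc, ← hsc, hss, p4]
      have r4 : B6 F (u (u (s v))) (s v) = 0 := by rw [B6_swap, r3, neg_zero]
      have e' : B6 F (s v) v = -t0 := by rw [B6_swap, he]
      have q1' : B6 F (s v) (u v) = 0 := by rw [B6_swap, q1, neg_zero]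
      have q2' : B6 F (s v) (u (u v)) = 0 := by rw [B6_swap, q2, neg_zero]
      have q3' : B6 F (u (s v)) v = 0 := by rw [B6_swap, q3, neg_zero]
      have q4' : B6 F (u (u (s v))) v = 0 := by rw [B6_swap, q4, neg_zero]
      rw [hL, hL, B6_apply x z]
      simp only [map_add, map_smul, LinearMap.add_apply, LinearMap.smul_apply, smul_eq_mul, hu,
        B6_self, p1, p2, p3, p4, q1, q2, q3, q4, r1, r2, r3, r4, he, e', q1', q2', q3', q4', hκ]
      field_simp
      ring
    · have hss2 : ∀ y, s (s y) = lam • s y - y := fun y => by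
        have := LinearMap.congr_fun hadd (s y)
        simp only [LinearMap.add_apply, LinearMap.smul_apply, Module.End.one_apply] at this
        rw [← Module.End.mul_apply t s, hts, Module.End.one_apply] at this
        rw [← this, add_sub_cancel_right]
      rw [hL, hL, Module.End.mul_apply, Module.End.mul_apply]
      simp only [map_add, map_smul, hu3', hsc, hss2, map_sub]
      simp only [R, LinearMap.coe_mk, AddHom.coe_mk, Sum.elim_inl, Sum.elim_inr]
      rw [show cyc6 x (.inl 0) = x (.inl 2) from rfl, show cyc6 x (.inl 1) = x (.inl 0) from rfl,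
        show cyc6 x (.inl 2) = x (.inl 1) from rfl, show cyc6 x (.inr 0) = x (.inr 2) from rfl,
        show cyc6 x (.inr 1) = x (.inr 0) from rfl, show cyc6 x (.inr 2) = x (.inr 1) from rfl]
      match_scalars <;> field_simp
    · rw [Module.End.mul_apply, Module.End.mul_apply, cyc6_X6 h3, map_add, map_smul]
      congr 1
      ext (i | i) <;> simp [R, X6, Jop_apply] <;> ring

end Cfsg.Agent.Cover5
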