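/-
Every unipotent isometry in dimension six, characteristic three, has an invariant plane or a shift
model.
-/
import Cfsg.Agent.Cover5.SpSixUnip

set_option autoImplicit false
set_option linter.style.haveILetI false
set_option linter.unusedSimpArgs false

namespace Cfsg.Agent.Cover5

open Module

variable {F : Type} [Field F]

theorem regular_model (h3 : (3 : F) = 0) (c : F) (u : Module.End F (V6 F))
    (hu : ∀ a b, B6 F (u a) (u b) = B6 F a b) (h6 : (u - 1) ^ 6 = 0) (h5 : (u - 1) ^ 5 ≠ 0) :
    HasShiftModel c u := by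
  set N := u - 1 with hNdef
  have h2 := two_ne_zero_of_three h3
  have hN : ∀ a b, B6 F (N a) b + B6 F a (N b) + B6 F (N a) (N b) = 0 := fun a b => by
    have h := hu a b
    rw [show u = 1 + N by rw [hNdef]; abel] at h
    simp only [LinearMap.add_apply, Module.End.one_apply, map_add] at h
    linear_combination h
  -- a vector with non-zero `τ`
  obtain ⟨v, hv⟩ : ∃ v, gram N v 5 0 ≠ 0 := by
    by_contra! hall
    refine h5 (LinearMap.ext fun a => sympBil_nondeg_zero fun b => ?_)
    have h1 := hall (a + b)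
    have ha := hall a
    have hb := hall b
    unfold gram at h1 ha hb
    simp only [map_add, LinearMap.add_apply, pow_zero, Module.End.one_apply] at h1 ha hb
    have hsym : B6 F ((N ^ 5) b) a = B6 F ((N ^ 5) a) b := by
      have e1 := pair_shift hN h6 b a 4 0 le_rfl
      have e2 := pair_shift hN h6 b a 3 1 le_rfl
      have e3 := pair_shift hN h6 b a 2 2 le_rfl
      have e4 := pair_shift hN h6 b a 1 3 le_rfl
      have e5 := pair_shift hN h6 b a 0 4 le_rfl
      simp only [Nat.reduceAdd, pow_zero, Module.End.one_apply] at e1 e2 e3 e4 e5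
      linear_combination e1 - e2 + e3 - e4 + e5 - B6_swap b ((N ^ 5) a)
    have : (2 : F) * B6 F ((N ^ 5) a) b = 0 := by linear_combination h1 - ha - hb - hsym
    exact (mul_eq_zero.1 this).resolve_left h2
  set β := gram N v 5 0 with hβ
  obtain ⟨v', hv5, hv1, hv3⟩ := exists_normalised hN h2 h6 v hv
  -- the model
  set g := g0 c β with hg
  set N0 := g - 1 with hN0def
  have hN0 : ∀ a b, B6 F (N0 a) b + B6 F a (N0 b) + B6 F (N0 a) (N0 b) = 0 := fun a b => by
    have h := g0_isometry c β a b
    rw [← hg, show g = 1 + N0 by rw [hN0def]; abel] at h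
    simp only [LinearMap.add_apply, Module.End.one_apply, map_add] at h
    linear_combination h
  have hcube : ∀ z : V6 F, (N0 ^ 3) z = Sum.elim (fun i => -(β * z (.inr i))) (fun _ => 0) := by
    intro z
    ext (i | i)
    · fin_cases i <;>
        simp [pow_succ, Module.End.mul_apply, hN0def, hg, g0, cyc_apply, Jop_apply, dvec] <;>
        grind
    · fin_cases i <;>
        simp [pow_succ, Module.End.mul_apply, hN0def, hg, g0, cyc_apply, Jop_apply, dvec] <;>
        grind
  have h06 : N0 ^ 6 = 0 := LinearMap.ext fun z => by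
    rw [show 6 = 3 + 3 from rfl, pow_add, Module.End.mul_apply, hcube, hcube]
    ext (i | i) <;> simp
  set y0 : V6 F := Pi.single (Sum.inr 0) 1 with hy0
  have hτ0 : gram N0 y0 5 0 = β := by
    unfold gram
    rw [show 5 = 2 + 3 from rfl, pow_add, Module.End.mul_apply, hcube, pow_zero,
      Module.End.one_apply, B6_apply]
    simp [pow_succ, Module.End.mul_apply, hN0def, hg, g0, cyc_apply, Jop_apply, dvec, hy0,
      Pi.single_apply]
  obtain ⟨y, hy5, hy1, hy3⟩ := exists_normalised hN0 h2 h06 y0 (hτ0 ▸ hv)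
  have hcol : ∀ i, i < 6 → gram N v' i 0 = gram N0 y i 0 := by
    intro i hi
    obtain ⟨a4, a2⟩ := gram_column hN h6 v'
    obtain ⟨b4, b2⟩ := gram_column hN0 h06 y
    interval_cases i
    · exact (B6_self _).trans (B6_self _).symm
    · rw [hv1, hy1]
    · rw [a2, b2, hv5, hy5, hτ0, hv3, hy3]
    · rw [hv3, hy3]
    · rw [a4, b4, hv5, hy5, hτ0]
    · rw [hv5, hy5, hτ0]
  have hgr := gram_eq hN hN0 h6 h06 v' y hcol
  have hv' : (N ^ 5) v' ≠ 0 := fun h => hv (hv5.symm.trans (by unfold gram; rw [h]; simp))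
  have hy' : (N0 ^ 5) y ≠ 0 := fun h => hv (hτ0.symm.trans (hy5.symm.trans (by unfold gram; rw [h]; simp)))
  let e0 := LinearEquiv.ofBijective (lam6 N0 y) (lam6_bijective h06 hy')
  let L : Module.End F (V6 F) := (lam6 N v').comp e0.symm.toLinearMap
  have hL : ∀ a, L (lam6 N0 y a) = lam6 N v' a := fun a => by
    show lam6 N v' (e0.symm (lam6 N0 y a)) = _
    rw [show e0.symm (lam6 N0 y a) = a from e0.symm_apply_apply a]
  have hsurj : ∀ x, ∃ a, lam6 N0 y a = x := (lam6_bijective h06 hy').2
  refine ⟨L, g, 1, AddSubgroup.mem_zmultiples 1, fun x z => ?_, fun x => ?_,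
    fun x => g0_X6 h3 c β x⟩
  · obtain ⟨a, rfl⟩ := hsurj x
    obtain ⟨b, rfl⟩ := hsurj z
    rw [hL, hL, B6_lam6, B6_lam6]
    simp only [hgr]
  · obtain ⟨a, rfl⟩ := hsurj x
    rw [hL, show g (lam6 N0 y a) = lam6 N0 y a + N0 (lam6 N0 y a) by
        rw [hN0def]; simp,
      lam6_shift h06, map_add, hL, hL, ← lam6_shift h6, hNdef]
    simp
where
  sympBil_nondeg_zero {F : Type} [Field F] {x : V6 F} (h : ∀ b, B6 F x b = 0) : x = 0 :=
    Forms.sympBil_nondegenerate.1 x h

theorem unipotent_case (h3 : (3 : F) = 0) (c : F) (u : Module.End F (V6 F))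
    (hu : ∀ a b, B6 F (u a) (u b) = B6 F a b) (h6 : (u - 1) ^ 6 = 0) :
    HasPlane u ∨ HasShiftModel c u := by
  set N := u - 1 with hNdef
  have h2 := two_ne_zero_of_three h3
  have huN : ∀ a, u a = a + N a := fun a => by rw [hNdef]; simp
  have hN : ∀ a b, B6 F (N a) b + B6 F a (N b) + B6 F (N a) (N b) = 0 := fun a b => by
    have h := hu a b
    simp only [huN, map_add, LinearMap.add_apply] at h
    linear_combination h
  have hpow : ∀ k a, N ((N ^ k) a) = (N ^ (k + 1)) a := fun k a => by
    rw [pow_succ', Module.End.mul_apply]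
  have hzero : ∀ (A : Module.End F (V6 F)), (∀ a b, B6 F (A a) b = B6 F (A b) a) →
      (∀ a, B6 F (A a) a = 0) → A = 0 := by
    intro A hsym hall
    refine LinearMap.ext fun a => Forms.sympBil_nondegenerate.1 _ fun b => ?_
    have h1 := hall (a + b)
    simp only [map_add, LinearMap.add_apply] at h1
    have : (2 : F) * B6 F (A a) b = 0 := by
      linear_combination h1 - hall a - hall b + hsym a b
    exact (mul_eq_zero.1 this).resolve_left h2
  by_cases h5 : N ^ 5 ≠ 0
  · exact Or.inr (regular_model h3 c u hu h6 h5)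
  push Not at h5
  by_cases h4 : N ^ 4 ≠ 0
  · -- rank considerations exclude this
    exfalso
    have hadj : ∀ a b, B6 F ((N ^ 4) a) b = B6 F a ((N ^ 4) b) := fun a b => by
      have e1 := pair_shift hN h5 a b 3 0 le_rfl
      have e2 := pair_shift hN h5 a b 2 1 le_rfl
      have e3 := pair_shift hN h5 a b 1 2 le_rfl
      have e4 := pair_shift hN h5 a b 0 3 le_rfl
      simp only [Nat.reduceAdd, pow_zero, Module.End.one_apply] at e1 e2 e3 e4
      linear_combination e1 - e2 + e3 - e4
    obtain ⟨k, hk⟩ := even_finrank_range h2 hadj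
    have hpos : finrank F (LinearMap.range (N ^ 4)) ≠ 0 := fun h => h4 (by
      rwa [Submodule.finrank_eq_zero, LinearMap.range_eq_bot] at h)
    have step : ∀ j, j ≤ 4 → finrank F (LinearMap.range (N ^ (j + 1))) +
        finrank F (LinearMap.range (N ^ 4)) ≤ finrank F (LinearMap.range (N ^ j)) := by
      intro j hj
      set f := N.comp (LinearMap.range (N ^ j)).subtype with hf
      have h := LinearMap.finrank_range_add_finrank_ker f
      have hr : LinearMap.range f = LinearMap.range (N ^ (j + 1)) := by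
        rw [hf, LinearMap.range_comp, Submodule.range_subtype, ← LinearMap.range_comp, pow_succ']
        rfl
      have hk : finrank F (LinearMap.range (N ^ 4)) ≤ finrank F (LinearMap.ker f) := by
        obtain ⟨i, hi⟩ : ∃ i, 4 = j + i := ⟨4 - j, by omega⟩
        have hle : LinearMap.range (N ^ 4) ≤ LinearMap.range (N ^ j) := by
          rw [hi, pow_add]; exact LinearMap.range_comp_le_range _ _
        let ι : LinearMap.range (N ^ 4) →ₗ[F] LinearMap.ker f :=
          LinearMap.codRestrict _ (Submodule.inclusion hle) fun x => by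
            obtain ⟨z, hz⟩ := x.2
            rw [LinearMap.mem_ker]
            show N x.1 = 0
            rw [← hz, hpow, h5, LinearMap.zero_apply]
        exact LinearMap.finrank_le_finrank_of_injective (f := ι) fun x y hxy => by
          exact Subtype.ext (congrArg (fun w => w.1.1) hxy)
      rw [← hr]
      omega
    have s0 := step 0 (by omega)
    have s1 := step 1 (by omega)
    have s2 := step 2 (by omega)
    have s3 := step 3 (by omega)
    have htop : finrank F (LinearMap.range (N ^ 0)) ≤ 6 :=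
      (Submodule.finrank_le _).trans finrank_V6.le
    simp only [Nat.reduceAdd] at s0 s1 s2 s3
    omega
  push Not at h4
  by_cases h3N : N ^ 3 ≠ 0
  · -- a non-degenerate four-space
    left
    obtain ⟨v, hv⟩ : ∃ v, B6 F ((N ^ 3) v) v ≠ 0 := by
      by_contra! hall
      refine h3N (hzero _ (fun a b => ?_) hall)
      have e1 := pair_shift hN h4 a b 2 0 le_rfl
      have e2 := pair_shift hN h4 a b 1 1 le_rfl
      have e3 := pair_shift hN h4 a b 0 2 le_rfl
      simp only [Nat.reduceAdd, pow_zero, Module.End.one_apply] at e1 e2 e3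
      linear_combination e1 - e2 + e3 - B6_swap a ((N ^ 3) b)
    let lam : (Fin 4 → F) →ₗ[F] V6 F :=
      Fintype.linearCombination F (fun k : Fin 4 => (N ^ k.1) v)
    have hlam : ∀ a, lam a = a 0 • v + a 1 • (N ^ 1) v + a 2 • (N ^ 2) v + a 3 • (N ^ 3) v :=
      fun a => by simp [lam, Fintype.linearCombination_apply, Fin.sum_univ_four]
    have hnd : ∀ a, (∀ b, B6 F (lam a) (lam b) = 0) → a = 0 := by
      intro a ha
      have hp : ∀ k : Fin 4, B6 F (lam a) ((N ^ k.1) v) = 0 := fun k => by
        have h := ha (Pi.single k 1)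
        have hk : lam (Pi.single k 1) = (N ^ k.1) v := by
          simp [lam, Fintype.linearCombination_apply, Pi.single_apply]
        rwa [hk] at h
      have z : ∀ i j, 4 ≤ i + j → B6 F ((N ^ i) v) ((N ^ j) v) = 0 := fun i j h =>
        pair_vanish hN h4 v v j i h
      have e12 : B6 F ((N ^ 1) v) ((N ^ 2) v) = -B6 F v ((N ^ 3) v) := by
        have := pair_shift hN h4 v v 0 2 le_rfl
        simpa using this
      have e30 : B6 F ((N ^ 3) v) v = -B6 F v ((N ^ 3) v) := B6_swap _ _
      have hne : B6 F v ((N ^ 3) v) ≠ 0 := fun h => hv (by rw [e30, h, neg_zero])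
      simp only [hlam, map_add, map_smul, LinearMap.add_apply, LinearMap.smul_apply,
        smul_eq_mul] at hp
      have p3 := hp 3
      rw [show ((3 : Fin 4) : ℕ) = 3 from rfl] at p3
      simp only [ z 1 3 le_rfl, z 2 3 (by omega), z 3 3 (by omega),
        mul_zero, add_zero] at p3
      have a0 : a 0 = 0 := (mul_eq_zero.1 p3).resolve_right hne
      have p2 := hp 2
      rw [show ((2 : Fin 4) : ℕ) = 2 from rfl] at p2
      simp only [ z 3 2 (by omega), z 2 2 le_rfl, a0, zero_mul,
        mul_zero, add_zero, zero_add, e12] at p2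
      have a1 : a 1 = 0 := (mul_eq_zero.1 p2).resolve_right (neg_ne_zero.2 hne)
      have p1 := hp 1
      rw [show ((1 : Fin 4) : ℕ) = 1 from rfl] at p1
      simp only [ z 3 1 le_rfl, a0, a1, zero_mul, mul_zero, add_zero,
        zero_add] at p1
      have e21 : B6 F ((N ^ 2) v) ((N ^ 1) v) = B6 F v ((N ^ 3) v) := by
        rw [B6_swap, e12, neg_neg]
      rw [e21] at p1
      have a2 : a 2 = 0 := (mul_eq_zero.1 p1).resolve_right hne
      have p0 := hp 0
      simp only [Fin.val_zero, pow_zero, Module.End.one_apply, a0, a1, a2, zero_mul, zero_add,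
        e30] at p0
      have a3 : a 3 = 0 := (mul_eq_zero.1 p0).resolve_right (neg_ne_zero.2 hne)
      ext k; fin_cases k <;> assumption
    have hinj : Function.Injective lam := (injective_iff_map_eq_zero _).2 fun a ha =>
      hnd a fun b => by rw [ha]; simp
    refine hasPlane_of_invariant hu (LinearMap.range lam) ?_ ?_ (Or.inr ?_)
    · rintro _ ⟨a, rfl⟩ h
      rw [hnd a fun b => h _ ⟨b, rfl⟩, map_zero]
    · rintro _ ⟨a, rfl⟩
      refine ⟨![a 0, a 1 + a 0, a 2 + a 1, a 3 + a 2], ?_⟩
      rw [huN, hlam, hlam]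
      simp only [map_add, map_smul, hpow, h4, Nat.reduceAdd, LinearMap.zero_apply, smul_zero,
        add_zero]
      rw [show N v = (N ^ 1) v by rw [pow_one]]
      simp only [Matrix.cons_val_zero, Matrix.cons_val_one, Matrix.cons_val]
      module
    · rw [LinearMap.finrank_range_of_inj hinj, finrank_fin_fun]
  push Not at h3N
  by_cases h2N : N ^ 2 ≠ 0
  · -- two free orbits of length three
    right
    have hadj : ∀ a b, B6 F ((N ^ 2) a) b = B6 F a ((N ^ 2) b) := fun a b => by
      have e1 := pair_shift hN h3N a b 1 0 le_rfl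
      have e2 := pair_shift hN h3N a b 0 1 le_rfl
      simp only [Nat.reduceAdd, pow_zero, Module.End.one_apply] at e1 e2
      linear_combination e1 - e2
    have hNN : ∀ a b, B6 F (N a) (N b) = -B6 F a ((N ^ 2) b) := fun a b => by
      have e2 := pair_shift hN h3N a b 0 1 le_rfl
      simpa using e2
    have z12 : ∀ a b, B6 F (N a) ((N ^ 2) b) = 0 := fun a b => by
      simpa using pair_vanish hN h3N a b 2 1 le_rfl
    have z21 : ∀ a b, B6 F ((N ^ 2) a) (N b) = 0 := fun a b => by
      simpa using pair_vanish hN h3N a b 1 2 le_rfl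
    have z22 : ∀ a b, B6 F ((N ^ 2) a) ((N ^ 2) b) = 0 := fun a b =>
      pair_vanish hN h3N a b 2 2 (by omega)
    have hsq : ∀ a, N (N a) = (N ^ 2) a := fun a => by rw [pow_two, Module.End.mul_apply]
    have hcube : ∀ a, N ((N ^ 2) a) = 0 := fun a => by rw [hpow, h3N, LinearMap.zero_apply]
    obtain ⟨v0, w0, h01⟩ : ∃ v0 w0, B6 F ((N ^ 2) v0) w0 = 1 := by
      obtain ⟨v0, hv0⟩ : ∃ v0, (N ^ 2) v0 ≠ 0 := by
        by_contra! hall
        exact h2N (LinearMap.ext hall)
      obtain ⟨w, hw⟩ : ∃ w, B6 F ((N ^ 2) v0) w ≠ 0 := by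
        by_contra! hall
        exact hv0 (Forms.sympBil_nondegenerate.1 _ hall)
      exact ⟨v0, (B6 F ((N ^ 2) v0) w)⁻¹ • w, by rw [map_smul, smul_eq_mul, inv_mul_cancel₀ hw]⟩
    have h10 : B6 F w0 ((N ^ 2) v0) = -1 := by rw [B6_swap, h01]
    set v := v0 + (-B6 F (N v0) v0) • N w0 with hv
    have hv2 : B6 F ((N ^ 2) v) w0 = 1 := by
      have e : (N ^ 2) (N w0) = 0 := by
        rw [← Module.End.mul_apply, ← pow_succ, h3N, LinearMap.zero_apply]
      rw [hv, map_add, map_smul, e, smul_zero, add_zero, h01]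
    have hv1 : B6 F (N v) v = 0 := by
      have f1 : B6 F (N v0) (N w0) = -1 := by rw [hNN, ← hadj, h01]
      have f2 : B6 F ((N ^ 2) w0) v0 = -1 := by rw [hadj, h10]
      rw [hv]
      simp only [map_add, map_smul, LinearMap.add_apply, LinearMap.smul_apply, smul_eq_mul, hsq,
        z21, f1, f2]
      linear_combination B6 F (N v0) v0 * h3
    clear_value v
    set w1 := w0 + B6 F (N w0) w0 • N v with hw1def
    have hw11 : B6 F (N w1) w1 = 0 := by
      have f1 : B6 F (N w0) (N v) = 1 := by
        rw [hNN, B6_swap w0, hv2, neg_neg]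
      rw [hw1def]
      simp only [map_add, map_smul, LinearMap.add_apply, LinearMap.smul_apply, smul_eq_mul, hsq,
        z21, f1, hv2]
      linear_combination B6 F (N w0) w0 * h3
    have hv2' : B6 F ((N ^ 2) v) w1 = 1 := by
      rw [hw1def]
      simp [z21, hv2]
    clear_value w1
    set a := B6 F (N v) w1 + 1 with ha
    set b := 1 - B6 F v w1 - a * B6 F v (N w1) with hb
    set w := w1 + a • N w1 + b • (N ^ 2) w1 with hw
    have hvN2w1 : B6 F v ((N ^ 2) w1) = 1 := by rw [← hadj, hv2']
    have e_ww : B6 F (N w) w = 0 := by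
      rw [hw]
      simp only [map_add, map_smul, LinearMap.add_apply, LinearMap.smul_apply, smul_eq_mul, hsq,
        hcube, z12, z21, z22, hw11, B6_self, hadj w1 w1, hNN w1 w1, smul_zero,
        LinearMap.zero_apply, map_zero]
      have : B6 F w1 ((N ^ 2) w1) = 0 := by
        have h := hadj w1 w1
        have hs := B6_swap w1 ((N ^ 2) w1)
        have : (2 : F) * B6 F w1 ((N ^ 2) w1) = 0 := by linear_combination hs - h
        exact (mul_eq_zero.1 this).resolve_left h2
      rw [this]; ring
    have e_2 : B6 F ((N ^ 2) v) w = 1 := by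
      rw [hw]; simp [z21, z22, hv2']
    have e_1 : B6 F (N v) w = -1 := by
      rw [hw]
      simp only [map_add, map_smul, smul_eq_mul, z12, hNN, hvN2w1, ha]
      ring
    have e_0 : B6 F v w = 1 := by
      rw [hw]
      simp only [map_add, map_smul, smul_eq_mul, hvN2w1, hb]
      ring
    clear_value w
    have hu3 : ∀ x, u (u (u x)) = x := fun x => by
      have e : u (u (u x)) = x + (3 : F) • N x + (3 : F) • (N ^ 2) x + (N ^ 3) x := by
        simp only [huN, map_add, hsq, hpow, Nat.reduceAdd]
        module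
      rw [e, h3, h3N]; simp
    have p01 : ∀ x, B6 F (N x) x = 0 → B6 F x (u x) = 0 ∧ B6 F (u x) x = 0 := fun x hx => by
      have h' : B6 F (u x) x = 0 := by rw [huN, map_add, LinearMap.add_apply, B6_self, hx, add_zero]
      exact ⟨by rw [B6_swap, h', neg_zero], h'⟩
    have q10 : B6 F (u v) w = 0 := by
      rw [huN, map_add, LinearMap.add_apply, e_0, e_1, add_neg_cancel]
    have q20 : B6 F (u (u v)) w = 0 := by
      rw [huN (u v), huN v]
      simp only [map_add, LinearMap.add_apply, hsq, e_0, e_1, e_2]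
      ring
    let L : Module.End F (V6 F) :=
      { toFun := fun z => z (.inl 0) • v + z (.inl 1) • u v + z (.inl 2) • u (u v) -
          (z (.inr 0) • w + z (.inr 1) • u w + z (.inr 2) • u (u w))
        map_add' := fun x y => by simp only [Pi.add_apply]; module
        map_smul' := fun r x => by simp only [Pi.smul_apply, smul_eq_mul, RingHom.id_apply]; module }
    have hL : ∀ z, L z = z (.inl 0) • v + z (.inl 1) • u v + z (.inl 2) • u (u v) -
        (z (.inr 0) • w + z (.inr 1) • u w + z (.inr 2) • u (u w)) := fun z => rfl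
    refine ⟨L, cyc6, 1, AddSubgroup.mem_zmultiples 1, fun x z => ?_, fun x => ?_,
      fun x => cyc6_X6 h3 c x⟩
    · -- the Gram matrix
      have f20 : ∀ s t, B6 F (u (u s)) t = B6 F s (u t) := fun s t => by
        rw [← hu (u (u s)) t, hu3]
      obtain ⟨pv1, pv2⟩ := p01 v hv1
      obtain ⟨pw1, pw2⟩ := p01 w e_ww
      have rv2 : B6 F (u (u v)) v = 0 := by rw [f20]; exact pv1
      have rw2 : B6 F (u (u w)) w = 0 := by rw [f20]; exact pw1
      have rvw : B6 F v (u w) = 0 := by rw [← f20]; exact q20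
      have rvw2 : B6 F v (u (u w)) = 0 := by rw [← hu, hu3]; exact q10
      have t1 : B6 F w v = -1 := by rw [B6_swap, e_0]
      have t2 : B6 F (u w) v = 0 := by rw [B6_swap, rvw, neg_zero]
      have t3 : B6 F (u (u w)) v = 0 := by rw [B6_swap, rvw2, neg_zero]
      have t4 : B6 F v (u (u v)) = 0 := by rw [B6_swap, rv2, neg_zero]
      have t5 : B6 F w (u (u w)) = 0 := by rw [B6_swap, rw2, neg_zero]
      have t6 : B6 F w (u v) = 0 := by rw [B6_swap, q10, neg_zero]
      have t7 : B6 F w (u (u v)) = 0 := by rw [B6_swap, q20, neg_zero]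
      rw [hL, hL, B6_apply x z]
      simp only [map_add, map_sub, map_smul, LinearMap.add_apply, LinearMap.sub_apply,
        LinearMap.smul_apply, smul_eq_mul, hu, B6_self, pv1, pv2, pw1, pw2, rv2, rw2, rvw, rvw2,
        q10, q20, e_0, t1, t2, t3, t4, t5, t6, t7]
      ring
    · rw [hL, hL]
      simp only [map_sub, map_add, map_smul, hu3]
      rw [show cyc6 x (.inl 0) = x (.inl 2) from rfl, show cyc6 x (.inl 1) = x (.inl 0) from rfl,
        show cyc6 x (.inl 2) = x (.inl 1) from rfl, show cyc6 x (.inr 0) = x (.inr 2) from rfl,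
        show cyc6 x (.inr 1) = x (.inr 0) from rfl, show cyc6 x (.inr 2) = x (.inr 1) from rfl]
      abel
  push Not at h2N
  left
  have hNN : ∀ a, N (N a) = 0 := fun a => by
    rw [← Module.End.mul_apply, ← pow_two, h2N, LinearMap.zero_apply]
  by_cases hz : N = 0
  · set e : V6 F := Pi.single (Sum.inl 0) 1
    obtain ⟨w, hw⟩ := Linear.Symp.exists_bil_eq_one (x := e) (by simp [e])
    exact ⟨e, w, by rw [show B6 F e w = 1 from hw]; exact one_ne_zero,
      Submodule.mem_span_pair.2 ⟨1, 0, by simp [huN, hz]⟩,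
      Submodule.mem_span_pair.2 ⟨0, 1, by simp [huN, hz]⟩⟩
  · obtain ⟨v, hv⟩ : ∃ v, B6 F (N v) v ≠ 0 := by
      by_contra! hall
      refine hz (hzero N (fun a b => ?_) hall)
      have := pair_shift hN h2N a b 0 0 le_rfl
      simp only [pow_zero, zero_add, pow_one, Module.End.one_apply] at this
      rw [this, B6_swap a, neg_neg]
    refine hasPlane_of_cyclic (v := v) ?_ ⟨-1, 2, ?_⟩
    · rw [huN, map_add, B6_self, zero_add, B6_swap]
      exact neg_ne_zero.2 hv
    · rw [huN (u v), huN v, map_add, hNN]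
      module

end Cfsg.Agent.Cover5
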