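/-
`PSp_6(q)`, `q` a power of three, is the union of the conjugates of two proper subgroups.
-/
import Cfsg.Agent.Cover5.Field
import Cfsg.Agent.Cover5.SpSixUnipCases
import Cfsg.Agent.Cover5.SpSixSemi

set_option autoImplicit false
set_option linter.style.haveILetI false
set_option linter.unusedSimpArgs false

namespace Cfsg.Agent.Cover5

open Module Polynomial Cfsg.Agent.Forms Cfsg.Agent.Linear

variable {F : Type} [Field F]

theorem hasShiftModel_of_root (h3 : (3 : F) = 0) {c : F} (hc : ∀ x : F, x ^ 3 - x ≠ c)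
    (T y : Module.End F (V6 F)) (hyT : ∀ x, T (y x) = y (T x))
    (hy : ∀ a b, B6 F (y a) b = B6 F a (y b)) (hy3 : aeval y (asPoly c) = 0) :
    HasShiftModel c T := by
  have h2 := two_ne_zero_of_three h3
  have hc0 : c ≠ 0 := fun h => hc 0 (by rw [h]; ring)
  have hf := asPoly_irreducible hc
  have hcube : ∀ v, y (y (y v)) = y v + c • v := fun v => by
    have h := LinearMap.congr_fun hy3 v
    rw [aeval_asPoly] at h
    simp only [pow_succ, pow_zero, one_mul, LinearMap.sub_apply, Module.End.mul_apply,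
      Module.algebraMap_end_apply, LinearMap.zero_apply] at h
    rw [sub_sub, sub_eq_zero] at h
    exact h
  set v : V6 F := Pi.single (Sum.inl 0) 1 with hv
  have hv0 : v ≠ 0 := by simp [hv]
  let lam : (Fin 3 → F) →ₗ[F] V6 F :=
    Fintype.linearCombination F (fun k : Fin 3 => (y ^ k.1) v)
  have hlam : ∀ a, lam a = a 0 • v + a 1 • y v + a 2 • y (y v) := fun a => by
    simp [lam, Fintype.linearCombination_apply, Fin.sum_univ_three, pow_succ, Module.End.mul_apply]
  have hinj : Function.Injective lam := by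
    refine (injective_iff_map_eq_zero _).2 fun a ha => ?_
    by_contra hne
    set P : F[X] := C (a 0) + C (a 1) * Polynomial.X + C (a 2) * Polynomial.X ^ 2 with hP
    have hP0 : P ≠ 0 := fun h => hne (by
      ext k
      fin_cases k
      · simpa [hP] using congrArg (coeff · 0) h
      · simpa [hP] using congrArg (coeff · 1) h
      · simpa [hP] using congrArg (coeff · 2) h)
    have hdeg : P.natDegree ≤ 2 := by rw [hP]; compute_degree
    obtain ⟨u, w, huw⟩ := hf.coprime_iff_not_dvd.2 fun hd => by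
      have := natDegree_le_of_dvd hd hP0
      rw [asPoly_natDegree] at this
      omega
    have h0 : aeval y P v = 0 := by
      rw [hP, map_add, map_add, map_mul, map_mul, aeval_C, aeval_C, aeval_C, map_pow, aeval_X]
      rw [hlam] at ha
      simpa [pow_two, Module.End.mul_apply] using ha
    refine hv0 ?_
    calc v = aeval y (u * asPoly c + w * P) v := by rw [huw, map_one]; rfl
      _ = 0 := by
        rw [map_add, map_mul, map_mul, hy3, mul_zero, zero_add, Module.End.mul_apply, h0, map_zero]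
  obtain ⟨π, hπ⟩ := lam.exists_leftInverse_of_injective (LinearMap.ker_eq_bot.2 hinj)
  let φ : Module.Dual F (V6 F) :=
    ((-1 : F) • (LinearMap.proj (0 : Fin 3) : (Fin 3 → F) →ₗ[F] F) +
      c • LinearMap.proj (1 : Fin 3)).comp π
  set w := (LinearMap.BilinForm.toDual (B6 F)
    (sympBil_nondegenerate (m := 3) (F := F))).symm (-φ) with hwdef
  have hw : ∀ x, B6 F x w = φ x := fun x => by
    rw [B6_swap, hwdef, LinearMap.BilinForm.apply_toDual_symm_apply, LinearMap.neg_apply, neg_neg]
  have hgram : ∀ a, B6 F (lam a) w = -a 0 + c * a 1 := fun a => by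
    rw [hw]
    simp only [φ, LinearMap.comp_apply]
    rw [show π (lam a) = a from LinearMap.congr_fun hπ a]
    simp
  have g0 : B6 F v w = -1 := by simpa [hlam] using hgram (Pi.single 0 1)
  have g1 : B6 F (y v) w = c := by simpa [hlam] using hgram (Pi.single 1 1)
  have g2 : B6 F (y (y v)) w = 0 := by simpa [hlam] using hgram (Pi.single 2 1)
  have hself : ∀ u, B6 F (y u) u = 0 := selfAdj_self h2 hy
  have hself2 : ∀ u, B6 F (y (y u)) u = 0 := fun u => by rw [hy, B6_self]
  let L : Module.End F (V6 F) :=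
    { toFun := fun z => (z (.inl 0) + z (.inl 1) + z (.inl 2)) • v +
          ((z (.inl 1) + z (.inl 2)) / c) • y v + ((z (.inl 2) - z (.inl 1)) / c) • y (y v) +
        ((z (.inr 0) + z (.inr 1) + z (.inr 2)) • w +
          ((z (.inr 1) + z (.inr 2)) / c) • y w + ((z (.inr 2) - z (.inr 1)) / c) • y (y w))
      map_add' := fun x z => by simp only [Pi.add_apply]; module
      map_smul' := fun r x => by simp only [Pi.smul_apply, smul_eq_mul, RingHom.id_apply]; module }
  have hL : ∀ z, L z = (z (.inl 0) + z (.inl 1) + z (.inl 2)) • v +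
          ((z (.inl 1) + z (.inl 2)) / c) • y v + ((z (.inl 2) - z (.inl 1)) / c) • y (y v) +
        ((z (.inr 0) + z (.inr 1) + z (.inr 2)) • w +
          ((z (.inr 1) + z (.inr 2)) / c) • y w + ((z (.inr 2) - z (.inr 1)) / c) • y (y w)) :=
    fun z => rfl
  have hiso : ∀ x z, B6 F (L x) (L z) = B6 F x z := by
    intro x z
    have s1 : ∀ u, B6 F u (y u) = 0 := fun u => by rw [← hy, hself]
    have s2 : ∀ u, B6 F u (y (y u)) = 0 := fun u => by rw [← hy, ← hy, hself2]
    have t11 : B6 F (y v) (y w) = 0 := by rw [← hy, g2]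
    have t01 : B6 F v (y w) = c := by rw [← hy, g1]
    have t02 : B6 F v (y (y w)) = 0 := by rw [← hy, ← hy, g2]
    have t12 : B6 F (y v) (y (y w)) = 0 := by
      rw [← hy, ← hy, hcube, map_add, map_smul, LinearMap.add_apply, LinearMap.smul_apply, g1, g0]
      simp
    have t21 : B6 F (y (y v)) (y w) = 0 := by
      rw [← hy, hcube, map_add, map_smul, LinearMap.add_apply, LinearMap.smul_apply, g1, g0]
      simp
    have t22 : B6 F (y (y v)) (y (y w)) = c * c := by
      rw [← hy, ← hy, hcube]
      simp only [map_add, map_smul, LinearMap.add_apply, LinearMap.smul_apply, g2, g1]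
      simp
    have u00 : B6 F w v = 1 := by rw [B6_swap, g0, neg_neg]
    have u10 : B6 F (y w) v = -c := by rw [B6_swap, t01]
    have u20 : B6 F (y (y w)) v = 0 := by rw [B6_swap, t02, neg_zero]
    have u01 : B6 F w (y v) = -c := by rw [B6_swap, g1]
    have u11 : B6 F (y w) (y v) = 0 := by rw [B6_swap, t11, neg_zero]
    have u21 : B6 F (y (y w)) (y v) = 0 := by rw [B6_swap, t12, neg_zero]
    have u02 : B6 F w (y (y v)) = 0 := by rw [B6_swap, g2, neg_zero]
    have u12 : B6 F (y w) (y (y v)) = 0 := by rw [B6_swap, t21, neg_zero]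
    have u22 : B6 F (y (y w)) (y (y v)) = -(c * c) := by rw [B6_swap, t22]
    have p12 : ∀ u, B6 F (y u) (y (y u)) = 0 := fun u => s1 (y u)
    have p21 : ∀ u, B6 F (y (y u)) (y u) = 0 := fun u => hself (y u)
    rw [hL, hL, B6_apply x z]
    simp only [map_add, map_smul, LinearMap.add_apply, LinearMap.smul_apply, smul_eq_mul, B6_self,
      s1, s2, hself, hself2, p12, p21, g0, g1, g2, t11, t01, t02, t12, t21, t22, u00, u10, u20,
      u01, u11, u21, u02, u12, u22]
    field_simp
    linear_combination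
      (c ^ 2 * (x (.inl 1) * z (.inr 1) + x (.inl 2) * z (.inr 2) - x (.inr 1) * z (.inl 1) -
        x (.inr 2) * z (.inl 2))) * h3
  have hLX : ∀ z, L (X6 c z) = y (L z) := by
    intro z
    rw [hL, hL]
    simp only [map_add, map_smul, hcube, X6, LinearMap.coe_mk, AddHom.coe_mk, Sum.elim_inl,
      Sum.elim_inr, Jop_apply, dvec, Matrix.cons_val_zero, Matrix.cons_val_one, Matrix.cons_val]
    match_scalars <;> field_simp
    · linear_combination (-c * (z (.inl 0) + z (.inl 1) + z (.inl 2))) * h3
    · linear_combination (-c * (z (.inl 0) + z (.inl 1) + z (.inl 2))) * h3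
    · ring
    · linear_combination (-c * (z (.inr 0) + z (.inr 1) + z (.inr 2))) * h3
    · linear_combination (-c * (z (.inr 0) + z (.inr 1) + z (.inr 2))) * h3
    · ring
  let Le := LinearEquiv.ofInjectiveEndo L (injective_of_isometry L hiso)
  refine ⟨L, (Le.symm : V6 F →ₗ[F] V6 F) ∘ₗ (T * L), 0, AddSubgroup.zero_mem _, hiso, fun x => ?_,
    fun x => ?_⟩
  · rw [LinearMap.comp_apply, LinearEquiv.coe_coe, Module.End.mul_apply,
      show L (Le.symm (T (L x))) = T (L x) from Le.apply_symm_apply _]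
  · rw [zero_smul, add_zero]
    apply injective_of_isometry L hiso
    rw [LinearMap.comp_apply, LinearMap.comp_apply, LinearEquiv.coe_coe, Module.End.mul_apply,
      Module.End.mul_apply, show L (Le.symm (T (L (X6 c x)))) = T (L (X6 c x)) from
        Le.apply_symm_apply _, hLX, hLX, hyT,
      show L (Le.symm (T (L x))) = T (L x) from Le.apply_symm_apply _]

/-- No self-adjoint operator in dimension six has an irreducible quadratic as minimal polynomial. -/
theorem no_quadratic (h2 : (2 : F) ≠ 0) (h : Module.End F (V6 F))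
    (hh : ∀ a b, B6 F (h a) b = B6 F a (h b)) (a0 a1 : F)
    (hnr : ∀ x : F, x ^ 2 + a1 * x + a0 ≠ 0)
    (hq : ∀ v, h (h v) + a1 • h v + a0 • v = 0) : False := by
  have heig : ∀ v, v ≠ 0 → ∀ r : F, h v ≠ r • v := by
    intro v hv r hr
    have := hq v
    rw [hr, map_smul, hr, smul_smul, smul_smul, ← add_smul, ← add_smul, smul_eq_zero] at this
    exact hnr r (by linear_combination this.resolve_right hv)
  have hself : ∀ u, B6 F (h u) u = 0 := selfAdj_self h2 hh
  set v : V6 F := Pi.single (Sum.inl 0) 1 with hv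
  obtain ⟨w, hw⟩ := Symp.exists_bil_eq_one (x := v) (by simp [hv])
  change B6 F v w = 1 at hw
  set b1 := B6 F (h v) w with hb1
  have hhv : B6 F (h v) (h w) = -a1 * b1 - a0 := by
    rw [← hh, show h (h v) = -(a1 • h v) - a0 • v by
      rw [← sub_eq_zero]; refine Eq.trans ?_ (hq v); abel]
    simp only [map_sub, map_neg, map_smul, LinearMap.sub_apply, LinearMap.neg_apply,
      LinearMap.smul_apply, smul_eq_mul, hw, ← hb1]
    ring
  have hvhw : B6 F v (h w) = b1 := by rw [← hh]
  let lam : (Fin 4 → F) →ₗ[F] V6 F :=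
    Fintype.linearCombination F ![v, h v, w, h w]
  have hlam : ∀ k, lam k = k 0 • v + k 1 • h v + k 2 • w + k 3 • h w := fun k => by
    simp [lam, Fintype.linearCombination_apply, Fin.sum_univ_four]
  have hnd : ∀ k, (∀ j, B6 F (lam k) (lam j) = 0) → k = 0 := by
    intro k hk
    have e1 := hk (Pi.single 2 1)
    have e2 := hk (Pi.single 3 1)
    have e3 := hk (Pi.single 0 1)
    have e4 := hk (Pi.single 1 1)
    have s : ∀ u, B6 F u (h u) = 0 := fun u => by rw [← hh, hself]
    have w1 : B6 F w v = -1 := by rw [B6_swap, hw]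
    have w2 : B6 F (h w) v = -b1 := by rw [B6_swap, hvhw]
    have w3 : B6 F w (h v) = -b1 := by rw [B6_swap]
    have w4 : B6 F (h w) (h v) = -(-a1 * b1 - a0) := by rw [B6_swap, hhv]
    simp [hlam, Pi.single_apply, B6_self, hself, s, hw, hvhw, hhv, w1, w2, w3, w4, ← hb1]
      at e1 e2 e3 e4
    have hd := hnr b1
    have k1 : k 1 = 0 := (mul_eq_zero.1 (show k 1 * (b1 ^ 2 + a1 * b1 + a0) = 0 by
      linear_combination b1 * e1 - e2)).resolve_right hd
    have k3 : k 3 = 0 := (mul_eq_zero.1 (show k 3 * (b1 ^ 2 + a1 * b1 + a0) = 0 by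
      linear_combination -b1 * e3 + e4)).resolve_right hd
    ext j
    fin_cases j
    · show k 0 = 0
      linear_combination e1 - b1 * k1
    · exact k1
    · show k 2 = 0
      linear_combination -e3 - b1 * k3
    · exact k3
  set W := LinearMap.range lam with hWdef
  have hWinv : ∀ x ∈ W, h x ∈ W := by
    rintro _ ⟨k, rfl⟩
    refine ⟨![-(a0 * k 1), k 0 - a1 * k 1, -(a0 * k 3), k 2 - a1 * k 3], ?_⟩
    rw [hlam, hlam]
    simp only [map_add, map_smul, Matrix.cons_val_zero, Matrix.cons_val_one, Matrix.cons_val]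
    have e : ∀ u, h (h u) = -(a1 • h u) - a0 • u := fun u => by
      rw [← sub_eq_zero]; refine Eq.trans ?_ (hq u); abel
    rw [e, e]
    module
  have hWd : finrank F W = 4 := by
    rw [hWdef, LinearMap.finrank_range_of_inj, finrank_fin_fun]
    exact (injective_iff_map_eq_zero _).2 fun k hk => hnd k fun j => by rw [hk]; simp
  set U := (B6 F).orthogonal W with hU
  have hUd : finrank F U = 2 := by rw [hU, finrank_orth, hWd]
  have hWnd : ∀ x ∈ W, (∀ z ∈ W, B6 F x z = 0) → x = 0 := by
    rintro _ ⟨k, rfl⟩ hk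
    rw [hnd k fun j => hk _ ⟨j, rfl⟩, map_zero]
  have hc := LinearMap.BilinForm.isCompl_orthogonal_of_restrict_nondegenerate
    (B := B6 F) (W := W) sympBil_isAlt.isRefl
    ⟨fun x hx => Subtype.ext (hWnd x.1 x.2 fun y hy => hx ⟨y, hy⟩),
      fun x hx => Subtype.ext (hWnd x.1 x.2 fun y hy => by
        rw [B6_swap, show B6 F y x.1 = 0 from hx ⟨y, hy⟩, neg_zero])⟩
  obtain ⟨u, hu, hu0⟩ := Submodule.exists_mem_ne_zero_of_ne_bot (p := U) (fun e => by
    rw [e, finrank_bot] at hUd; omega)
  have hhu : h u ∈ U := fun z hz => by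
    show B6 F z (h u) = 0
    rw [← hh]
    exact hu _ (hWinv z hz)
  have hli : LinearIndependent F ![u, h u] :=
    (LinearIndependent.pair_iff' hu0).2 fun r hr => heig u hu0 r hr.symm
  have hspan : Submodule.span F {u, h u} = U := by
    have h3' := finrank_span_eq_card hli
    rw [Matrix.range_cons_cons_empty, Fintype.card_fin] at h3'
    exact Submodule.eq_of_le_of_finrank_eq (Submodule.span_le.2 (Set.insert_subset hu
      (Set.singleton_subset_iff.2 hhu))) (h3'.trans hUd.symm)
  refine hu0 (sympBil_nondegenerate.1 u fun z => ?_)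
  obtain ⟨k, hk, y, hy, rfl⟩ := Submodule.mem_sup.1 (hc.sup_eq_top ▸ Submodule.mem_top (x := z))
  rw [← hU, ← hspan] at hy
  obtain ⟨r, s, rfl⟩ := Submodule.mem_span_pair.1 hy
  show B6 F u (k + (r • u + s • h u)) = 0
  rw [map_add, map_add, map_smul, map_smul, B6_self, show B6 F u k = 0 by
    rw [B6_swap, show B6 F k u = 0 from hu k hk, neg_zero],
    show B6 F u (h u) = 0 by rw [← hh, hself]]
  simp

/-- Every isometry has an invariant plane or a shift model. -/
theorem plane_or_model [Finite F] (h3 : (3 : F) = 0) {c : F} (hc : ∀ x : F, x ^ 3 - x ≠ c)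
    (T S : Module.End F (V6 F)) (hTS : T * S = 1) (hST : S * T = 1)
    (hadj : ∀ a b, B6 F (T a) b = B6 F a (S b)) : HasPlane T ∨ HasShiftModel c T := by
  have h2 := two_ne_zero_of_three h3
  set h := T + S with hh
  have hadj' : ∀ a b, B6 F (S a) b = B6 F a (T b) := fun a b => by
    rw [B6_swap, ← hadj, B6_swap, neg_neg]
  have hTT : ∀ a b, B6 F (T a) (T b) = B6 F a b := fun a b => by
    rw [hadj, ← Module.End.mul_apply, hST, Module.End.one_apply]
  have hhadj : ∀ a b, B6 F (h a) b = B6 F a (h b) := fun a b => by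
    simp only [hh, LinearMap.add_apply, map_add, hadj, hadj']
    ring
  have hcomm : Commute T h := (Commute.refl T).add_right (hTS.trans hST.symm)
  have hcommP : ∀ P : F[X], ∀ x, T (aeval h P x) = aeval h P (T x) := fun P x => by
    have : Commute T (aeval h P) := Algebra.commute_of_mem_adjoin_singleton_of_commute
      (aeval_mem_adjoin_singleton F h) hcomm
    exact LinearMap.congr_fun this.eq x
  set μ := minpoly F h with hμ
  have hμ0 : μ ≠ 0 := minpoly.ne_zero (Algebra.IsIntegral.isIntegral h)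
  obtain ⟨p, hp, hpμ⟩ := WfDvdMonoid.exists_irreducible_factor (minpoly.not_isUnit F h) hμ0
  obtain ⟨e, b, hpb, heb⟩ := WfDvdMonoid.max_power_factor hμ0 hp
  have he : e ≠ 0 := by
    rintro rfl
    rw [pow_zero, one_mul] at heb
    exact hpb (heb ▸ hpμ)
  by_cases hb : IsUnit b
  swap
  · -- more than one primary component
    left
    have hcop : IsCoprime (p ^ e) b := (hp.coprime_iff_not_dvd.2 hpb).pow_left
    obtain ⟨u, w, huw⟩ := hcop
    have hpe0 : p ^ e ≠ 0 := pow_ne_zero _ hp.ne_zero
    have hb0 : b ≠ 0 := fun h0 => hμ0 (by rw [heb, h0, mul_zero])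
    have hsmall : ∀ r s : F[X], μ = r * s → r ≠ 0 → 0 < s.natDegree → aeval h r ≠ 0 := by
      intro r s hrs hr0 hs h0
      have hs0 : s ≠ 0 := fun e0 => by simp [e0] at hs
      have := natDegree_le_of_dvd (minpoly.dvd F h h0) hr0
      rw [← hμ, hrs, natDegree_mul hr0 hs0] at this
      omega
    have hposb : 0 < b.natDegree := Nat.pos_of_ne_zero fun h0 => hb (by
      obtain ⟨k, rfl⟩ := natDegree_eq_zero.1 h0
      exact isUnit_C.2 (IsUnit.mk0 k fun hk => hb0 (by rw [hk, map_zero])))
    have hpospe : 0 < (p ^ e).natDegree := by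
      rw [natDegree_pow]
      exact Nat.mul_pos (Nat.pos_of_ne_zero he) hp.natDegree_pos
    set W := LinearMap.ker (aeval h (p ^ e)) with hW
    set W' := LinearMap.ker (aeval h b) with hW'
    have horth : ∀ x ∈ W, ∀ y ∈ W', B6 F x y = 0 := by
      intro x hx y hy
      have hx1 : x = aeval h (w * b) x := by
        conv_lhs => rw [← Module.End.one_apply (R := F) x, ← map_one (aeval (R := F) h), ← huw,
          map_add, map_mul, LinearMap.add_apply, Module.End.mul_apply, LinearMap.mem_ker.1 hx,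
          map_zero, zero_add]
      rw [hx1, selfAdj_aeval hhadj, map_mul, Module.End.mul_apply, LinearMap.mem_ker.1 hy,
        map_zero, map_zero]
    have hμh : aeval h (p ^ e) * aeval h b = 0 := by rw [← map_mul, ← heb, minpoly.aeval]
    have hμh' : aeval h b * aeval h (p ^ e) = 0 := by
      rw [← map_mul, mul_comm, ← heb, minpoly.aeval]
    have hnd : ∀ x ∈ W, (∀ y ∈ W, B6 F x y = 0) → x = 0 := by
      intro x hx hall
      refine sympBil_nondegenerate.1 x fun z => ?_
      have hz : z = aeval h (u * p ^ e) z + aeval h (w * b) z := by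
        rw [← LinearMap.add_apply, ← map_add, huw, map_one]; rfl
      show B6 F x z = 0
      rw [hz, map_add, horth x hx _ (LinearMap.mem_ker.2 (by
        rw [← Module.End.mul_apply, ← map_mul, show b * (u * p ^ e) = u * (p ^ e * b) by ring,
          map_mul, map_mul, hμh, mul_zero, LinearMap.zero_apply])), hall _ (LinearMap.mem_ker.2 (by
        rw [← Module.End.mul_apply, ← map_mul, show p ^ e * (w * b) = w * (p ^ e * b) by ring,
          map_mul, map_mul, hμh, mul_zero, LinearMap.zero_apply])), add_zero]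
    have hd1 : 0 < finrank F W := Nat.pos_of_ne_zero fun h0 => by
      rw [Submodule.finrank_eq_zero] at h0
      refine hsmall b (p ^ e) (heb.trans (mul_comm _ _)) hb0 hpospe (LinearMap.ext fun x => ?_)
      have hm : aeval h b x ∈ W :=
        LinearMap.mem_ker.2 (by rw [← Module.End.mul_apply, hμh]; rfl)
      rwa [h0, Submodule.mem_bot] at hm
    have hd2 : finrank F W < 6 := by
      refine lt_of_le_of_ne ((Submodule.finrank_le W).trans finrank_V6.le) fun h0 => ?_
      have htop := Submodule.eq_top_of_finrank_eq (h0.trans finrank_V6.symm)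
      exact hsmall (p ^ e) b heb hpe0 hposb (LinearMap.ker_eq_top.1 htop)
    obtain ⟨k, hk⟩ := even_finrank_of_nondegenerate W hnd
    exact hasPlane_of_invariant hTT W hnd (fun x hx => LinearMap.mem_ker.2 (by
      rw [← hcommP, LinearMap.mem_ker.1 hx, map_zero])) (by omega)
  -- a single primary component
  have hpe : aeval h (p ^ e) = 0 := by
    obtain ⟨b', hb'⟩ := hb.exists_right_inv
    have : p ^ e = μ * b' := by rw [heb, mul_assoc, hb', mul_one]
    rw [this, map_mul, minpoly.aeval, zero_mul]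
  have hq : ∀ q : F[X], Irreducible q → q ∣ μ → q.natDegree = p.natDegree := fun q hq hd => by
    rw [heb] at hd
    rcases (hq.prime.dvd_or_dvd hd) with h1 | h1
    · exact natDegree_eq_of_degree_eq (degree_eq_degree_of_associated
        (hq.associated_of_dvd hp (hq.prime.dvd_of_dvd_pow h1)))
    · exact absurd (isUnit_of_dvd_unit h1 hb) hq.not_isUnit
  -- the cyclic bound
  have hed : e * p.natDegree ≤ 3 := by
    obtain ⟨v, hv⟩ : ∃ v, aeval h (p ^ (e - 1)) v ≠ 0 := by
      by_contra! hall
      have hd := minpoly.dvd F h (p := p ^ (e - 1)) (LinearMap.ext hall)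
      rw [← hμ, heb] at hd
      have := natDegree_le_of_dvd ((dvd_mul_right (p ^ e) b).trans hd) (pow_ne_zero _ hp.ne_zero)
      rw [natDegree_pow, natDegree_pow] at this
      have h1 := Nat.mul_lt_mul_of_pos_right (show e - 1 < e by omega) hp.natDegree_pos
      omega
    let ev : Polynomial.degreeLT F (e * p.natDegree) →ₗ[F] V6 F :=
      { toFun := fun P => aeval h P.1 v
        map_add' := fun P Q => by
          show aeval h (P.1 + Q.1) v = _
          rw [map_add, LinearMap.add_apply]
        map_smul' := fun r P => by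
          show aeval h (r • P.1) v = _
          rw [map_smul, LinearMap.smul_apply, RingHom.id_apply] }
    have hinj : Function.Injective ev := by
      refine (injective_iff_map_eq_zero _).2 fun P hP => ?_
      by_contra hP0
      have hP0' : P.1 ≠ 0 := fun h0 => hP0 (Subtype.ext h0)
      obtain ⟨j, P', hpP', hjP⟩ := WfDvdMonoid.max_power_factor hP0' hp
      have hdeg : P.1.natDegree < e * p.natDegree :=
        (natDegree_lt_iff_degree_lt hP0').2 (Polynomial.mem_degreeLT.1 P.2)
      have hP'0 : P' ≠ 0 := fun h0 => hP0' (by rw [hjP, h0, mul_zero])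
      rw [hjP, natDegree_mul (pow_ne_zero _ hp.ne_zero) hP'0, natDegree_pow] at hdeg
      have hje : j < e := Nat.lt_of_mul_lt_mul_right (lt_of_le_of_lt (Nat.le_add_right _ _) hdeg)
      obtain ⟨r, s, hrs⟩ := ((hp.coprime_iff_not_dvd.2 hpP').pow_left (m := e))
      refine hv ?_
      have hcalc : p ^ (e - 1) = p ^ (e - 1) * r * p ^ e + p ^ (e - 1 - j) * s * P.1 := by
        obtain ⟨i, hi⟩ : ∃ i, e - 1 = j + i := ⟨e - 1 - j, by omega⟩
        rw [hjP, hi, show j + i - j = i by omega, pow_add]
        linear_combination -(p ^ j * p ^ i) * hrs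
      rw [hcalc, map_add, map_mul _ (p ^ (e - 1) * r), hpe, mul_zero, zero_add,
        map_mul _ (p ^ (e - 1 - j) * s), Module.End.mul_apply]
      show aeval h _ (ev P) = 0
      rw [hP, map_zero]
    have hb' := finrank_le_three_of_isotropic (LinearMap.range ev) (by
      rintro _ ⟨P, rfl⟩ _ ⟨Q, rfl⟩
      exact selfAdj_cyclic h2 hhadj P.1 Q.1 v)
    rwa [LinearMap.finrank_range_of_inj hinj, (Polynomial.degreeLTEquiv F _).finrank_eq,
      finrank_fin_fun] at hb'
  have hdpos := hp.natDegree_pos
  have hdle : p.natDegree ≤ 3 :=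
    (Nat.le_mul_of_pos_left _ (Nat.pos_of_ne_zero he)).trans hed
  by_cases hd3 : p.natDegree = 3
  · right
    obtain ⟨y, hy, hy3⟩ := exists_root_mem_adjoin (asPoly_irreducible hc) h fun q hq' hd => by
      rw [asPoly_natDegree, hq q hq' hd, hd3]
    obtain ⟨r, rfl⟩ : ∃ r, aeval h r = y := by
      rw [Algebra.adjoin_singleton_eq_range_aeval] at hy
      exact hy
    exact hasShiftModel_of_root h3 hc T _ (hcommP r) (selfAdj_aeval hhadj r) hy3
  by_cases hd2 : p.natDegree = 2
  · exfalso
    rw [hd2] at hed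
    obtain rfl : e = 1 := by omega
    rw [pow_one] at hpe
    obtain ⟨a2, a1, a0, ha2, hpeq⟩ : ∃ a2 a1 a0 : F, a2 ≠ 0 ∧
        p = C a2 * Polynomial.X ^ 2 + C a1 * Polynomial.X + C a0 := by
      refine ⟨p.coeff 2, p.coeff 1, p.coeff 0, ?_, eq_quadratic_of_degree_le_two ?_⟩
      · rw [← hd2]; exact fun h0 => hp.ne_zero (leadingCoeff_eq_zero.1 h0)
      · exact le_of_eq ((degree_eq_natDegree hp.ne_zero).trans (by rw [hd2]; rfl))
    refine no_quadratic h2 h hhadj (a0 / a2) (a1 / a2) (fun x hx => ?_) fun v => ?_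
    · refine hp.not_isRoot_of_natDegree_ne_one (by omega) (x := x) ?_
      rw [hpeq]
      simp only [IsRoot, eval_add, eval_mul, eval_C, eval_pow, eval_X]
      field_simp at hx
      linear_combination hx
    · have h0 := LinearMap.congr_fun hpe v
      rw [hpeq] at h0
      simp only [map_add, map_mul, aeval_C, map_pow, aeval_X, LinearMap.add_apply,
        Module.End.mul_apply, Module.algebraMap_end_apply, pow_two, LinearMap.zero_apply] at h0
      have := congrArg (a2⁻¹ • ·) h0
      simp only [smul_add, smul_smul, smul_zero, inv_mul_cancel₀ ha2, one_smul] at this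
      rw [← this, div_eq_inv_mul, div_eq_inv_mul]
  -- linear
  have hd1 : p.natDegree = 1 := by omega
  rw [hd1, mul_one] at hed
  obtain ⟨lam, hlam⟩ := exists_root_of_degree_eq_one (p := p)
    ((degree_eq_iff_natDegree_eq_of_pos one_pos).2 hd1)
  have hD : (T + S - lam • 1) ^ 3 = 0 := by
    obtain ⟨r, hr⟩ := dvd_iff_isRoot.2 hlam
    have hr0 : r ≠ 0 := fun h0 => hp.ne_zero (by rw [hr, h0, mul_zero])
    have hrc : r.natDegree = 0 := by
      rw [hr, natDegree_mul (X_sub_C_ne_zero _) hr0, natDegree_X_sub_C] at hd1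
      omega
    obtain ⟨k, rfl⟩ := natDegree_eq_zero.1 hrc
    have hk : k ≠ 0 := fun h0 => hr0 (by rw [h0, map_zero])
    rw [hr, mul_pow, map_mul, map_pow, map_pow, map_sub, aeval_X, aeval_C, aeval_C,
      Algebra.algebraMap_eq_smul_one, Algebra.algebraMap_eq_smul_one, _root_.smul_pow, one_pow,
      mul_smul_comm, mul_one, smul_eq_zero] at hpe
    exact pow_eq_zero_of_le hed (hpe.resolve_left (pow_ne_zero _ hk))
  by_cases hl : lam ^ 2 = 1
  swap
  · exact semisimple_case h3 c hl T S hTS hST hadj hD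
  -- `-lam • T` is unipotent
  set u := (-lam) • T with hu
  have hll : lam * lam = 1 := by rw [← sq]; exact hl
  have hTu : T = (-lam) • u := by rw [hu, smul_smul, neg_mul_neg, hll, one_smul]
  have huu : ∀ a b, B6 F (u a) (u b) = B6 F a b := fun a b => by
    simp only [hu, LinearMap.smul_apply, map_smul, smul_eq_mul, hTT]
    linear_combination B6 F a b * hll
  have hu6 : (u - 1) ^ 6 = 0 := by
    have e : (u - 1) ^ 2 = (-lam) • (u * (T + S - lam • 1)) := by
      simp only [hu, pow_two, sub_mul, mul_sub, mul_add, smul_mul_assoc, mul_smul_comm, one_mul,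
        mul_one, hTS, smul_sub, smul_add, smul_smul, neg_mul_neg, mul_neg, neg_mul, neg_neg, hll]
      rw [← sub_eq_zero]
      have e3 : ((3 : F) * lam) • T = 0 := by rw [h3, zero_mul, zero_smul]
      refine Eq.trans ?_ e3
      module
    have hc' : Commute u (T + S - lam • 1) :=
      (hcomm.sub_right ((Commute.one_right T).smul_right lam)).smul_left (-lam)
    rw [show 6 = 2 * 3 from rfl, pow_mul, e, _root_.smul_pow, hc'.mul_pow, hD, mul_zero, smul_zero]
  rw [hTu]
  rcases unipotent_case h3 c u huu hu6 with h' | h'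
  · exact Or.inl (hasPlane_smul _ h')
  · exact Or.inr (hasShiftModel_smul _ h')

theorem exists_sp_plane {v w : V6 F} (hvw : B6 F v w ≠ 0) :
    ∃ s : Matrix.symplecticGroup (Fin 3) F,
      spRho 3 F s (Pi.single (Sum.inl 0) 1) = v ∧
      spRho 3 F s (Pi.single (Sum.inr 0) 1) = (-(B6 F v w)⁻¹) • w := by
  set e : V6 F := Pi.single (Sum.inl 0) 1 with he
  set f : V6 F := Pi.single (Sum.inr 0) 1 with hf
  set w' := (-(B6 F v w)⁻¹) • w with hw'
  have hef : B6 F e f = -1 := by rw [B6_apply]; simp [he, hf, Pi.single_apply]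
  have hvw' : B6 F v w' = -1 := by
    rw [hw', map_smul, smul_eq_mul, neg_mul, inv_mul_cancel₀ hvw]
  set X := Submodule.span F {e, f}
  set Y := Submodule.span F {v, w'}
  let Φ : V6 F →ₗ[F] V6 F :=
    (LinearMap.proj (Sum.inl (0 : Fin 3))).smulRight v +
      (LinearMap.proj (Sum.inr (0 : Fin 3))).smulRight w'
  have hΦ : ∀ z, Φ z = z (.inl 0) • v + z (.inr 0) • w' := fun z => rfl
  have hmap : ∀ x ∈ X, Φ x ∈ Y := fun x _ =>
    Submodule.mem_span_pair.2 ⟨_, _, (hΦ x).symm⟩
  have hiso : ∀ x ∈ X, ∀ x' ∈ X, B6 F (Φ x) (Φ x') = B6 F x x' := by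
    intro x hx x' hx'
    obtain ⟨a, b, rfl⟩ := Submodule.mem_span_pair.1 hx
    obtain ⟨a', b', rfl⟩ := Submodule.mem_span_pair.1 hx'
    have hfe : B6 F f e = 1 := by rw [B6_swap, hef, neg_neg]
    have hwv : B6 F w' v = 1 := by rw [B6_swap, hvw', neg_neg]
    simp only [hΦ, map_add, map_smul, LinearMap.add_apply, LinearMap.smul_apply, smul_eq_mul,
      B6_self, hvw', hwv, hef, hfe]
    simp [he, hf, Pi.single_apply]
  let φ0 : X →ₗ[F] Y := (Φ.domRestrict X).codRestrict Y fun x => hmap x.1 x.2
  have hbij : Function.Bijective φ0 := by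
    have hinj : Function.Injective φ0 := by
      refine (injective_iff_map_eq_zero _).2 fun x hx => ?_
      obtain ⟨a, b, hab⟩ := Submodule.mem_span_pair.1 x.2
      have h0 : Φ x.1 = 0 := congrArg Subtype.val hx
      rw [← hab, hΦ] at h0
      simp [he, hf, Pi.single_apply] at h0
      have h1 := congrArg (fun z => B6 F z w') h0
      have h2 := congrArg (fun z => B6 F v z) h0
      simp [B6_self, hvw'] at h1 h2
      apply Subtype.ext
      rw [← hab, h1, h2]
      simp
    refine ⟨hinj, fun y => ?_⟩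
    obtain ⟨a, b, hab⟩ := Submodule.mem_span_pair.1 y.2
    refine ⟨⟨a • e + b • f, Submodule.mem_span_pair.2 ⟨a, b, rfl⟩⟩, Subtype.ext ?_⟩
    show Φ (a • e + b • f) = y.1
    rw [hΦ, ← hab]
    simp [he, hf, Pi.single_apply]
  obtain ⟨g, hg, hgx⟩ := witt_extension_alt (B := B6 F) sympBil_nondegenerate sympBil_isAlt X Y
    (LinearEquiv.ofBijective φ0 hbij) fun x x' => hiso x.1 x.2 x'.1 x'.2
  obtain ⟨s, hs⟩ := exists_sp (g : V6 F →ₗ[F] V6 F) hg
  refine ⟨s, ?_, ?_⟩
  · rw [hs, LinearEquiv.coe_coe]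
    refine (hgx ⟨e, Submodule.subset_span (Set.mem_insert _ _)⟩).trans ?_
    show Φ e = v
    simp [hΦ, he, Pi.single_apply]
  · rw [hs, LinearEquiv.coe_coe]
    refine (hgx ⟨f, Submodule.subset_span (Set.mem_insert_of_mem _ rfl)⟩).trans ?_
    show Φ f = w'
    simp [hΦ, hf, Pi.single_apply]

theorem psp_six_cover [Fintype F] {k : ℕ} (hk : Fintype.card F = 3 ^ k) :
    HasTwoCover (Cfsg.PSp 3 F) := by
  have h3 := three_eq_zero hk
  obtain ⟨c, hc⟩ : ∃ c : F, ∀ x : F, x ^ 3 - x ≠ c := by
    by_contra! hall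
    have hinj := Finite.injective_iff_surjective.2 (fun c => hall c)
    have : (1 : F) = 0 := @hinj 1 0 (by ring)
    exact one_ne_zero this
  have hc0 : c ≠ 0 := fun h => hc 0 (by rw [h]; ring)
  set e : V6 F := Pi.single (Sum.inl 0) 1 with he
  set f : V6 F := Pi.single (Sum.inr 0) 1 with hf
  set W0 := Submodule.span F {e, f} with hW0
  refine hasTwoCover_quot (stabSub (spRho 3 F) W0)
    (shiftStab (spRho 3 F) (X6 c) (AddSubgroup.zmultiples 1))
    (fun z hz => by
      obtain ⟨a, -, ha⟩ := sp_center_scalar z hz; exact scalar_mem_stabSub ha _)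
    (fun z hz => by
      obtain ⟨a, -, ha⟩ := sp_center_scalar z hz; exact scalar_mem_shiftStab ha _ _)
    ?_ ?_ fun g => ?_
  · obtain ⟨s, hs, -⟩ := exists_sp_plane (v := Pi.single (Sum.inl (1 : Fin 3)) (1 : F))
      (w := Pi.single (Sum.inr 1) 1) (by rw [B6_apply]; simp [Pi.single_apply])
    refine ne_top_of_not_mem (g := s) fun h => ?_
    have h1 := (h e).1 (Submodule.subset_span (Set.mem_insert _ _))
    rw [hs] at h1
    obtain ⟨a, b, hab⟩ := Submodule.mem_span_pair.1 h1
    simpa [he, hf, Pi.single_apply] using congrFun hab (Sum.inl 1)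
  · refine ne_top_of_not_mem (g := Symp.tau (Pi.single (Sum.inl (0 : Fin 3)) (1 : F)) 1) ?_
    rintro ⟨i, -, h⟩
    have h1 := h (Pi.single (Sum.inr 1) 1)
    rw [spRho_apply, Symp.app_tau, spRho_apply, Symp.app_tau] at h1
    have e1 := congrFun h1 (Sum.inl 0)
    simp [B6_apply, X6, Jop_apply, Pi.single_apply, dvec] at e1
    exact hc0 e1
  · set T : Module.End F (V6 F) := (spRho 3 F g : V6 F →ₗ[F] V6 F) with hT
    set S : Module.End F (V6 F) := (spRho 3 F g⁻¹ : V6 F →ₗ[F] V6 F) with hS
    have hadj : ∀ a b, B6 F (T a) b = B6 F a (S b) := fun a b => by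
      show B6 F (spRho 3 F g a) b = B6 F a (spRho 3 F g⁻¹ b)
      conv_rhs => rw [← spRho_bil g, rho_apply_inv]
    rcases plane_or_model h3 hc T S (LinearMap.ext fun v => rho_apply_inv (spRho 3 F) g v)
      (LinearMap.ext fun v => rho_inv_apply (spRho 3 F) g v) hadj with
      ⟨v, w, hvw, hTv, hTw⟩ | ⟨L, M, i, hi, hL, hTL, hM⟩
    · obtain ⟨s, hsv, hsw⟩ := exists_sp_plane hvw
      refine ⟨s⁻¹, Or.inl (mem_stabSub fun x hx => ?_)⟩
      have hW : W0.map (spRho 3 F s).toLinearMap = Submodule.span F {v, w} := by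
        rw [hW0, Submodule.map_span, Set.image_pair, LinearEquiv.coe_coe, hsv, hsw]
        refine le_antisymm (Submodule.span_le.2 (Set.insert_subset
          (Submodule.subset_span (Set.mem_insert _ _)) (Set.singleton_subset_iff.2
          (Submodule.smul_mem _ _ (Submodule.subset_span (Set.mem_insert_of_mem _ rfl))))))
          (Submodule.span_le.2 (Set.insert_subset (Submodule.subset_span (Set.mem_insert _ _))
          (Set.singleton_subset_iff.2 (Submodule.mem_span_pair.2 ⟨0, -(B6 F v w), ?_⟩))))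
        rw [zero_smul, zero_add, smul_smul, neg_mul_neg, mul_inv_cancel₀ hvw, one_smul]
      have hinv : ∀ z ∈ Submodule.span F {v, w}, T z ∈ Submodule.span F {v, w} := by
        intro z hz
        obtain ⟨a, b, rfl⟩ := Submodule.mem_span_pair.1 hz
        rw [map_add, map_smul, map_smul]
        exact Submodule.add_mem _ (Submodule.smul_mem _ _ hTv) (Submodule.smul_mem _ _ hTw)
      have hsx : spRho 3 F s x ∈ Submodule.span F {v, w} := hW ▸ ⟨x, hx, rfl⟩
      obtain ⟨y, hy, hyx⟩ : T (spRho 3 F s x) ∈ W0.map (spRho 3 F s).toLinearMap :=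
        hW.symm ▸ hinv _ hsx
      rw [rho_mul, rho_mul, inv_inv, show spRho 3 F g (spRho 3 F s x) = spRho 3 F s y from
        hyx.symm, rho_inv_apply]
      exact hy
    · obtain ⟨s, hs⟩ := exists_sp L hL
      refine ⟨s⁻¹, Or.inr ⟨i, hi, fun x => ?_⟩⟩
      have key : ∀ y, spRho 3 F (s⁻¹ * g * s⁻¹⁻¹) y = M y := fun y => by
        rw [rho_mul, rho_mul, inv_inv, hs, show spRho 3 F g (L y) = L (M y) from hTL y, ← hs,
          rho_inv_apply]
      rw [key, key, hM]

end Cfsg.Agent.Cover5
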