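/-
Adjoints of polynomials in a unitary transformation, and the dual of an irreducible factor.
-/
import Cfsg.Agent.Cover5.Basic
import Cfsg.Agent.Forms.UnitaryStab
import Cfsg.Agent.Classical.USimple

set_option autoImplicit false
set_option linter.style.haveILetI false

namespace Cfsg.Agent.Cover5

open Module Polynomial Cfsg.Agent.Classical Cfsg.Agent.Forms

variable {F : Type} [Field F] {n q : ℕ}

/-- `SU_n` on column vectors. -/
noncomputable def uRho (n : ℕ) (F : Type) [Field F] (q : ℕ) :
    U.SUG n F q →* ((Fin n → F) ≃ₗ[F] (Fin n → F)) :=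
  (U.UG n F q).subtype.comp (U.SUG n F q).subtype

theorem uRho_herm (g : U.SUG n F q) (u v : Fin n → F) :
    U.herm q (uRho n F q g u) (uRho n F q g v) = U.herm q u v := U.UG_app g.1 u v

/-- An element of `SU_n` as an endomorphism. -/
noncomputable def uEnd (g : U.SUG n F q) : Module.End F (Fin n → F) := (uRho n F q g : (Fin n → F) →ₗ[F] _)

theorem uEnd_apply (g : U.SUG n F q) (v : Fin n → F) : uEnd g v = uRho n F q g v := rfl

theorem uEnd_mul_inv (g : U.SUG n F q) : uEnd g * uEnd g⁻¹ = 1 :=
  LinearMap.ext fun v => rho_apply_inv (uRho n F q) g v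

theorem uEnd_inv_mul (g : U.SUG n F q) : uEnd g⁻¹ * uEnd g = 1 :=
  LinearMap.ext fun v => rho_inv_apply (uRho n F q) g v

theorem aeval_reverse {K R : Type*} [CommSemiring K] [Semiring R] [Algebra K R] (T S : R)
    (hTS : T * S = 1) (f : K[X]) : aeval T f.reverse = aeval S f * T ^ f.natDegree ∨
      S * T ≠ 1 := by
  by_cases hST : S * T = 1
  swap
  · exact Or.inr hST
  left
  have hc : Commute S T := hST.trans hTS.symm
  rw [aeval_eq_sum_range' (Nat.lt_succ_of_le (reverse_natDegree_le f)), aeval_eq_sum_range,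
    ← Finset.sum_range_reflect, Finset.sum_mul]
  refine Finset.sum_congr rfl fun i hi => ?_
  have hi' : i ≤ f.natDegree := Nat.lt_succ_iff.1 (Finset.mem_range.1 hi)
  rw [coeff_reverse, smul_mul_assoc]
  congr 1
  · rw [revAt_le (by omega)]; congr 1; omega
  · obtain ⟨j, hj⟩ : ∃ j, f.natDegree = i + j := ⟨f.natDegree - i, by omega⟩
    rw [hj, show i + j + 1 - 1 - i = j by omega, pow_add, ← mul_assoc, ← hc.mul_pow, hST, one_pow,
      one_mul]

variable (hF : U.SqField F q)
include hF

theorem herm_aeval_adj (g : U.SUG n F q) (P : F[X]) (u w : Fin n → F) :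
    U.herm q (aeval (uEnd g) P u) w =
      U.herm q u (aeval (uEnd g⁻¹) (P.map (sqConj hF)) w) := by
  induction P using Polynomial.induction_on' generalizing u with
  | add P P' h h' =>
    rw [Polynomial.map_add, map_add, map_add, LinearMap.add_apply, LinearMap.add_apply,
      U.herm_add_left, hF.herm_add_right, h, h']
  | monomial k c =>
    rw [map_monomial, aeval_monomial, aeval_monomial, Module.End.mul_apply, Module.End.mul_apply,
      Module.algebraMap_end_apply, Module.algebraMap_end_apply, U.herm_smul_left,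
      U.herm_smul_right, sqConj_apply, hF.pow_pow]
    congr 1
    induction k generalizing u with
    | zero => rfl
    | succ k ih =>
      rw [pow_succ, pow_succ', Module.End.mul_apply, Module.End.mul_apply, ih, uEnd_apply,
        uEnd_apply]
      conv_lhs => rw [← uRho_herm g⁻¹, rho_inv_apply]

/-- The dual polynomial. -/
noncomputable def udual (p : F[X]) : F[X] := (p.map (sqConj hF)).reverse

theorem udual_natDegree_le (p : F[X]) : (udual hF p).natDegree ≤ p.natDegree :=
  (reverse_natDegree_le _).trans natDegree_map_le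

theorem herm_ker_udual (g : U.SUG n F q) {p : F[X]} {u : Fin n → F}
    (hu : aeval (uEnd g) p u = 0) (w : Fin n → F) :
    U.herm q u (aeval (uEnd g) (udual hF p) w) = 0 := by
  rw [udual, (aeval_reverse _ _ (uEnd_mul_inv g) _).resolve_right (not_not.2 (uEnd_inv_mul g)),
    Module.End.mul_apply, ← herm_aeval_adj hF, hu, U.herm_zero_left]

theorem aeval_udual_root {L : Type*} [Field L] [Algebra F L] {p : F[X]} {α : L} (hα : α ≠ 0)
    (h : aeval α (udual hF p) = 0) : aeval (α ^ q)⁻¹ p = 0 := by
  haveI : Finite F := hF.1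
  haveI := invertibleOfNonzero (inv_ne_zero hα)
  rw [aeval_def, udual, show α = ⅟(α⁻¹) by rw [invOf_eq_inv, inv_inv],
    eval₂_reverse_eq_zero_iff] at h
  obtain ⟨r, k, hr, hchar, hq⟩ := hF.exists_char
  haveI := Fact.mk hr
  haveI : CharP F r := hchar
  haveI : CharP L r := charP_of_injective_algebraMap (algebraMap F L).injective r
  obtain ⟨φ, hφ⟩ : ∃ φ : L →+* L, ∀ x, φ x = x ^ q :=
    ⟨iterateFrobenius L r k, fun x => by rw [iterateFrobenius_def, hq]⟩
  rw [eval₂_map] at h
  have h2 := congrArg φ h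
  rw [hom_eval₂, map_zero, hφ, inv_pow] at h2
  rw [aeval_def, ← h2]
  congr 1
  refine RingHom.ext fun c => ?_
  simp only [RingHom.comp_apply, sqConj_apply, hφ, ← map_pow, hF.pow_pow]

/-- A self-dual irreducible polynomial has odd degree. -/
theorem udual_root_odd {p : F[X]} (hp : Irreducible p) (h0 : p.eval 0 ≠ 0)
    (h : p ∣ udual hF p) : Odd p.natDegree := by
  haveI := Fact.mk hp
  haveI : Finite F := hF.1
  haveI := Fintype.ofFinite F
  haveI : FiniteDimensional F (AdjoinRoot p) := (AdjoinRoot.powerBasis hp.ne_zero).finite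
  haveI : Finite (AdjoinRoot p) := Module.finite_of_finite F
  set L := AdjoinRoot p
  set α : L := AdjoinRoot.root p with hαdef
  have hα : α ≠ 0 := by
    intro hz
    have h1 : aeval α p = 0 := by rw [hαdef, AdjoinRoot.aeval_eq, AdjoinRoot.mk_self]
    rw [hz, ← map_zero (algebraMap F L), aeval_algebraMap_apply_eq_algebraMap_eval] at h1
    exact h0 ((algebraMap F L).injective h1)
  have hβ : aeval (α ^ q)⁻¹ p = 0 := by
    refine aeval_udual_root hF hα ?_
    obtain ⟨s, hs⟩ := h
    rw [hs, map_mul, hαdef, AdjoinRoot.aeval_eq p, AdjoinRoot.mk_self, zero_mul]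
  obtain ⟨i, hi⟩ := (FiniteField.bijective_frobeniusAlgEquivOfAlgebraic_pow F L).2
    ((Algebra.IsAlgebraic.algEquivEquivAlgHom F L).symm (AdjoinRoot.liftAlgHom p (Algebra.ofId F L) _ hβ))
  set φ := FiniteField.frobeniusAlgEquivOfAlgebraic F L with hφ
  have hiα : (φ ^ i.1) α = (α ^ q)⁻¹ := by
    change φ ^ i.1 = _ at hi
    rw [hi]
    exact AdjoinRoot.liftAlgHom_root p (Algebra.ofId F L) _ hβ
  have h2 : (φ ^ (2 * i.1)) α = φ α := by
    rw [two_mul, pow_add, AlgEquiv.mul_apply, hiα, map_inv₀, map_pow, hiα, inv_pow, inv_inv,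
      ← pow_mul, hφ, FiniteField.coe_frobeniusAlgEquivOfAlgebraic]
    rw [show Fintype.card F = q * q by rw [← Nat.card_eq_fintype_card, hF.2, sq]]
  have h3 : φ ^ (2 * i.1) = φ ^ 1 := by
    rw [pow_one]
    exact AlgEquiv.coe_toAlgHom_injective (AdjoinRoot.algHom_ext h2)
  rw [pow_eq_pow_iff_modEq, hφ, FiniteField.orderOf_frobeniusAlgEquivOfAlgebraic] at h3
  have hd : finrank F L = p.natDegree := by
    rw [(AdjoinRoot.powerBasis hp.ne_zero).finrank, AdjoinRoot.powerBasis_dim]
  by_contra hodd
  have h4 := Nat.ModEq.of_dvd (show 2 ∣ finrank F L from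
    hd.symm ▸ even_iff_two_dvd.1 (Nat.not_odd_iff_even.1 hodd)) h3
  simp [Nat.ModEq, Nat.mul_mod_right] at h4

end Cfsg.Agent.Cover5
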