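/-
Common tools for covering `PSU_n`: points, scaling and eigenvectors.
-/
import Cfsg.Agent.Cover5.UDual

set_option autoImplicit false
set_option linter.style.haveILetI false

namespace Cfsg.Agent.Cover5

open Module Polynomial Cfsg.Agent.Classical Cfsg.Agent.Forms

variable {F : Type} [Field F] {n q : ℕ}

theorem aeval_mem_invariant {V : Type*} [AddCommGroup V] [Module F V] {T : Module.End F V}
    {P : Submodule F V} (hP : ∀ x ∈ P, T x ∈ P) (Q : F[X]) {x : V} (hx : x ∈ P) :
    aeval T Q x ∈ P := by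
  induction Q using Polynomial.induction_on generalizing x with
  | C a => rw [aeval_C, Module.algebraMap_end_apply]; exact P.smul_mem a hx
  | add Q Q' h h' => rw [map_add, LinearMap.add_apply]; exact P.add_mem (h hx) (h' hx)
  | monomial k a ih =>
    rw [pow_succ, ← mul_assoc, map_mul, aeval_X, Module.End.mul_apply]
    exact ih (hP x hx)

theorem exists_triangular_step {V : Type*} [AddCommGroup V] [Module F V] {T : Module.End F V}
    {X' P : Submodule F V} (hP : ∀ x ∈ P, T x ∈ P) {Q : F[X]} (hQ0 : Q ≠ 0)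
    (hlin : ∀ p : F[X], Irreducible p → p ∣ Q → p.natDegree = 1)
    {w : V} (hw : w ∈ P) (hw' : w ∉ X') (hQ : aeval T Q w ∈ X') :
    ∃ u ∈ P, u ∉ X' ∧ ∃ μ : F, T u - μ • u ∈ X' := by
  induction Q using UniqueFactorizationMonoid.induction_on_prime generalizing w with
  | h₁ => exact absurd rfl hQ0
  | h₂ Q hu =>
    obtain ⟨c, hc, rfl⟩ := Polynomial.isUnit_iff.1 hu
    rw [aeval_C, Module.algebraMap_end_apply] at hQ
    refine absurd ?_ hw'
    simpa [smul_smul, hc.ne_zero] using X'.smul_mem c⁻¹ hQ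
  | h₃ Q p hQ' hp ih =>
    by_cases h : aeval T Q w ∈ X'
    · exact ih hQ' (fun s hs hd => hlin s hs (hd.mul_left p)) hw hw' h
    refine ⟨aeval T Q w, aeval_mem_invariant hP Q hw, h, ?_⟩
    obtain ⟨a, b, ha, rfl⟩ : ∃ a b : F, a ≠ 0 ∧ p = C a * Polynomial.X + C b := by
      have h1 := hlin p hp.irreducible (dvd_mul_right p Q)
      exact ⟨p.coeff 1, p.coeff 0, by
        rw [← h1]; exact fun h0 => hp.ne_zero (leadingCoeff_eq_zero.1 h0),
        eq_X_add_C_of_natDegree_le_one h1.le⟩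
    refine ⟨-b / a, ?_⟩
    rw [map_mul, Module.End.mul_apply, map_add, map_mul, aeval_C, aeval_C, aeval_X,
      LinearMap.add_apply, Module.End.mul_apply, Module.algebraMap_end_apply,
      Module.algebraMap_end_apply] at hQ
    have := X'.smul_mem a⁻¹ hQ
    rw [smul_add, smul_smul, inv_mul_cancel₀ ha, one_smul, smul_smul] at this
    convert this using 1
    rw [neg_div, neg_smul, sub_neg_eq_add, div_eq_inv_mul]

theorem exists_ker_ne_zero {V : Type*} [AddCommGroup V] [Module F V] [FiniteDimensional F V]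
    (T : Module.End F V) {p : F[X]} (hp : Irreducible p) (hd : p ∣ minpoly F T) :
    ∃ u ≠ 0, aeval T p u = 0 := by
  obtain ⟨s, hs⟩ := hd
  have hne : minpoly F T ≠ 0 := minpoly.ne_zero (Algebra.IsIntegral.isIntegral T)
  have hs0 : s ≠ 0 := fun h => hne (by rw [hs, h, mul_zero])
  have h1 : aeval T s ≠ 0 := fun h0 => by
    have h2 := natDegree_le_of_dvd (minpoly.dvd F T h0) hs0
    rw [hs, natDegree_mul hp.ne_zero hs0] at h2
    have := hp.natDegree_pos
    omega
  obtain ⟨x, hx⟩ : ∃ x, aeval T s x ≠ 0 := by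
    by_contra! hc
    exact h1 (LinearMap.ext hc)
  refine ⟨_, hx, ?_⟩
  rw [← Module.End.mul_apply, ← map_mul, ← hs, minpoly.aeval]
  rfl

theorem uEnd_injective (g : U.SUG n F q) : Function.Injective (uEnd g) := (uRho n F q g).injective

theorem minpoly_factor_eval_zero (g : U.SUG n F q) {p : F[X]}
    (hd : p ∣ minpoly F (uEnd g)) : p.eval 0 ≠ 0 := by
  intro h0
  have h1 : (minpoly F (uEnd g)).IsRoot 0 := IsRoot.dvd h0 hd
  obtain ⟨v, hv⟩ := (Module.End.hasEigenvalue_of_isRoot h1).exists_hasEigenvector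
  have h2 := hv.apply_eq_smul
  rw [zero_smul, ← map_zero (uEnd g)] at h2
  exact hv.2 (uEnd_injective g h2)

variable (hF : U.SqField F q)
include hF

theorem exists_unit_multiple {v : Fin n → F} (hv : U.herm q v v ≠ 0) :
    ∃ x : F, x ≠ 0 ∧ U.herm q (x • v) (x • v) = 1 := by
  obtain ⟨x, hx⟩ := hF.exists_norm (c := (U.herm q v v)⁻¹) (by rw [inv_pow, hF.herm_symm])
  refine ⟨x, ?_, ?_⟩
  · rintro rfl
    rw [zero_pow (Nat.succ_ne_zero q), eq_comm, inv_eq_zero] at hx
    exact hv hx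
  · rw [U.herm_smul_left, U.herm_smul_right, ← mul_assoc, ← pow_succ', hx, inv_mul_cancel₀ hv]

/-- If all vectors in the line pencil of two isotropic vectors are isotropic, they are orthogonal. -/
theorem herm_eq_zero_of_isotropic {v w : Fin n → F}
    (h : ∀ c : F, U.herm q (v + c • w) (v + c • w) = 0) (hw : U.herm q w w = 0) :
    U.herm q v w = 0 := by
  by_contra hne
  have hv : U.herm q v v = 0 := by simpa using h 0
  obtain ⟨x, hx⟩ := hF.exists_trace (c := 1) (one_pow q)
  have h' : U.herm q w v ≠ 0 := fun e => hne (herm_comm_zero hF e)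
  have := h (x / U.herm q w v)
  rw [U.herm_add_left, hF.herm_add_right, hF.herm_add_right, U.herm_smul_left, U.herm_smul_left,
    U.herm_smul_right, U.herm_smul_right, hv, hw, div_pow, hF.herm_symm, div_mul_cancel₀ _ hne,
    div_mul_cancel₀ _ h', mul_zero, mul_zero, zero_add, add_zero, add_comm] at this
  exact one_ne_zero (hx.symm.trans this)

theorem hasTwoCover_PSU_of (hn : 2 ≤ n) {V' : Submodule F (Fin n → F)}
    (K : Subgroup (U.SUG n F q))
    (hKc : ∀ z : U.SUG n F q, (∃ c : F, ∀ v, uRho n F q z v = c • v) → z ∈ K)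
    (hH : stabSub (uRho n F q) V' ≠ ⊤) (hK : K ≠ ⊤)
    (h : ∀ g, ∃ x, x * g * x⁻¹ ∈ stabSub (uRho n F q) V' ∨ x * g * x⁻¹ ∈ K) :
    HasTwoCover (Cfsg.PSU n F q) := by
  obtain ⟨φ⟩ := U.nonempty_PSU_equiv n F q
  refine HasTwoCover.congr φ.symm (hasTwoCover_quot _ K (fun z hz => ?_) (fun z hz => ?_) hH hK h)
  all_goals obtain ⟨c, hc⟩ := U.center_SUG_scalar hF hn z hz
  · exact scalar_mem_stabSub (c := c) hc _
  · exact hKc z ⟨c, hc⟩

omit hF in
theorem uRho_map_span (x : U.SUG n F q) {v e : Fin n → F} {c : F} (hc : c ≠ 0)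
    (h : uRho n F q x v = c • e) :
    (F ∙ v).map (uRho n F q x).toLinearMap = F ∙ e := by
  rw [Submodule.map_span, Set.image_singleton, LinearEquiv.coe_coe, h,
    Submodule.span_singleton_smul_eq (IsUnit.mk0 c hc)]

theorem det_href {c : F} {x : Fin n → F} (h : c + c ^ q + c * c ^ q * U.herm q x x = 0) :
    ((LinearEquiv.det (U.href hF h).1 : Fˣ) : F) = 1 + c * U.herm q x x := by
  rw [LinearEquiv.coe_det]
  have : ((U.href hF h).1 : (Fin n → F) →ₗ[F] Fin n → F) =
      LinearMap.transvection (c • hermB hF x) x := by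
    refine LinearMap.ext fun w => ?_
    rw [LinearEquiv.coe_coe, U.href_apply, LinearMap.transvection.apply, LinearMap.smul_apply,
      hermB_apply, smul_eq_mul]
  rw [this, LinearMap.transvection.det, LinearMap.smul_apply, hermB_apply, smul_eq_mul]

/-- `SU_n` is transitive on non-singular points. -/
theorem exists_sug_point {v e : Fin n → F} (hv : U.herm q v v ≠ 0) (he : U.herm q e e = 1) :
    ∃ x : U.SUG n F q, (F ∙ v).map (uRho n F q x).toLinearMap = F ∙ e := by
  obtain ⟨a, ha, hav⟩ := exists_unit_multiple hF hv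
  obtain ⟨g, hg⟩ := U.UG_transitive_one hF hav he
  set d : F := ((LinearEquiv.det g.1 : Fˣ) : F) with hd
  have hd0 : d ≠ 0 := Units.ne_zero _
  have hd1 : d ^ (q + 1) = 1 := U.det_norm_one hF g
  have hc : (d⁻¹ - 1) + (d⁻¹ - 1) ^ q + (d⁻¹ - 1) * (d⁻¹ - 1) ^ q * U.herm q e e = 0 := by
    rw [he, hF.sub_pow, one_pow, inv_pow, mul_one]
    have : d ^ q * d = 1 := by rwa [← pow_succ]
    have h2 : (d ^ q)⁻¹ = d := inv_eq_of_mul_eq_one_right this
    rw [h2]
    linear_combination inv_mul_cancel₀ hd0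
  have hdet : U.href hF hc * g ∈ U.SUG n F q := by
    rw [U.mem_SUG, Subgroup.coe_mul, map_mul]
    ext
    rw [Units.val_mul, det_href hF hc, he, mul_one, add_sub_cancel, ← hd, inv_mul_cancel₀ hd0,
      Units.val_one]
  refine ⟨⟨_, hdet⟩, uRho_map_span _ (c := a⁻¹ * d⁻¹) (by simp [ha, hd0]) ?_⟩
  show (U.href hF hc).1 (g.1 v) = _
  have : g.1 v = a⁻¹ • e := by
    rw [← hg, map_smul, smul_smul, inv_mul_cancel₀ ha, one_smul]
  rw [this, map_smul, U.href_apply, he, mul_one]
  rw [show e + (d⁻¹ - 1) • e = d⁻¹ • e by rw [sub_smul, one_smul, add_sub_cancel], smul_smul]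

end Cfsg.Agent.Cover5
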