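/-
`PSU_4` is the union of the conjugates of two proper subgroups.
-/
import Cfsg.Agent.Cover5.UBase

set_option autoImplicit false
set_option linter.style.haveILetI false

namespace Cfsg.Agent.Cover5

open Module Polynomial Cfsg.Agent.Classical Cfsg.Agent.Forms

variable {F : Type} [Field F] {q : ℕ}

theorem finrank_span_pair {V : Type*} [AddCommGroup V] [Module F V] [FiniteDimensional F V]
    {v w : V} (hv : v ≠ 0) (hw : w ∉ F ∙ v) :
    finrank F (Submodule.span F {v, w}) = 2 := by
  have h : LinearIndependent F ![v, w] := (LinearIndependent.pair_iff' hv).2 fun a ha =>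
    hw (ha ▸ Submodule.smul_mem _ a (Submodule.mem_span_singleton_self v))
  have := finrank_span_eq_card h
  rwa [Matrix.range_cons_cons_empty, Fintype.card_fin] at this

theorem natDegree_mul_le_of_dvd {V : Type*} [AddCommGroup V] [Module F V] [FiniteDimensional F V]
    (T : Module.End F V) {P : F[X]} (hd : P ∣ minpoly F T) : P.natDegree ≤ finrank F V := by
  rw [← LinearMap.charpoly_natDegree T]
  exact natDegree_le_of_dvd (hd.trans T.minpoly_dvd_charpoly) T.charpoly_monic.ne_zero

theorem hermB_herm_comb {n : ℕ} (hF : U.SqField F q) {v w : Fin n → F} {a b a' b' : F}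
    (hv : U.herm q v v = 0) (hw : U.herm q w w = 0) (hvw : U.herm q v w = 0) :
    U.herm q (a • v + b • w) (a' • v + b' • w) = 0 := by
  simp only [U.herm_add_left, hF.herm_add_right, U.herm_smul_left, U.herm_smul_right, hv, hw, hvw,
    herm_comm_zero hF hvw, mul_zero, add_zero]

variable (hF : U.SqField F q)
include hF

theorem isTI_span_pair {n : ℕ} {v w : Fin n → F}
    (hv : U.herm q v v = 0) (hw : U.herm q w w = 0) (hvw : U.herm q v w = 0) :
    ∀ x ∈ Submodule.span F {v, w}, ∀ y ∈ Submodule.span F {v, w}, U.herm q x y = 0 := by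
  intro x hx y hy
  obtain ⟨a, b, rfl⟩ := Submodule.mem_span_pair.1 hx
  obtain ⟨a', b', rfl⟩ := Submodule.mem_span_pair.1 hy
  exact hermB_herm_comb hF hv hw hvw

/-- The case of an isotropic eigenvector, all eigenvectors isotropic. -/
theorem exists_TI_of_eigen (g : U.SUG 4 F q) {v : Fin 4 → F} {lam : F}
    (hv : v ≠ 0) (hg : uEnd g v = lam • v)
    (hiso : ∀ (w : Fin 4 → F) (μ : F), uEnd g w = μ • w → U.herm q w w = 0) :
    ∃ W : TISub 4 2 F q, ∀ x ∈ W.1, uEnd g x ∈ W.1 := by
  set T := uEnd g with hT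
  have hinj : Function.Injective T := uEnd_injective g
  have hlam : lam ≠ 0 := by
    rintro rfl
    exact hv (hinj (by rw [hg, zero_smul, map_zero]))
  have hTh : ∀ a b, U.herm q (T a) (T b) = U.herm q a b := fun a b => uRho_herm g a b
  have hvv : U.herm q v v = 0 := hiso v lam hg
  have hroot : (minpoly F T).IsRoot lam :=
    Module.End.hasEigenvalue_iff_isRoot.1 (Module.End.hasEigenvalue_of_hasEigenvector
      (Module.End.hasEigenvector_iff.2 ⟨Module.End.mem_eigenspace_iff.2 hg, hv⟩))
  have hXdvd : (Polynomial.X - C lam) ∣ minpoly F T := dvd_iff_isRoot.2 hroot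
  -- all irreducible factors are linear
  have hlin : ∀ p : F[X], Irreducible p → p ∣ minpoly F T → p.natDegree = 1 := by
    intro p hp hpd
    by_contra hp1
    have hp0 : p.eval 0 ≠ 0 := minpoly_factor_eval_zero g hpd
    have hplam : ∀ x : F, ¬ p.IsRoot x := fun x => hp.not_isRoot_of_natDegree_ne_one hp1
    have hcop : ∀ μ : F, IsCoprime p (Polynomial.X - C μ) := fun μ =>
      ((irreducible_X_sub_C μ).coprime_iff_not_dvd.2 fun h => hplam μ (dvd_iff_isRoot.1 h)).symm
    have hle : p.natDegree + 1 ≤ 4 := by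
      have := natDegree_mul_le_of_dvd T ((hcop lam).mul_dvd hpd hXdvd)
      rwa [natDegree_mul hp.ne_zero (X_sub_C_ne_zero _), natDegree_X_sub_C, finrank_fin_fun] at this
    obtain ⟨u, hu, hpu⟩ := exists_ker_ne_zero T hp hpd
    have hpos := hp.natDegree_pos
    by_cases hp2 : p.natDegree = 2
    · set r := udual hF p with hr
      have hr0 : r ≠ 0 := by
        rw [hr, udual, Ne, reverse_eq_zero, Polynomial.map_eq_zero]
        exact hp.ne_zero
      have hpr : ¬ p ∣ r := fun h => by
        have := udual_root_odd hF hp hp0 h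
        rw [hp2] at this
        exact absurd this (by decide)
      have hnc : ¬ IsCoprime r (minpoly F T) := by
        rintro ⟨a, b, hab⟩
        refine hu (hF.eq_zero_of_herm u fun w => ?_)
        have h1 : w = aeval T r (aeval T a w) := by
          conv_lhs => rw [← Module.End.one_apply (R := F) w, ← map_one (aeval (R := F) T), ← hab, map_add,
            map_mul, map_mul, minpoly.aeval, mul_zero, add_zero, ← map_mul, mul_comm, map_mul,
            Module.End.mul_apply]
        rw [h1]
        exact herm_ker_udual hF g hpu _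
      obtain ⟨s, hs, hsr, hsm⟩ : ∃ s, Irreducible s ∧ s ∣ r ∧ s ∣ minpoly F T := by
        by_contra! hall
        exact hnc (isCoprime_of_irreducible_dvd (fun h => hr0 h.1) hall)
      have hs2 : s.natDegree ≤ 2 := hp2 ▸ (natDegree_le_of_dvd hsr hr0).trans
        (udual_natDegree_le hF p)
      by_cases hs1 : s.natDegree = 1
      · obtain ⟨μ, hμ⟩ := exists_root_of_degree_eq_one (p := s)
          ((degree_eq_iff_natDegree_eq_of_pos one_pos).2 hs1)
        have hμ0 : μ ≠ 0 := by
          rintro rfl
          exact minpoly_factor_eval_zero g hsm hμ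
        have h2 : aeval μ r = 0 := by
          rw [coe_aeval_eq_eval]
          exact IsRoot.dvd hμ hsr
        have := aeval_udual_root hF hμ0 h2
        rw [coe_aeval_eq_eval] at this
        exact hplam _ this
      · have hsp : IsCoprime p s := hp.coprime_iff_not_dvd.2 fun h => hpr (h.trans hsr)
        have hsX : IsCoprime s (Polynomial.X - C lam) :=
          ((irreducible_X_sub_C lam).coprime_iff_not_dvd.2 fun h =>
            hs.not_isRoot_of_natDegree_ne_one hs1 (dvd_iff_isRoot.1 h)).symm
        have := natDegree_mul_le_of_dvd T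
          (((hcop lam).mul_left hsX).mul_dvd (hsp.mul_dvd hpd hsm) hXdvd)
        rw [natDegree_mul (mul_ne_zero hp.ne_zero hs.ne_zero) (X_sub_C_ne_zero _),
          natDegree_mul hp.ne_zero hs.ne_zero, natDegree_X_sub_C, finrank_fin_fun] at this
        have := hs.natDegree_pos
        omega
    · -- degree three
      have hp3 : p.natDegree = 3 := by omega
      obtain ⟨r', hr'⟩ := hpd.trans T.minpoly_dvd_charpoly
      have hr0 : r' ≠ 0 := fun h => T.charpoly_monic.ne_zero (by rw [hr', h, mul_zero])
      have hr1 : r'.natDegree = 1 := by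
        have := LinearMap.charpoly_natDegree T
        rw [hr', natDegree_mul hp.ne_zero hr0, finrank_fin_fun, hp3] at this
        omega
      obtain ⟨a, b, hab⟩ := hcop lam
      have hroots : ∀ μ : F, T.charpoly.IsRoot μ → μ = lam := by
        intro μ hμ
        have hl : T.charpoly.IsRoot lam := hroot.dvd T.minpoly_dvd_charpoly
        rw [hr', root_mul] at hμ hl
        have h1 := hμ.resolve_left (hplam μ)
        have h2 := hl.resolve_left (hplam lam)
        obtain ⟨c, d, rfl⟩ : ∃ c d, r' = C c * Polynomial.X + C d :=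
          ⟨_, _, eq_X_add_C_of_natDegree_le_one hr1.le⟩
        have hc : c ≠ 0 := fun hc => by simp [hc] at hr1
        simp only [IsRoot, eval_add, eval_mul, eval_C, eval_X] at h1 h2
        exact mul_left_cancel₀ hc (by linear_combination h1 - h2)
      -- `v` is orthogonal to everything
      set μ := (lam ^ q)⁻¹ with hμdef
      have hv1 : ∀ w, U.herm q v (T w - μ • w) = 0 := by
        intro w
        have h1 : U.herm q v (T w) = lam⁻¹ * U.herm q v w := by
          have := hTh v w
          rw [hg, U.herm_smul_left] at this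
          rw [← this, ← mul_assoc, inv_mul_cancel₀ hlam, one_mul]
        rw [hF.herm_sub_right, h1, U.herm_smul_right, hμdef, inv_pow, hF.pow_pow, sub_self]
      have hμlam : μ = lam := by
        refine hroots μ (by_contra fun hne => hv (hF.eq_zero_of_herm v fun w => ?_))
        have hsur : Function.Surjective ((T - μ • 1 : Module.End F (Fin 4 → F))) := by
          refine LinearMap.surjective_of_injective ((injective_iff_map_eq_zero _).2 fun x hx => ?_)
          by_contra hx0
          rw [LinearMap.sub_apply, LinearMap.smul_apply, Module.End.one_apply, sub_eq_zero] at hx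
          exact hne ((Module.End.hasEigenvalue_iff_isRoot_charpoly T μ).1
            (Module.End.hasEigenvalue_of_hasEigenvector
              (Module.End.hasEigenvector_iff.2 ⟨Module.End.mem_eigenspace_iff.2 hx, hx0⟩)))
        obtain ⟨w', rfl⟩ := hsur w
        exact hv1 w'
      refine hv (hF.eq_zero_of_herm v fun w => ?_)
      have hw : w = aeval T (a * p) w + aeval T (b * (Polynomial.X - C lam)) w := by
        rw [← LinearMap.add_apply, ← map_add, hab, map_one]
        rfl
      have hCH : aeval T (p * (Polynomial.X - C lam)) = 0 := by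
        have hl : T.charpoly.IsRoot lam := hroot.dvd T.minpoly_dvd_charpoly
        rw [hr', root_mul] at hl
        obtain ⟨c, hc⟩ := dvd_iff_isRoot.2 (hl.resolve_left (hplam lam))
        have hc0 : c.natDegree = 0 := by
          have hcne : c ≠ 0 := fun h => hr0 (by rw [hc, h, mul_zero])
          rw [hc, natDegree_mul (X_sub_C_ne_zero _) hcne, natDegree_X_sub_C] at hr1
          omega
        have h0 := LinearMap.aeval_self_charpoly T
        obtain ⟨c', rfl⟩ := natDegree_eq_zero.1 hc0
        have hc' : c' ≠ 0 := fun h => hr0 (by rw [hc, h, map_zero, mul_zero])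
        rw [hr', hc, ← mul_assoc, map_mul, aeval_C, ← (Algebra.commutes _ _), ← Algebra.smul_def,
          smul_eq_zero] at h0
        exact h0.resolve_left hc'
      rw [hw, hF.herm_add_right]
      have h1 : U.herm q v (aeval T (a * p) w) = 0 := by
        have hz : T (aeval T (a * p) w) = lam • aeval T (a * p) w := by
          have : aeval T ((Polynomial.X - C lam) * (a * p)) w = 0 := by
            rw [show (Polynomial.X - C lam) * (a * p) = a * (p * (Polynomial.X - C lam)) by ring,
              map_mul, hCH, mul_zero, LinearMap.zero_apply]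
          rwa [map_mul, Module.End.mul_apply, map_sub, aeval_X, aeval_C, LinearMap.sub_apply,
            Module.algebraMap_end_apply, sub_eq_zero] at this
        refine herm_eq_zero_of_isotropic hF (fun c => hiso _ lam ?_) (hiso _ lam hz)
        rw [map_add, map_smul, hg, hz, smul_add, smul_comm]
      have h2 : U.herm q v (aeval T (b * (Polynomial.X - C lam)) w) = 0 := by
        rw [mul_comm, map_mul, Module.End.mul_apply, map_sub, aeval_X, aeval_C, LinearMap.sub_apply,
          Module.algebraMap_end_apply, ← hμlam]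
        exact hv1 _
      rw [h1, h2, add_zero]
  -- the invariant hyperplane
  have hX : ∀ x ∈ F ∙ v, T x ∈ F ∙ v := by
    intro x hx
    obtain ⟨c, rfl⟩ := Submodule.mem_span_singleton.1 hx
    rw [map_smul, hg]
    exact Submodule.smul_mem _ _ (Submodule.smul_mem _ _ (Submodule.mem_span_singleton_self v))
  have step : ∀ P : Submodule F (Fin 4 → F), (∀ x ∈ P, T x ∈ P) → (∀ x ∈ P, U.herm q x v = 0) →
      2 ≤ finrank F P →
      (∃ W : TISub 4 2 F q, ∀ x ∈ W.1, T x ∈ W.1) ∨
        ∃ u ∈ P, u ∉ F ∙ v ∧ U.herm q u u ≠ 0 ∧ T u - lam • u ∈ F ∙ v := by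
    intro P hP hPv hdim
    obtain ⟨w, hwP, hw⟩ : ∃ w ∈ P, w ∉ F ∙ v := by
      by_contra! hc
      have := Submodule.finrank_mono (show P ≤ F ∙ v from hc)
      rw [finrank_span_singleton hv] at this
      omega
    obtain ⟨u, huP, hu, μ, hμ⟩ := exists_triangular_step (X' := F ∙ v) hP
      (minpoly.ne_zero (Algebra.IsIntegral.isIntegral T)) hlin hwP hw
      (by rw [minpoly.aeval]; exact Submodule.zero_mem _)
    by_cases huu : U.herm q u u = 0
    · left
      refine ⟨⟨Submodule.span F {v, u}, finrank_span_pair hv hu,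
        isTI_span_pair hF hvv huu (herm_comm_zero hF (hPv u huP))⟩, fun x hx => ?_⟩
      obtain ⟨a, b, rfl⟩ := Submodule.mem_span_pair.1 hx
      obtain ⟨c, hc⟩ := Submodule.mem_span_singleton.1 hμ
      rw [map_add, map_smul, map_smul, hg, show T u = c • v + μ • u by rw [hc, sub_add_cancel],
        Submodule.mem_span_pair]
      exact ⟨a * lam + b * c, b * μ, by module⟩
    · right
      refine ⟨u, huP, hu, huu, ?_⟩
      obtain ⟨c, hc⟩ := Submodule.mem_span_singleton.1 hμ
      by_cases hμl : μ = lam
      · rw [← hμl]; exact hμ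
      exfalso
      refine huu ?_
      have hTu : T u = μ • u + c • v := by rw [hc]; abel
      have hd : μ - lam ≠ 0 := sub_ne_zero.2 hμl
      have h1 : T (u + (c / (μ - lam)) • v) = μ • (u + (c / (μ - lam)) • v) := by
        rw [map_add, map_smul, hg, hTu, smul_add, smul_smul, smul_smul, add_assoc, ← add_smul]
        congr 2
        field_simp
        ring
      have h2 := hiso _ μ h1
      rw [U.herm_add_left, hF.herm_add_right, hF.herm_add_right, U.herm_smul_left,
        U.herm_smul_left, U.herm_smul_right, U.herm_smul_right, hPv u huP,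
        herm_comm_zero hF (hPv u huP), hvv] at h2
      simpa using h2
  set P := hperp q (F ∙ v) with hPdef
  have hPv : ∀ x ∈ P, U.herm q x v = 0 := fun x hx => hx v (Submodule.mem_span_singleton_self v)
  have hP : ∀ x ∈ P, T x ∈ P := by
    intro x hx w hw
    obtain ⟨c, rfl⟩ := Submodule.mem_span_singleton.1 hw
    rw [U.herm_smul_right]
    have : U.herm q (T x) v = 0 := by
      have h1 := hTh x v
      rw [hg, U.herm_smul_right, hPv x hx] at h1
      exact (mul_eq_zero.1 h1).resolve_left (pow_ne_zero _ hlam)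
    rw [this, mul_zero]
  have hPdim : finrank F P = 3 := by rw [hPdef, finrank_hperp hF, finrank_span_singleton hv]
  rcases step P hP hPv (by omega) with h | ⟨w, hwP, hw, hww, hwT⟩
  · exact h
  set W0 : Submodule F (Fin 4 → F) := Submodule.span F {v, w} with hW0
  have hW0T : ∀ x ∈ W0, T x ∈ W0 := by
    intro x hx
    obtain ⟨a, b, rfl⟩ := Submodule.mem_span_pair.1 hx
    obtain ⟨c, hc⟩ := Submodule.mem_span_singleton.1 hwT
    rw [map_add, map_smul, map_smul, hg, show T w = c • v + lam • w by rw [hc, sub_add_cancel],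
      hW0, Submodule.mem_span_pair]
    exact ⟨a * lam + b * c, b * lam, by module⟩
  have hW0map : W0.map T = W0 :=
    Submodule.eq_of_le_of_finrank_eq (by rintro _ ⟨x, hx, rfl⟩; exact hW0T x hx)
      (LinearEquiv.finrank_map_eq (uRho 4 F q g) W0)
  have hP2 : ∀ x ∈ hperp q W0, T x ∈ hperp q W0 := by
    intro x hx z hz
    obtain ⟨z', hz', rfl⟩ : z ∈ W0.map T := hW0map.symm ▸ hz
    rw [hTh]
    exact hx z' hz'
  rcases step (hperp q W0) hP2
    (fun x hx => hx v (Submodule.mem_span_pair.2 ⟨1, 0, by simp⟩))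
    (by rw [finrank_hperp hF, hW0, finrank_span_pair hv hw]) with h | ⟨u, huP, hu, huu, huT⟩
  · exact h
  have huw : U.herm q u w = 0 := huP w (Submodule.mem_span_pair.2 ⟨0, 1, by simp⟩)
  have huv : U.herm q u v = 0 := huP v (Submodule.mem_span_pair.2 ⟨1, 0, by simp⟩)
  obtain ⟨z, hz⟩ := hF.exists_norm (c := -(U.herm q w w / U.herm q u u))
    (by rw [hF.neg_pow, div_pow, hF.herm_symm, hF.herm_symm])
  set y := w + z • u with hy
  have hyy : U.herm q y y = 0 := by
    rw [hy, U.herm_add_left, hF.herm_add_right, hF.herm_add_right, U.herm_smul_left,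
      U.herm_smul_left, U.herm_smul_right, U.herm_smul_right, huw, herm_comm_zero hF huw,
      mul_zero, mul_zero, add_zero, zero_add, ← mul_assoc, ← pow_succ', hz, neg_mul,
      div_mul_cancel₀ _ huu, add_neg_cancel]
  have hyv : U.herm q y v = 0 := by
    rw [hy, U.herm_add_left, U.herm_smul_left, huv, hPv w hwP, mul_zero, add_zero]
  have hyX : y ∉ F ∙ v := by
    intro h
    obtain ⟨c, hc⟩ := Submodule.mem_span_singleton.1 h
    refine hww ?_
    have h1 : U.herm q y w = 0 := by
      rw [← hc, U.herm_smul_left, herm_comm_zero hF (hPv w hwP), mul_zero]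
    rwa [hy, U.herm_add_left, U.herm_smul_left, huw, mul_zero, add_zero] at h1
  refine ⟨⟨Submodule.span F {v, y}, finrank_span_pair hv hyX,
    isTI_span_pair hF hvv hyy (herm_comm_zero hF hyv)⟩, fun x hx => ?_⟩
  obtain ⟨a, b, rfl⟩ := Submodule.mem_span_pair.1 hx
  obtain ⟨c, hc⟩ := Submodule.mem_span_singleton.1 hwT
  obtain ⟨d, hd⟩ := Submodule.mem_span_singleton.1 huT
  have hTy : T y = (c + z * d) • v + lam • y := by
    rw [hy, map_add, map_smul, show T w = c • v + lam • w by rw [hc, sub_add_cancel],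
      show T u = d • v + lam • u by rw [hd, sub_add_cancel]]
    module
  rw [map_add, map_smul, map_smul, hg, hTy, Submodule.mem_span_pair]
  exact ⟨a * lam + b * (c + z * d), b * lam, by module⟩

/-- The case without eigenvectors. -/
theorem exists_TI_of_no_eigen (g : U.SUG 4 F q) (hno : ∀ μ : F, ¬ (uEnd g).HasEigenvalue μ) :
    ∃ W : TISub 4 2 F q, ∀ x ∈ W.1, uEnd g x ∈ W.1 := by
  set T := uEnd g with hT
  have hnu : ¬ IsUnit (minpoly F T) := minpoly.not_isUnit F T
  obtain ⟨p, hp, hpd⟩ := WfDvdMonoid.exists_irreducible_factor hnu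
    (minpoly.ne_zero (Algebra.IsIntegral.isIntegral T))
  have hc : T.charpoly.natDegree = 4 := by rw [LinearMap.charpoly_natDegree, finrank_fin_fun]
  have hroot : ∀ r : F[X], r ∣ T.charpoly → r.natDegree ≠ 1 := by
    intro r hr h1
    obtain ⟨μ, hμ⟩ := exists_root_of_degree_eq_one (p := r)
      ((degree_eq_iff_natDegree_eq_of_pos one_pos).2 h1)
    exact hno μ ((Module.End.hasEigenvalue_iff_isRoot_charpoly T μ).2 (hμ.dvd hr))
  have hev : ¬ Odd p.natDegree := by
    obtain ⟨r, hr⟩ := hpd.trans T.minpoly_dvd_charpoly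
    have hr0 : r ≠ 0 := fun h0 => T.charpoly_monic.ne_zero (by rw [hr, h0, mul_zero])
    have hadd : p.natDegree + r.natDegree = 4 := by rw [← natDegree_mul hp.ne_zero hr0, ← hr, hc]
    have h1 := hroot p ⟨r, hr⟩
    have h2 := hroot r ⟨p, hr.trans (mul_comm _ _)⟩
    rintro ⟨k, hk⟩
    omega
  have hp0 := minpoly_factor_eval_zero g hpd
  have hcop : IsCoprime p (udual hF p) :=
    hp.coprime_iff_not_dvd.2 fun h => hev (udual_root_odd hF hp hp0 h)
  obtain ⟨a, b, hab⟩ := hcop
  set W := LinearMap.ker (aeval T p) with hW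
  have hTI : ∀ x ∈ W, ∀ y ∈ W, U.herm q x y = 0 := by
    intro x hx y hy
    rw [hW, LinearMap.mem_ker] at hx hy
    have : y = aeval T (udual hF p) (aeval T b y) := by
      conv_lhs => rw [← Module.End.one_apply (R := F) y, ← map_one (aeval (R := F) T), ← hab, map_add,
        LinearMap.add_apply, map_mul, Module.End.mul_apply, hy, map_zero, zero_add, mul_comm,
        map_mul, Module.End.mul_apply]
    rw [this]
    exact herm_ker_udual hF g hx _
  have hinv : ∀ x ∈ W, T x ∈ W := by
    intro x hx
    rw [hW, LinearMap.mem_ker] at hx ⊢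
    have hc : aeval T p * T = T * aeval T p := by
      conv_lhs => rw [show aeval T p * T = aeval T (p * Polynomial.X) by rw [map_mul, aeval_X]]
      rw [mul_comm, map_mul, aeval_X]
    rw [← Module.End.mul_apply, hc, Module.End.mul_apply, hx, map_zero]
  have hle : finrank F W ≤ 2 := by
    have h1 := Submodule.finrank_mono (show W ≤ hperp q W from fun x hx y hy => hTI x hx y hy)
    rw [finrank_hperp hF] at h1
    omega
  have hge : 2 ≤ finrank F W := by
    obtain ⟨u, hu, hpu⟩ := exists_ker_ne_zero T hp hpd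
    have hTu : T u ∉ F ∙ u := by
      intro h
      obtain ⟨c, hc⟩ := Submodule.mem_span_singleton.1 h
      exact hno c (Module.End.hasEigenvalue_of_hasEigenvector
        (Module.End.hasEigenvector_iff.2 ⟨Module.End.mem_eigenspace_iff.2 hc.symm, hu⟩))
    have huW : u ∈ W := by rw [hW, LinearMap.mem_ker]; exact hpu
    refine (finrank_span_pair hu hTu).symm.le.trans (Submodule.finrank_mono ?_)
    rw [Submodule.span_le]
    exact Set.insert_subset huW (Set.singleton_subset_iff.2 (hinv u huW))
  exact ⟨⟨W, le_antisymm hle hge, hTI⟩, hinv⟩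

theorem exists_sug_TI (W W' : TISub 4 2 F q) :
    ∃ x : U.SUG 4 F q, W.1.map (uRho 4 F q x).toLinearMap = W'.1 := by
  obtain ⟨g, hg⟩ := UG_transitive_TISub hF W W'
  set d : F := ((LinearEquiv.det g.1 : Fˣ) : F) with hd
  have hd1 : (d⁻¹) ^ (q + 1) = 1 := by rw [inv_pow, U.det_norm_one hF g, inv_one]
  obtain ⟨s, hs, hsd⟩ := exists_ustab_det hF (W := W'.1) (by omega) W'.2.2 hd1
  have hdet : s * g ∈ U.SUG 4 F q := by
    rw [U.mem_SUG, Subgroup.coe_mul, map_mul]
    ext
    rw [Units.val_mul, hsd, ← hd, inv_mul_cancel₀ (Units.ne_zero _), Units.val_one]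
  refine ⟨⟨_, hdet⟩, ?_⟩
  change W.1.map (s.1.toLinearMap ∘ₗ g.1.toLinearMap) = W'.1
  rw [Submodule.map_comp, hg]
  exact mem_ustab_iff.1 hs

theorem psu_four_cover : HasTwoCover (Cfsg.PSU 4 F q) := by
  obtain ⟨x, hx⟩ := hF.exists_norm (c := -1) (by rw [hF.neg_pow, one_pow])
  have hx0 : x ≠ 0 := by
    rintro rfl
    rw [zero_pow (Nat.succ_ne_zero q)] at hx
    simp at hx
  have hxx : x * x ^ q = -1 := by rw [← pow_succ', hx]
  have hq := hF.q_ne_zero
  have mkTI : ∀ a b : Fin 4 → F, a ≠ 0 → b ∉ F ∙ a → U.herm q a a = 0 → U.herm q b b = 0 →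
      U.herm q a b = 0 → ∃ W : TISub 4 2 F q, a ∈ W.1 ∧ W.1 = Submodule.span F {a, b} :=
    fun a b ha hb h1 h2 h3 => ⟨⟨_, finrank_span_pair ha hb, isTI_span_pair hF h1 h2 h3⟩,
      Submodule.mem_span_pair.2 ⟨1, 0, by simp⟩, rfl⟩
  obtain ⟨W0, -, hW0⟩ := mkTI ![1, x, 0, 0] ![0, 0, 1, x] (by simp)
    (fun h => by
      obtain ⟨c, hc⟩ := Submodule.mem_span_singleton.1 h
      simpa using congrFun hc 2)
    (by simp [U.herm_def, Fin.sum_univ_four, hxx, hq])
    (by simp [U.herm_def, Fin.sum_univ_four, hxx, hq])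
    (by simp [U.herm_def, Fin.sum_univ_four, hq])
  obtain ⟨W1, hW1, -⟩ := mkTI ![1, 0, x, 0] ![0, 1, 0, x] (by simp)
    (fun h => by
      obtain ⟨c, hc⟩ := Submodule.mem_span_singleton.1 h
      simpa using congrFun hc 1)
    (by simp [U.herm_def, Fin.sum_univ_four, hxx, hq])
    (by simp [U.herm_def, Fin.sum_univ_four, hxx, hq])
    (by simp [U.herm_def, Fin.sum_univ_four, hq])
  set e : Fin 4 → F := Pi.single 0 1 with he
  have hee : U.herm q e e = 1 := by
    rw [he, U.herm_single_one _ hF.q_ne_zero]; simp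
  have hee' : U.herm q e e ≠ 0 := by rw [hee]; exact one_ne_zero
  refine hasTwoCover_PSU_of hF (V' := W0.1) (by omega) (stabSub (uRho 4 F q) (F ∙ e))
    (fun z ⟨c, hc⟩ => scalar_mem_stabSub hc _) ?_ ?_ fun g => ?_
  · obtain ⟨s, hs⟩ := exists_sug_TI hF W0 W1
    refine ne_top_of_not_mem (g := s) fun h => ?_
    obtain ⟨y, hy, hyx⟩ : ![1, 0, x, 0] ∈ W0.1.map (uRho 4 F q s).toLinearMap := hs.symm ▸ hW1
    have hm : ![1, 0, x, 0] ∈ W0.1 := hyx ▸ (h y).1 hy
    rw [hW0] at hm
    obtain ⟨a, b, hab⟩ := Submodule.mem_span_pair.1 hm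
    have h0 := congrFun hab 0
    have h1 := congrFun hab 1
    simp at h0 h1
    subst h0
    simp [hx0] at h1
  · set e1 : Fin 4 → F := Pi.single 1 1 with he1
    have he1' : U.herm q e1 e1 = 1 := by rw [he1, U.herm_single_one _ hF.q_ne_zero]; simp
    obtain ⟨s, hs⟩ := exists_sug_point hF hee' he1'
    refine ne_top_of_not_mem (g := s) fun h => ?_
    have he1s : e1 ∈ (F ∙ e).map (uRho 4 F q s).toLinearMap :=
      hs.symm ▸ Submodule.mem_span_singleton_self e1
    obtain ⟨y, hy, hyx⟩ := he1s
    obtain ⟨a, ha⟩ := Submodule.mem_span_singleton.1 (hyx ▸ (h y).1 hy : e1 ∈ F ∙ e)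
    simpa [he, he1] using congrFun ha 1
  · by_cases hns : ∃ (w : Fin 4 → F) (μ : F), uEnd g w = μ • w ∧ U.herm q w w ≠ 0
    · obtain ⟨w, μ, hw, hww⟩ := hns
      obtain ⟨s, hs⟩ := exists_sug_point hF hww hee
      refine ⟨s, Or.inr (conj_mem_stabSub (W' := F ∙ w) (fun y hy => ?_) hs)⟩
      obtain ⟨c, rfl⟩ := Submodule.mem_span_singleton.1 hy
      rw [map_smul, ← uEnd_apply, hw]
      exact Submodule.smul_mem _ _ (Submodule.smul_mem _ _ (Submodule.mem_span_singleton_self w))
    · push Not at hns
      obtain ⟨W, hW⟩ : ∃ W : TISub 4 2 F q, ∀ x ∈ W.1, uEnd g x ∈ W.1 := by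
        by_cases hev : ∃ μ : F, (uEnd g).HasEigenvalue μ
        · obtain ⟨μ, hμ⟩ := hev
          obtain ⟨v, hv⟩ := hμ.exists_hasEigenvector
          exact exists_TI_of_eigen hF g hv.2 hv.apply_eq_smul hns
        · push Not at hev
          exact exists_TI_of_no_eigen hF g hev
      obtain ⟨s, hs⟩ := exists_sug_TI hF W W0
      exact ⟨s, Or.inl (conj_mem_stabSub (W' := W.1) (fun y hy => hW y hy) hs)⟩

end Cfsg.Agent.Cover5
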