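/-
`SU_3` in characteristic three: an element without eigenvectors commutes with a self-adjoint root of
`X^3 - X - c`, and these are all conjugate to `Jop c` by unitary maps.
-/
import Cfsg.Agent.Cover5.UBase
import Cfsg.Agent.Cover5.CharThree
import Cfsg.Agent.Cover5.Field

set_option autoImplicit false
set_option linter.style.haveILetI false

namespace Cfsg.Agent.Cover5

open Module Polynomial Cfsg.Agent.Classical Cfsg.Agent.Forms

variable {F : Type} [Field F] {q : ℕ} (hF : U.SqField F q)
include hF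

theorem exists_isometry_of_no_eigen (h3 : (3 : F) = 0) {c : F} (hcq : c ^ q = c)
    (hc : ∀ x : F, x ^ 3 - x ≠ c) (g : U.SUG 3 F q) (hno : ∀ μ : F, ¬ (uEnd g).HasEigenvalue μ) :
    ∃ (J' L : Module.End F (Fin 3 → F)), (∀ x, uEnd g (J' x) = J' (uEnd g x)) ∧
      (∀ x, L (Jop c x) = J' (L x)) ∧ ∀ x y, U.herm q (L x) (L y) = U.herm q x y := by
  haveI : Finite F := hF.1
  haveI := Fintype.ofFinite F
  set T := uEnd g with hT
  have hc0 : c ≠ 0 := fun h => hc 0 (by rw [h]; ring)
  -- the minimal polynomial is an irreducible cubic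
  obtain ⟨p, hp, hpd⟩ := WfDvdMonoid.exists_irreducible_factor (minpoly.not_isUnit F T)
    (minpoly.ne_zero (Algebra.IsIntegral.isIntegral T))
  have hd3 : T.charpoly.natDegree = 3 := by rw [LinearMap.charpoly_natDegree, finrank_fin_fun]
  have hroot : ∀ r : F[X], r ∣ T.charpoly → r.natDegree ≠ 1 := by
    intro r hr h1
    obtain ⟨μ, hμ⟩ := exists_root_of_degree_eq_one (p := r)
      ((degree_eq_iff_natDegree_eq_of_pos one_pos).2 h1)
    exact hno μ ((Module.End.hasEigenvalue_iff_isRoot_charpoly T μ).2 (hμ.dvd hr))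
  obtain ⟨r0, hr0⟩ := hpd.trans T.minpoly_dvd_charpoly
  have hr00 : r0 ≠ 0 := fun h0 => T.charpoly_monic.ne_zero (by rw [hr0, h0, mul_zero])
  have hpdeg : p.natDegree = 3 ∧ r0.natDegree = 0 := by
    have hadd : p.natDegree + r0.natDegree = 3 := by
      rw [← natDegree_mul hp.ne_zero hr00, ← hr0, hd3]
    have h1 := hroot p ⟨r0, hr0⟩
    have h2 := hroot r0 ⟨p, hr0.trans (mul_comm _ _)⟩
    have := hp.natDegree_pos
    omega
  have hTp : aeval T p = 0 := by
    obtain ⟨e, he⟩ := natDegree_eq_zero.1 hpdeg.2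
    have he0 : e ≠ 0 := fun h => hr00 (by rw [← he, h, map_zero])
    have h0 := LinearMap.aeval_self_charpoly T
    rw [hr0, ← he, map_mul, aeval_C, ← Algebra.commutes, ← Algebra.smul_def, smul_eq_zero] at h0
    exact h0.resolve_left he0
  have hmin : ∀ Q : F[X], aeval T Q = 0 → p ∣ Q := fun Q h => hpd.trans (minpoly.dvd F T h)
  haveI := Fact.mk hp
  haveI : FiniteDimensional F (AdjoinRoot p) := (AdjoinRoot.powerBasis hp.ne_zero).finite
  haveI : Finite (AdjoinRoot p) := Module.finite_of_finite F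
  have hfinL : finrank F (AdjoinRoot p) = 3 := by
    rw [(AdjoinRoot.powerBasis hp.ne_zero).finrank, AdjoinRoot.powerBasis_dim, hpdeg.1]
  set α : AdjoinRoot p := AdjoinRoot.root p with hαdef
  have hmk : ∀ P : F[X], aeval α P = AdjoinRoot.mk p P := AdjoinRoot.aeval_eq
  -- `T⁻¹` is a polynomial in `T`
  have hα : α ≠ 0 := by
    intro hz
    have h1 : aeval α p = 0 := by rw [hmk, AdjoinRoot.mk_self]
    rw [hz, ← map_zero (algebraMap F (AdjoinRoot p)), aeval_algebraMap_apply_eq_algebraMap_eval] at h1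
    exact minpoly_factor_eval_zero g hpd ((algebraMap F (AdjoinRoot p)).injective h1)
  have hdual : p ∣ udual hF p := hmin _ (LinearMap.ext fun w =>
    hF.eq_zero_of_herm _ fun u => herm_comm_zero hF
      (herm_ker_udual hF g (u := u) (by rw [← hT, hTp]; rfl) w))
  have hβ : aeval (α ^ q)⁻¹ p = 0 := by
    refine aeval_udual_root hF hα ?_
    obtain ⟨s, hs⟩ := hdual
    rw [hs, map_mul, hmk p, AdjoinRoot.mk_self, zero_mul]
  obtain ⟨i, hi⟩ := (FiniteField.bijective_frobeniusAlgEquivOfAlgebraic_pow F (AdjoinRoot p)).2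
    ((Algebra.IsAlgebraic.algEquivEquivAlgHom F (AdjoinRoot p)).symm
      (AdjoinRoot.liftAlgHom p (Algebra.ofId F (AdjoinRoot p)) _ hβ))
  set Φ := FiniteField.frobeniusAlgEquivOfAlgebraic F (AdjoinRoot p) with hΦ
  have hiα : (Φ ^ i.1) α = (α ^ q)⁻¹ := by
    change Φ ^ i.1 = _ at hi
    rw [hi]
    exact AdjoinRoot.liftAlgHom_root p (Algebra.ofId F (AdjoinRoot p)) _ hβ
  have hcard : Fintype.card F = q * q := by rw [← Nat.card_eq_fintype_card, hF.2, sq]
  have h2 : (Φ ^ (2 * i.1)) α = Φ α := by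
    rw [two_mul, pow_add, AlgEquiv.mul_apply, hiα, map_inv₀, map_pow, hiα, inv_pow, inv_inv,
      ← pow_mul, hΦ, FiniteField.coe_frobeniusAlgEquivOfAlgebraic, hcard]
  have h2' : Φ ^ (2 * i.1) = Φ ^ 1 := by
    rw [pow_one]
    exact AlgEquiv.coe_toAlgHom_injective (AdjoinRoot.algHom_ext h2)
  rw [pow_eq_pow_iff_modEq, hΦ, FiniteField.orderOf_frobeniusAlgEquivOfAlgebraic] at h2'
  have hi2 : i.1 = 2 := by
    have h1 := i.2
    unfold Nat.ModEq at h2'
    have h1' : (i : ℕ) < 3 := lt_of_lt_of_eq h1 hfinL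
    have h2'' : 2 * (i : ℕ) % 3 = 1 % 3 := hfinL ▸ h2'
    omega
  obtain ⟨r', k, hr', hchar, hq⟩ := hF.exists_char
  haveI := Fact.mk hr'
  haveI : CharP F r' := hchar
  haveI : CharP (AdjoinRoot p) r' :=
    charP_of_injective_algebraMap (algebraMap F (AdjoinRoot p)).injective r'
  obtain ⟨φ, hφ⟩ : ∃ φ : AdjoinRoot p →+* AdjoinRoot p, ∀ x, φ x = x ^ q :=
    ⟨iterateFrobenius _ r' k, fun x => by rw [iterateFrobenius_def, hq]⟩
  set star : AdjoinRoot p →+* AdjoinRoot p := φ.comp (φ.comp φ) with hstar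
  have hstar_apply : ∀ x, star x = x ^ (q ^ 3) := fun x => by
    rw [hstar, RingHom.comp_apply, RingHom.comp_apply, hφ, hφ, hφ, ← pow_mul, ← pow_mul]
    congr 1; ring
  have hstarα : star α = α⁻¹ := by
    have h4 : α ^ (q * q * (q * q)) = (α ^ q)⁻¹ := by
      rw [← hiα, hi2, pow_two Φ, AlgEquiv.mul_apply, hΦ,
        FiniteField.coe_frobeniusAlgEquivOfAlgebraic, hcard]
      simp only [← pow_mul]
    rw [hstar_apply]
    refine eq_inv_of_mul_eq_one_left (φ.injective ?_)
    rw [hφ, map_one, mul_pow, ← pow_mul, show q ^ 3 * q = q * q * (q * q) by ring, h4,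
      inv_mul_cancel₀ (pow_ne_zero _ hα)]
  have hstarF : ∀ a : F, star (algebraMap F _ a) = algebraMap F _ (a ^ q) := fun a => by
    rw [hstar_apply, ← map_pow, show q ^ 3 = q * q * q by ring, pow_mul, pow_mul, hF.pow_pow]
  -- the action of `AdjoinRoot p`
  let ψ : AdjoinRoot p →+* Module.End F (Fin 3 → F) :=
    Ideal.Quotient.lift _ (aeval T : F[X] →ₐ[F] _).toRingHom (fun Q hQ => by
      obtain ⟨s, rfl⟩ := Ideal.mem_span_singleton'.1 hQ
      simp [hTp])
  have hψmk : ∀ P : F[X], ψ (AdjoinRoot.mk p P) = aeval T P := fun P => rfl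
  have hψF : ∀ (a : F) (v : Fin 3 → F), ψ (algebraMap F _ a) v = a • v := fun a v => by
    rw [AdjoinRoot.algebraMap_eq, ← AdjoinRoot.mk_C, hψmk, aeval_C, Module.algebraMap_end_apply]
  obtain ⟨s, hs⟩ := AdjoinRoot.mk_surjective α⁻¹
  have hS : uEnd g⁻¹ = aeval T s := by
    have h1 : T * aeval T s = 1 := by
      rw [← hψmk, hs, show T = ψ α by rw [hαdef, ← AdjoinRoot.mk_X, hψmk, aeval_X], ← map_mul,
        mul_inv_cancel₀ hα, map_one]
    calc uEnd g⁻¹ = uEnd g⁻¹ * (T * aeval T s) := by rw [h1, mul_one]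
      _ = aeval T s := by rw [← mul_assoc, hT, uEnd_inv_mul, one_mul]
  have hadj : ∀ y u w, U.herm q (ψ y u) w = U.herm q u (ψ (star y) w) := by
    intro y u w
    obtain ⟨P, rfl⟩ := AdjoinRoot.mk_surjective y
    have h1 : star (AdjoinRoot.mk p P) = AdjoinRoot.mk p ((P.map (sqConj hF)).comp s) := by
      rw [← hmk, ← hmk, aeval_comp, hmk s, hs, aeval_def, hom_eval₂, hstarα, aeval_def, eval₂_map]
      congr 1
      exact RingHom.ext fun a => hstarF a
    rw [h1, hψmk, hψmk, aeval_comp, ← hS]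
    exact herm_aeval_adj hF g P u w
  -- the root of `asPoly c`
  have hf := asPoly_irreducible hc
  obtain ⟨r, hr⟩ := exists_root_modulo hp hf (by rw [asPoly_natDegree, hpdeg.1])
  set X' := AdjoinRoot.mk p r with hX'
  have hX3 : X' ^ 3 = X' + algebraMap F _ c := by
    have : AdjoinRoot.mk p (aeval r (asPoly c)) = 0 := AdjoinRoot.mk_eq_zero.2 hr
    rw [aeval_asPoly, map_sub, map_sub, map_pow, algebraMap_eq, AdjoinRoot.mk_C,
      ← AdjoinRoot.algebraMap_eq, sub_eq_zero, sub_eq_iff_eq_add] at this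
    rw [this, add_comm]
  have h3L : (3 : AdjoinRoot p) = 0 := by
    rw [← map_ofNat (algebraMap F (AdjoinRoot p)) 3, h3, map_zero]
  have hX'star : star X' = X' := by
    have h1 : φ (algebraMap F _ c) = algebraMap F _ c := by rw [hφ, ← map_pow, hcq]
    set e := φ X' - X' with he
    have he3 : e ^ 3 - e = 0 := by
      have h4 := congrArg φ hX3
      rw [map_pow, map_add, h1] at h4
      have hcube : e ^ 3 = φ X' ^ 3 - X' ^ 3 := by
        rw [he]; linear_combination (φ X' * X' ^ 2 - φ X' ^ 2 * X') * h3L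
      rw [hcube, h4, hX3, he]; ring
    have hφe : φ e = e := by
      rcases sq_eq_one_cases he3 with h | h | h <;> rw [h] <;> simp
    have : φ X' = X' + e := by rw [he]; ring
    rw [hstar, RingHom.comp_apply, RingHom.comp_apply, this, map_add, this, hφe, map_add, map_add,
      this, hφe]
    linear_combination e * h3L
  have hli : ∀ a b d : F, algebraMap F _ a + algebraMap F _ b * X' + algebraMap F _ d * X' ^ 2 = 0 →
      a = 0 ∧ b = 0 ∧ d = 0 := by
    intro a b d h
    by_contra hne
    have hP0 : (C a + C b * Polynomial.X + C d * Polynomial.X ^ 2) ≠ 0 := by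
      intro h0
      refine hne ⟨?_, ?_, ?_⟩
      · simpa using congrArg (coeff · 0) h0
      · simpa using congrArg (coeff · 1) h0
      · simpa using congrArg (coeff · 2) h0
    have h1 : minpoly F X' ∣ C a + C b * Polynomial.X + C d * Polynomial.X ^ 2 :=
      minpoly.dvd F X' (by simpa using h)
    have h2 : aeval X' (asPoly c) = 0 := by rw [aeval_asPoly, hX3]; ring
    have h2' := minpoly.eq_of_irreducible_of_monic hf h2 (by unfold asPoly; monicity!)
    have h4 := natDegree_le_of_dvd h1 hP0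
    rw [← h2', asPoly_natDegree] at h4
    have h5 : (C a + C b * Polynomial.X + C d * Polynomial.X ^ 2).natDegree ≤ 2 := by compute_degree
    omega
  set v0 : Fin 3 → F := Pi.single 0 1 with hv0
  have hv00 : v0 ≠ 0 := by simp [hv0]
  have hψne : ∀ y : AdjoinRoot p, y ≠ 0 → Function.Injective (ψ y) := by
    intro y hy u w huw
    have := congrArg (ψ y⁻¹) huw
    rwa [← Module.End.mul_apply, ← Module.End.mul_apply, ← map_mul, inv_mul_cancel₀ hy, map_one,
      Module.End.one_apply, Module.End.one_apply] at this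
  let evl : AdjoinRoot p →ₗ[F] (Fin 3 → F) :=
    { toFun := fun y => ψ y v0
      map_add' := fun y z => by rw [map_add, LinearMap.add_apply]
      map_smul' := fun a y => by
        rw [Algebra.smul_def, map_mul, Module.End.mul_apply, hψF, RingHom.id_apply] }
  have hevl : Function.Injective evl := by
    refine (injective_iff_map_eq_zero _).2 fun y hy => ?_
    by_contra hy0
    exact hv00 (hψne y hy0 (show ψ y v0 = ψ y 0 by rw [map_zero]; exact hy))
  have hevl' : Function.Surjective evl := by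
    rwa [← LinearMap.injective_iff_surjective_of_finrank_eq_finrank (by rw [hfinL, finrank_fin_fun])]
  let Θ : AdjoinRoot p →ₗ[F] F :=
    { toFun := fun y => U.herm q (ψ y v0) v0
      map_add' := fun y z => by rw [map_add, LinearMap.add_apply, U.herm_add_left]
      map_smul' := fun a y => by
        rw [Algebra.smul_def, map_mul, Module.End.mul_apply, hψF, U.herm_smul_left,
          RingHom.id_apply, smul_eq_mul] }
  let M : AdjoinRoot p →ₗ[F] (Fin 3 → F) :=
    LinearMap.pi fun j : Fin 3 => Θ.comp (LinearMap.mulLeft F (X' ^ j.1))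
  have hMapp : ∀ y j, M y j = U.herm q (ψ (X' ^ j.1 * y) v0) v0 := fun y j => rfl
  have hdimL : finrank F (AdjoinRoot p) = finrank F (Fin 3 → F) := by rw [hfinL, finrank_fin_fun]
  have hcomb : ∀ z : AdjoinRoot p, ∃ a b d : F,
      z = algebraMap F _ a + algebraMap F _ b * X' + algebraMap F _ d * X' ^ 2 := by
    let B : (Fin 3 → F) →ₗ[F] AdjoinRoot p :=
      { toFun := fun k => algebraMap F _ (k 0) + algebraMap F _ (k 1) * X' +
          algebraMap F _ (k 2) * X' ^ 2
        map_add' := fun u w => by simp only [Pi.add_apply, map_add]; ring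
        map_smul' := fun a u => by
          simp only [Pi.smul_apply, smul_eq_mul, map_mul, RingHom.id_apply, Algebra.smul_def]; ring }
    have hB : Function.Surjective B := by
      rw [← LinearMap.injective_iff_surjective_of_finrank_eq_finrank hdimL.symm]
      refine (injective_iff_map_eq_zero _).2 fun k hk => ?_
      obtain ⟨h0, h1, h2⟩ := hli _ _ _ hk
      ext j; fin_cases j <;> simpa
    intro z
    obtain ⟨k, rfl⟩ := hB z
    exact ⟨k 0, k 1, k 2, rfl⟩
  have hM : Function.Injective M := by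
    refine (injective_iff_map_eq_zero _).2 fun y hy => ?_
    by_contra hy0
    have hj : ∀ j : Fin 3, U.herm q (ψ (X' ^ j.1 * y) v0) v0 = 0 := fun j => by
      rw [← hMapp, hy]; rfl
    refine hv00 (hF.eq_zero_of_herm v0 fun u => herm_comm_zero hF ?_)
    obtain ⟨z, rfl⟩ := hevl' u
    obtain ⟨a, b, d, hz⟩ := hcomb (z / y)
    have hz' : z = a • (X' ^ 0 * y) + b • (X' ^ 1 * y) + d • (X' ^ 2 * y) := by
      rw [← div_mul_cancel₀ z hy0, hz, Algebra.smul_def, Algebra.smul_def, Algebra.smul_def]; ring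
    show Θ z = 0
    rw [hz', map_add, map_add, map_smul, map_smul, map_smul]
    show a • U.herm q (ψ (X' ^ 0 * y) v0) v0 + b • U.herm q (ψ (X' ^ 1 * y) v0) v0 +
      d • U.herm q (ψ (X' ^ 2 * y) v0) v0 = 0
    rw [show U.herm q (ψ (X' ^ 0 * y) v0) v0 = 0 from hj 0,
      show U.herm q (ψ (X' ^ 1 * y) v0) v0 = 0 from hj 1,
      show U.herm q (ψ (X' ^ 2 * y) v0) v0 = 0 from hj 2]
    simp
  obtain ⟨y, hy⟩ := (LinearMap.injective_iff_surjective_of_finrank_eq_finrank hdimL).1 hM ![1, -c, 0]
  have hyj : ∀ j : Fin 3, U.herm q (ψ (X' ^ j.1 * y) v0) v0 = ![1, -c, 0] j := fun j => by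
    rw [← hMapp, hy]
  have hystar : star y = y := by
    refine hM (funext fun j => ?_)
    rw [hMapp, hMapp, hyj]
    have hsj : star (X' ^ j.1 * y) = X' ^ j.1 * star y := by rw [map_mul, map_pow, hX'star]
    rw [← hsj, ← hF.herm_symm, ← hadj, hyj]
    fin_cases j <;> simp [hcq, hF.neg_pow, hF.q_ne_zero]
  have hLfield : U.SqField (AdjoinRoot p) (q ^ 3) := by
    refine ⟨inferInstance, ?_⟩
    rw [Module.natCard_eq_pow_finrank (K := F), hF.2, hfinL, ← pow_mul, ← pow_mul]
  obtain ⟨z, hz⟩ := hLfield.exists_norm (c := y) (by rw [← hstar_apply, hystar])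
  have hzy : star z * z = y := by rw [hstar_apply, ← pow_succ, hz]
  set v := ψ z v0 with hv
  set J' := ψ X' with hJ'
  have hJ'3 : ∀ w, J' (J' (J' w)) = J' w + c • w := by
    intro w
    rw [hJ', ← Module.End.mul_apply, ← Module.End.mul_apply, ← map_mul, ← map_mul,
      show X' * X' * X' = X' + algebraMap F _ c by rw [← hX3]; ring, map_add, LinearMap.add_apply,
      hψF]
  have hJ'adj : ∀ u w, U.herm q (J' u) w = U.herm q u (J' w) := fun u w => by
    rw [hJ', hadj, hX'star]
  have hgram : ∀ (k : ℕ) (hk : k < 3), U.herm q (ψ (X' ^ k) v) v = ![1, -c, 0] ⟨k, hk⟩ := by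
    intro k hk
    have := hyj ⟨k, hk⟩
    rw [show X' ^ k * y = star z * (X' ^ k * z) by rw [← hzy]; ring, map_mul,
      Module.End.mul_apply, hadj] at this
    rw [hv, ← Module.End.mul_apply, ← map_mul, ← this]
    congr 1
    rw [show star (star z) = z by rw [hstar_apply, hstar_apply, hLfield.pow_pow]]
  have g0 : U.herm q v v = 1 := by
    have := hgram 0 (by omega)
    simpa using this
  have g1 : U.herm q (J' v) v = -c := by
    have := hgram 1 (by omega)
    simpa [hJ'] using this
  have g2 : U.herm q (J' (J' v)) v = 0 := by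
    have := hgram 2 (by omega)
    simpa [hJ', pow_two, map_mul, Module.End.mul_apply] using this
  let L : Module.End F (Fin 3 → F) :=
    { toFun := fun x => (x 0 + x 1 + x 2) • v + ((x 1 + x 2) / c) • J' v +
        ((x 2 - x 1) / c) • J' (J' v)
      map_add' := fun u w => by simp only [Pi.add_apply]; module
      map_smul' := fun a u => by simp only [Pi.smul_apply, smul_eq_mul, RingHom.id_apply]; module }
  have hL : ∀ x, L x = (x 0 + x 1 + x 2) • v + ((x 1 + x 2) / c) • J' v +
        ((x 2 - x 1) / c) • J' (J' v) := fun x => rfl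
  refine ⟨J', L, fun x => ?_, fun x => ?_, fun x w => ?_⟩
  · rw [hJ', show T = ψ α by rw [hαdef, ← AdjoinRoot.mk_X, hψmk, aeval_X], ← Module.End.mul_apply,
      ← Module.End.mul_apply, ← map_mul, ← map_mul, mul_comm]
  · rw [hL, hL, map_add, map_add, map_smul, map_smul, map_smul, hJ'3]
    simp only [Jop_apply, dvec, Matrix.cons_val_zero, Matrix.cons_val_one, Matrix.cons_val]
    match_scalars <;> field_simp
    · linear_combination (-c * (x 0 + x 1 + x 2)) * h3
    · linear_combination (-c * (x 0 + x 1 + x 2)) * h3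
    · ring
  · have e11 : U.herm q (J' v) (J' v) = 0 := by rw [← hJ'adj]; exact g2
    have e01 : U.herm q v (J' v) = -c := by rw [← hJ'adj]; exact g1
    have e02 : U.herm q v (J' (J' v)) = 0 := by rw [← hJ'adj]; exact e11
    have e12 : U.herm q (J' v) (J' (J' v)) = 0 := by
      rw [← hJ'adj, ← hJ'adj, hJ'3, U.herm_add_left, U.herm_smul_left, g1, g0]; ring
    have e21 : U.herm q (J' (J' v)) (J' v) = 0 := herm_comm_zero hF e12
    have e22 : U.herm q (J' (J' v)) (J' (J' v)) = -(c * c) := by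
      rw [← hJ'adj, ← hJ'adj, hJ'3, U.herm_add_left, U.herm_smul_left, g2, g1]
      ring
    rw [hL, hL]
    simp only [U.herm_add_left, hF.herm_add_right, U.herm_smul_left, U.herm_smul_right, g0, g1, g2,
      e11, e01, e02, e12, e21, e22, div_pow, hF.add_pow, hF.sub_pow, hcq]
    rw [U.herm_def, Fin.sum_univ_three]
    field_simp
    linear_combination (-(c ^ 2) * (x 1 * w 1 ^ q + x 2 * w 2 ^ q)) * h3

end Cfsg.Agent.Cover5
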