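/-
`PSU_3(q)`, `q` a power of three, is the union of the conjugates of two proper subgroups.
-/
import Cfsg.Agent.Cover5.UThreeField
import Cfsg.Agent.Cover5.UFour

set_option autoImplicit false
set_option linter.style.haveILetI false

namespace Cfsg.Agent.Cover5

open Module Polynomial Cfsg.Agent.Classical Cfsg.Agent.Forms

variable {F : Type} [Field F] {q : ℕ}

/-- The constants of the covering. -/
def primeS (F : Type) [Field F] : AddSubgroup F := AddSubgroup.zmultiples 1

theorem one_mem_primeS : (1 : F) ∈ primeS F := AddSubgroup.mem_zmultiples 1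

variable (hF : U.SqField F q)
include hF

theorem exists_sug_of_isometry (hq : ∃ a, 1 ≤ a ∧ q = 3 ^ a) (L : Module.End F (Fin 3 → F))
    (hL : ∀ x y, U.herm q (L x) (L y) = U.herm q x y) :
    ∃ (s : U.SUG 3 F q) (z : F), z ≠ 0 ∧ ∀ x, uRho 3 F q s x = z • L x := by
  have hinj : Function.Injective L := (injective_iff_map_eq_zero _).2 fun x hx =>
    hF.eq_zero_of_herm x fun y => by rw [← hL, hx, U.herm_zero_left]
  let g0 : U.UG 3 F q := ⟨LinearEquiv.ofInjectiveEndo L hinj, hL⟩
  set d : F := ((LinearEquiv.det g0.1 : Fˣ) : F) with hd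
  have hd1 : d ^ (q + 1) = 1 := U.det_norm_one hF g0
  obtain ⟨a, ha, rfl⟩ := hq
  obtain ⟨k, hk⟩ : ∃ k, 3 ^ a = 3 * k := ⟨3 ^ (a - 1), by rw [← pow_succ']; congr 1; omega⟩
  have hz0 : d ^ k ≠ 0 := pow_ne_zero _ (Units.ne_zero _)
  have hz1 : (d ^ k) ^ (3 ^ a + 1) = 1 := by rw [← pow_mul, mul_comm, pow_mul, hd1, one_pow]
  let g : U.UG 3 F (3 ^ a) := ⟨g0.1.trans (LinearEquiv.smulOfUnit (Units.mk0 _ hz0)), fun u v => by
    show U.herm _ (d ^ k • L u) (d ^ k • L v) = _
    rw [U.herm_smul_left, U.herm_smul_right, ← mul_assoc, ← pow_succ', hz1, one_mul, hL]⟩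
  have hg : g ∈ U.SUG 3 F (3 ^ a) := by
    rw [U.mem_SUG]
    ext
    have h1 : (g.1 : (Fin 3 → F) →ₗ[F] Fin 3 → F) = d ^ k • (g0.1 : (Fin 3 → F) →ₗ[F] Fin 3 → F) :=
      LinearMap.ext fun x => rfl
    rw [LinearEquiv.coe_det, h1, LinearMap.det_smul, ← LinearEquiv.coe_det, ← hd, finrank_fin_fun,
      ← pow_mul, mul_comm k 3, ← hk, ← pow_succ, hd1, Units.val_one]
  exact ⟨⟨g, hg⟩, d ^ k, hz0, fun x => rfl⟩

theorem herm_zero_of_all (v : Fin 3 → F) (hv : ∀ w, U.herm q v w = 0) : v = 0 :=
  hF.eq_zero_of_herm v hv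

/-- All eigenvectors isotropic, one exists: `g` is regular unipotent. -/
theorem exists_regular_unipotent (h3 : (3 : F) = 0) (g : U.SUG 3 F q) {v : Fin 3 → F} {lam : F}
    (hv : v ≠ 0) (hg : uEnd g v = lam • v)
    (hiso : ∀ (w : Fin 3 → F) (μ : F), uEnd g w = μ • w → U.herm q w w = 0) :
    (∀ x, (uEnd g - 1) ((uEnd g - 1) ((uEnd g - 1) x)) = 0) ∧
      ∃ x, (uEnd g - 1) ((uEnd g - 1) x) ≠ 0 := by
  set T := uEnd g with hT
  have hinj : Function.Injective T := uEnd_injective g
  have hTh : ∀ a b, U.herm q (T a) (T b) = U.herm q a b := fun a b => uRho_herm g a b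
  have hroot : (minpoly F T).IsRoot lam :=
    Module.End.hasEigenvalue_iff_isRoot.1 (Module.End.hasEigenvalue_of_hasEigenvector
      (Module.End.hasEigenvector_iff.2 ⟨Module.End.mem_eigenspace_iff.2 hg, hv⟩))
  -- all factors are linear
  have hlin : ∀ p : F[X], Irreducible p → p ∣ minpoly F T → p.natDegree = 1 := by
    intro p hp hpd
    by_contra hp1
    have hplam : ∀ x : F, ¬ p.IsRoot x := fun x => hp.not_isRoot_of_natDegree_ne_one hp1
    have hcop : ∀ s : F[X], Irreducible s → s.natDegree ≠ 1 → IsCoprime s (Polynomial.X - C lam) :=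
      fun s hs hs1 => ((irreducible_X_sub_C lam).coprime_iff_not_dvd.2 fun h =>
        hs.not_isRoot_of_natDegree_ne_one hs1 (dvd_iff_isRoot.1 h)).symm
    have hle : ∀ P : F[X], P ∣ minpoly F T → P.natDegree ≤ 3 := fun P h => by
      simpa using natDegree_mul_le_of_dvd T h
    have hp2 : p.natDegree = 2 := by
      have := hle _ ((hcop p hp hp1).mul_dvd hpd (dvd_iff_isRoot.2 hroot))
      rw [natDegree_mul hp.ne_zero (X_sub_C_ne_zero _), natDegree_X_sub_C] at this
      have := hp.natDegree_pos
      omega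
    have hp0 : p.eval 0 ≠ 0 := minpoly_factor_eval_zero g hpd
    obtain ⟨u, hu, hpu⟩ := exists_ker_ne_zero T hp hpd
    set r := udual hF p with hr
    have hr0 : r ≠ 0 := by
      rw [hr, udual, Ne, reverse_eq_zero, Polynomial.map_eq_zero]
      exact hp.ne_zero
    have hpr : ¬ p ∣ r := fun h => by
      have := udual_root_odd hF hp hp0 h
      rw [hp2] at this
      exact absurd this (by decide)
    have hnc : ¬ IsCoprime r (minpoly F T) := by
      rintro ⟨a, b, hab⟩
      refine hu (hF.eq_zero_of_herm u fun w => ?_)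
      have h1 : w = aeval T r (aeval T a w) := by
        conv_lhs => rw [← Module.End.one_apply (R := F) w, ← map_one (aeval (R := F) T), ← hab,
          map_add, map_mul, map_mul, minpoly.aeval, mul_zero, add_zero, ← map_mul, mul_comm,
          map_mul, Module.End.mul_apply]
      rw [h1]
      exact herm_ker_udual hF g hpu _
    obtain ⟨s, hs, hsr, hsm⟩ : ∃ s, Irreducible s ∧ s ∣ r ∧ s ∣ minpoly F T := by
      by_contra! hall
      exact hnc (isCoprime_of_irreducible_dvd (fun h => hr0 h.1) hall)
    by_cases hs1 : s.natDegree = 1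
    · obtain ⟨μ, hμ⟩ := exists_root_of_degree_eq_one (p := s)
        ((degree_eq_iff_natDegree_eq_of_pos one_pos).2 hs1)
      have hμ0 : μ ≠ 0 := by
        rintro rfl
        exact minpoly_factor_eval_zero g hsm hμ
      have h2 : aeval μ r = 0 := by
        rw [coe_aeval_eq_eval]
        exact IsRoot.dvd hμ hsr
      have := aeval_udual_root hF hμ0 h2
      rw [coe_aeval_eq_eval] at this
      exact hplam _ this
    · have hsp : IsCoprime p s := hp.coprime_iff_not_dvd.2 fun h => hpr (h.trans hsr)
      have := hle _ (((hcop p hp hp1).mul_left (hcop s hs hs1)).mul_dvd (hsp.mul_dvd hpd hsm)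
        (dvd_iff_isRoot.2 hroot))
      rw [natDegree_mul (mul_ne_zero hp.ne_zero hs.ne_zero) (X_sub_C_ne_zero _),
        natDegree_mul hp.ne_zero hs.ne_zero, natDegree_X_sub_C] at this
      have := hs.natDegree_pos
      omega
  -- one eigenvalue
  have honly : ∀ μ : F, (minpoly F T).IsRoot μ → μ = lam := by
    intro μ hμ
    by_contra hne
    obtain ⟨w, hw⟩ := (Module.End.hasEigenvalue_iff_isRoot.2 hμ).exists_hasEigenvector
    have hgw : T w = μ • w := hw.apply_eq_smul
    have hwv : w ∉ F ∙ v := by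
      intro h
      obtain ⟨c, rfl⟩ := Submodule.mem_span_singleton.1 h
      rw [map_smul, hg, smul_comm] at hgw
      exact hne (smul_left_injective F hw.2 hgw).symm
    have hvv := hiso v lam hg
    have hww := hiso w μ hgw
    have hμ0 : μ ≠ 0 := by
      rintro rfl
      exact hw.2 (hinj (by rw [hgw, zero_smul, map_zero]))
    have hlam0 : lam ≠ 0 := by
      rintro rfl
      exact hv (hinj (by rw [hg, zero_smul, map_zero]))
    set W := Submodule.span F {v, w} with hW
    have hvw : U.herm q v w ≠ 0 := by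
      intro h0
      have h1 := Submodule.finrank_mono (show W ≤ hperp q W from fun x hx y hy =>
        isTI_span_pair hF hvv hww h0 x hx y hy)
      rw [finrank_hperp hF, hW, finrank_span_pair hv hwv] at h1
      omega
    obtain ⟨u, hu, hu0⟩ := Submodule.exists_mem_ne_zero_of_ne_bot (p := hperp q W) (fun h => by
      have := finrank_hperp hF W
      rw [h, finrank_bot, hW, finrank_span_pair hv hwv] at this
      omega)
    have hline : hperp q W = F ∙ u := (Submodule.eq_of_le_of_finrank_eq
      (Submodule.span_le.2 (Set.singleton_subset_iff.2 hu)) (by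
        rw [finrank_hperp hF, hW, finrank_span_pair hv hwv, finrank_span_singleton hu0])).symm
    have huv : U.herm q u v = 0 := hu v (Submodule.mem_span_pair.2 ⟨1, 0, by simp⟩)
    have huw : U.herm q u w = 0 := hu w (Submodule.mem_span_pair.2 ⟨0, 1, by simp⟩)
    have hTu : T u ∈ F ∙ u := by
      rw [← hline]
      intro x hx
      obtain ⟨a, b, rfl⟩ := Submodule.mem_span_pair.1 hx
      have h1 : U.herm q (T u) v = 0 := by
        have := hTh u v
        rw [hg, U.herm_smul_right, huv] at this
        exact (mul_eq_zero.1 this).resolve_left (pow_ne_zero _ hlam0)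
      have h2 : U.herm q (T u) w = 0 := by
        have := hTh u w
        rw [hgw, U.herm_smul_right, huw] at this
        exact (mul_eq_zero.1 this).resolve_left (pow_ne_zero _ hμ0)
      rw [hF.herm_add_right, U.herm_smul_right, U.herm_smul_right, h1, h2, mul_zero, mul_zero,
        add_zero]
    obtain ⟨ν, hν⟩ := Submodule.mem_span_singleton.1 hTu
    have huu := hiso u ν hν.symm
    have hu2 : u ∈ W := by
      rw [← hperp_hperp hF W, hline]
      intro x hx
      obtain ⟨c, rfl⟩ := Submodule.mem_span_singleton.1 hx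
      rw [U.herm_smul_right, huu, mul_zero]
    obtain ⟨a, b, hab⟩ := Submodule.mem_span_pair.1 hu2
    rw [← hab, U.herm_add_left, U.herm_smul_left, U.herm_smul_left, hvv,
      mul_zero, zero_add] at huv
    rw [← hab, U.herm_add_left, U.herm_smul_left, U.herm_smul_left, hww,
      mul_zero, add_zero] at huw
    have ha : a = 0 := (mul_eq_zero.1 huw).resolve_right hvw
    have hb : b = 0 := (mul_eq_zero.1 huv).resolve_right fun h => hvw (herm_comm_zero hF h)
    exact hu0 (by rw [← hab, ha, hb, zero_smul, zero_smul, add_zero])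
  -- nilpotency
  classical
  have hne0 : minpoly F T ≠ 0 := minpoly.ne_zero (Algebra.IsIntegral.isIntegral T)
  have hfac : ∀ p ∈ UniqueFactorizationMonoid.normalizedFactors (minpoly F T),
      p = Polynomial.X - C lam := by
    intro p hp
    have h1 := UniqueFactorizationMonoid.irreducible_of_normalized_factor p hp
    have hd := UniqueFactorizationMonoid.dvd_of_mem_normalizedFactors hp
    have hm : p.Monic := by
      rw [← UniqueFactorizationMonoid.normalize_normalized_factor p hp]
      exact monic_normalize h1.ne_zero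
    have hlp := hm.eq_X_add_C (hlin p h1 hd)
    rw [hlp] at hd ⊢
    have := honly (-p.coeff 0) (IsRoot.dvd (p := Polynomial.X + C (p.coeff 0)) (by simp) hd)
    rw [← this, map_neg, sub_neg_eq_add]
  have hnil : (T - lam • 1) ^ 3 = 0 := by
    have h0 := minpoly.aeval F T
    obtain ⟨e, he⟩ := (UniqueFactorizationMonoid.prod_normalizedFactors hne0)
    rw [Multiset.eq_replicate_card.2 hfac, Multiset.prod_replicate] at he
    rw [← he, map_mul, map_pow, map_sub, aeval_X, aeval_C, ← Algebra.algebraMap_self_apply lam] at h0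
    rw [Algebra.algebraMap_self_apply, Algebra.algebraMap_eq_smul_one] at h0
    have hu : IsUnit (aeval T (e : F[X])) := e.isUnit.map _
    have h1 : (T - lam • 1) ^ Multiset.card
        (UniqueFactorizationMonoid.normalizedFactors (minpoly F T)) = 0 :=
      (IsUnit.mul_left_eq_zero hu).1 h0
    have hn : IsNilpotent (T - lam • 1) := ⟨_, h1⟩
    have := LinearMap.aeval_self_charpoly (T - lam • 1)
    rwa [hn.charpoly_eq_X_pow_finrank, map_pow, aeval_X, finrank_fin_fun] at this
  have hcube : T ^ 3 = lam ^ 3 • (1 : Module.End F (Fin 3 → F)) := by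
    have : T ^ 3 = (T - lam • 1) ^ 3 + lam ^ 3 • (1 : Module.End F (Fin 3 → F)) +
        ((3 : F) * lam) • T ^ 2 - ((3 : F) * lam ^ 2) • T := by
      simp only [pow_succ, pow_zero, one_mul, sub_mul, mul_sub, smul_mul_assoc, mul_smul_comm,
        mul_one, one_mul, smul_sub, smul_smul]
      module
    rw [this, hnil, h3, zero_mul, zero_mul, zero_smul, zero_smul, zero_add, add_zero, sub_zero]
  have hlam : lam = 1 := by
    have h1 : LinearMap.det T = 1 := by
      rw [hT]
      show LinearMap.det (g.1.1 : (Fin 3 → F) →ₗ[F] Fin 3 → F) = 1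
      rw [← LinearEquiv.coe_det, U.mem_SUG.1 g.2, Units.val_one]
    have h2 := congrArg LinearMap.det hcube
    rw [map_pow, h1, one_pow, LinearMap.det_smul, map_one, mul_one, finrank_fin_fun] at h2
    have h4 : (lam - 1) ^ 3 = lam ^ 3 - 1 := by linear_combination (-(lam ^ 2) + lam) * h3
    have h5 : (lam ^ 3 - 1) ^ 3 = (lam ^ 3) ^ 3 - 1 := by
      linear_combination (-(lam ^ 6) + lam ^ 3) * h3
    rw [← h2, sub_self, pow_eq_zero_iff (by norm_num)] at h5
    rw [h5, pow_eq_zero_iff (by norm_num), sub_eq_zero] at h4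
    exact h4
  subst hlam
  rw [one_smul] at hnil
  refine ⟨fun x => ?_, ?_⟩
  · have := LinearMap.congr_fun hnil x
    simpa [pow_succ, Module.End.mul_apply] using this
  · -- the square is non-zero
    by_contra! hsq
    set N := T - 1 with hN
    have hNapp : ∀ x, T x = x + N x := fun x => by simp [hN]
    have hNid : ∀ u w, U.herm q (N u) w + U.herm q u (N w) + U.herm q (N u) (N w) = 0 := fun u w => by
      have := hTh u w
      rw [hNapp, hNapp, U.herm_add_left, hF.herm_add_right, hF.herm_add_right] at this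
      linear_combination this
    have hNN : ∀ u w, U.herm q (N u) (N w) = 0 := fun u w => by
      have := hNid u (N w)
      rwa [hsq, hF.herm_zero_right, hF.herm_zero_right, add_zero, add_zero] at this
    set K := LinearMap.ker N with hK
    have hKTI : ∀ x ∈ K, ∀ y ∈ K, U.herm q x y = 0 := by
      intro x hx y hy
      have hfix : ∀ z ∈ K, U.herm q z z = 0 := fun z hz => hiso z 1 (by
        rw [hNapp, LinearMap.mem_ker.1 hz, add_zero, one_smul])
      exact herm_eq_zero_of_isotropic hF (fun c => hfix _ (K.add_mem hx (K.smul_mem c hy)))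
        (hfix y hy)
    have h1 := Submodule.finrank_mono (show K ≤ hperp q K from hKTI)
    rw [finrank_hperp hF] at h1
    have h2 : LinearMap.range N ≤ K := by
      rintro _ ⟨x, rfl⟩
      exact hsq x
    have h3' := Submodule.finrank_mono h2
    have h4 := LinearMap.finrank_range_add_finrank_ker N
    rw [finrank_fin_fun, ← hK] at h4
    omega

theorem exists_orthonormal_of_regular (h3 : (3 : F) = 0) (g : U.SUG 3 F q)
    (h : ∀ x, (uEnd g - 1) ((uEnd g - 1) ((uEnd g - 1) x)) = 0)
    (h' : ∃ x, (uEnd g - 1) ((uEnd g - 1) x) ≠ 0) :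
    ∃ L : Module.End F (Fin 3 → F), (∀ x, uEnd g (L x) = L (cyc x)) ∧
      ∀ x y, U.herm q (L x) (L y) = U.herm q x y := by
  set T := uEnd g with hT
  set N := T - 1 with hN
  have hNapp : ∀ x, T x = x + N x := fun x => by simp [hN]
  have hNid : ∀ u w, U.herm q (N u) w + U.herm q u (N w) + U.herm q (N u) (N w) = 0 := fun u w => by
    have := uRho_herm g u w
    rw [← uEnd_apply, ← uEnd_apply, ← hT, hNapp, hNapp, U.herm_add_left, hF.herm_add_right,
      hF.herm_add_right] at this
    linear_combination this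
  have hM : ∀ u w, U.herm q (N u) (N (N w)) = 0 ∧ U.herm q (N (N u)) (N w) = 0 := fun u w => by
    have a1 := hNid u (N (N w))
    have a2 := hNid (N u) (N (N w))
    rw [h, hF.herm_zero_right, hF.herm_zero_right, add_zero, add_zero] at a1 a2
    exact ⟨a1, by
      have := hNid (N (N w)) u
      rw [h, U.herm_zero_left, U.herm_zero_left, zero_add, add_zero] at this
      have h' := herm_comm_zero hF a1
      exact herm_comm_zero hF (by
        have b := hNid (N (N u)) w
        rw [h, U.herm_zero_left, U.herm_zero_left, zero_add, add_zero] at b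
        exact herm_comm_zero hF b)⟩
  have hNN : ∀ u w, U.herm q (N u) (N w) = -U.herm q u (N (N w)) := fun u w => by
    have := hNid u (N w)
    rw [(hM u w).1, add_zero] at this
    exact eq_neg_of_add_eq_zero_left this
  have hreal : ∀ u w, U.herm q (N (N u)) w = U.herm q u (N (N w)) := fun u w => by
    have := hNid (N u) w
    rw [(hM u w).2, add_zero, hNN] at this
    linear_combination this
  -- a vector with `h (N² v, v) = 1`
  obtain ⟨v1, hv1⟩ : ∃ v1, U.herm q (N (N v1)) v1 ≠ 0 := by
    by_contra! hall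
    obtain ⟨x, hx⟩ := h'
    refine hx (hF.eq_zero_of_herm _ fun w => ?_)
    by_contra hne
    obtain ⟨t, ht⟩ := hF.exists_trace (c := 1) (one_pow q)
    have hwx : U.herm q (N (N w)) x ≠ 0 := fun e => hne (by
      rw [hreal]; exact herm_comm_zero hF e)
    have := hall (x + (t / U.herm q (N (N w)) x) • w)
    rw [map_add, map_add, map_smul, map_smul, U.herm_add_left, hF.herm_add_right,
      hF.herm_add_right, U.herm_smul_left, U.herm_smul_left, U.herm_smul_right, U.herm_smul_right,
      hall x, hall w, div_pow, div_mul_cancel₀ _ hwx,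
      show U.herm q (N (N x)) w = (U.herm q (N (N w)) x) ^ q by rw [hreal, hF.herm_symm],
      div_mul_cancel₀ _ (pow_ne_zero _ hwx), mul_zero, mul_zero, zero_add, add_zero, add_comm,
      ht] at this
    exact one_ne_zero this
  obtain ⟨y, hy⟩ := hF.exists_norm (c := (U.herm q (N (N v1)) v1)⁻¹) (by
    rw [inv_pow, hF.herm_symm, ← hreal])
  set v0 := y • v1 with hv0
  have t1 : U.herm q (N (N v0)) v0 = 1 := by
    rw [hv0, map_smul, map_smul, U.herm_smul_left, U.herm_smul_right, ← mul_assoc, ← pow_succ', hy,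
      inv_mul_cancel₀ hv1]
  have t1' : U.herm q v0 (N (N v0)) = 1 := by rw [← hreal, t1]
  set m := U.herm q (N v0) v0 with hm
  have hm' : U.herm q v0 (N v0) = m ^ q := by rw [hm, hF.herm_symm]
  have hmm : m + m ^ q = 1 := by
    have := hNid v0 v0
    rw [hNN, t1', hm'] at this
    linear_combination this
  set n0 := U.herm q v0 v0 with hn0
  have hn0q : n0 ^ q = n0 := hF.herm_symm _ _
  have hmq : m ^ q = 1 - m := by linear_combination hmm
  have haq : (1 + m) ^ q = -(1 + m) := by
    rw [hF.add_pow, one_pow, hmq]; linear_combination h3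
  obtain ⟨b, hb⟩ := hF.exists_trace (c := 1 - (n0 + (1 + m) ^ q * m ^ q + (1 + m) * m -
    (1 + m) * (1 + m) ^ q)) (by
    rw [hF.sub_pow, one_pow, hF.sub_pow, hF.add_pow, hF.add_pow, mul_pow, mul_pow, mul_pow,
      hF.pow_pow, hF.pow_pow, hn0q]
    ring)
  set v := v0 + (1 + m) • N v0 + b • N (N v0) with hv
  have z12 : U.herm q (N v0) (N (N v0)) = 0 := (hM _ _).1
  have z21 : U.herm q (N (N v0)) (N v0) = 0 := (hM _ _).2
  have z22 : U.herm q (N (N v0)) (N (N v0)) = 0 := (hM (N v0) v0).1
  have z11 : U.herm q (N v0) (N v0) = -1 := by rw [hNN, t1']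
  have hvv : U.herm q v v = 1 := by
    rw [hv]
    simp only [U.herm_add_left, hF.herm_add_right, U.herm_smul_left, U.herm_smul_right, t1, t1',
      z12, z21, z22, z11, hm', ← hn0, ← hm]
    linear_combination hb
  have hNv : U.herm q (N v) v = -1 := by
    rw [hv]
    simp only [map_add, map_smul, h, smul_zero, add_zero, U.herm_add_left, hF.herm_add_right,
      U.herm_smul_left, U.herm_smul_right, t1, z12, z21, z22, z11, ← hm, haq]
    linear_combination (1 + m) * h3
  have hN2v : U.herm q (N (N v)) v = 1 := by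
    rw [hv]
    simp only [map_add, map_smul, h, smul_zero, add_zero, hF.herm_add_right,
      U.herm_smul_right, t1, z21, z22, mul_zero, add_zero]
  clear_value v
  have h10 : U.herm q (T v) v = 0 := by
    rw [hNapp, U.herm_add_left, hvv, hNv]; ring
  have h20 : U.herm q (T (T v)) v = 0 := by
    rw [hNapp (T v), hNapp v, map_add, U.herm_add_left, U.herm_add_left, U.herm_add_left, hvv, hNv,
      hN2v]
    ring
  have hT3 : T (T (T v)) = v := by
    have e1 : T (T (T v)) = v + (3 : F) • N v + (3 : F) • N (N v) + N (N (N v)) := by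
      simp only [hNapp, map_add]
      module
    rw [e1, h, h3, zero_smul, zero_smul, add_zero, add_zero, add_zero]
  have hTh : ∀ a b, U.herm q (T a) (T b) = U.herm q a b := fun a b => uRho_herm g a b
  let L : Module.End F (Fin 3 → F) :=
    { toFun := fun x => x 0 • v + x 1 • T v + x 2 • T (T v)
      map_add' := fun u w => by simp only [Pi.add_apply]; module
      map_smul' := fun a u => by simp only [Pi.smul_apply, smul_eq_mul, RingHom.id_apply]; module }
  have hL : ∀ x, L x = x 0 • v + x 1 • T v + x 2 • T (T v) := fun x => rfl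
  refine ⟨L, fun x => ?_, fun x w => ?_⟩
  · rw [hL, hL, map_add, map_add, map_smul, map_smul, map_smul, hT3, cyc_apply, cyc_apply,
      cyc_apply, show ((0 : Fin 3) + 2) = 2 from rfl, show ((1 : Fin 3) + 2) = 0 from rfl,
      show ((2 : Fin 3) + 2) = 1 from rfl]
    abel
  · rw [hL, hL]
    simp only [U.herm_add_left, hF.herm_add_right, U.herm_smul_left, U.herm_smul_right, hTh, hvv,
      h10, h20, herm_comm_zero hF h10, herm_comm_zero hF h20]
    rw [U.herm_def, Fin.sum_univ_three]
    ring

theorem exists_real_AS : (3 : F) = 0 → ∃ c : F, c ^ q = c ∧ ∀ x : F, x ^ 3 - x ≠ c := by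
  intro h3
  haveI : Finite F := hF.1
  let ψ : {x : F // x ^ q = x} → {x : F // x ^ q = x} := fun x => ⟨x.1 ^ 3 - x.1, by
    rw [hF.sub_pow, ← pow_mul, mul_comm, pow_mul, x.2]⟩
  have hψ : ¬ Function.Surjective ψ := fun hs => by
    have hi := Finite.injective_iff_surjective.2 hs
    have := @hi ⟨1, one_pow q⟩ ⟨0, zero_pow hF.q_ne_zero⟩
      (Subtype.ext (by show (1 : F) ^ 3 - 1 = 0 ^ 3 - 0; ring))
    exact one_ne_zero (congrArg Subtype.val this)
  simp only [Function.Surjective, not_forall, not_exists] at hψ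
  obtain ⟨⟨c, hc⟩, hψ⟩ := hψ
  refine ⟨c, hc, fun x hx => ?_⟩
  set i := x ^ q - x with hi
  have hiq : i ^ 3 - i = 0 := by
    have h1 : (x ^ q) ^ 3 - x ^ q = c := by
      rw [← pow_mul, mul_comm, pow_mul, ← hF.sub_pow, hx, hc]
    rw [hi]
    linear_combination h1 - hx + (x ^ q * x ^ 2 - (x ^ q) ^ 2 * x) * h3
  have hfix : i ^ q = i := by
    rcases sq_eq_one_cases hiq with h | h | h <;> rw [h]
    · exact zero_pow hF.q_ne_zero
    · exact one_pow q
    · rw [hF.neg_pow, one_pow]
  have h2 : (2 : F) * i = 0 := by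
    rw [hi, hF.sub_pow, hF.pow_pow] at hfix
    rw [hi]
    linear_combination -hfix
  have : i = 0 := (mul_eq_zero.1 h2).resolve_left (two_ne_zero_of_three h3)
  exact hψ ⟨x, sub_eq_zero.1 this⟩ (Subtype.ext hx)

theorem psu_three_cover (hq : ∃ a, 1 ≤ a ∧ q = 3 ^ a) : HasTwoCover (Cfsg.PSU 3 F q) := by
  haveI : Finite F := hF.1
  haveI := Fintype.ofFinite F
  obtain ⟨a, ha, hqa⟩ := id hq
  have h3 : (3 : F) = 0 := three_eq_zero (k := a * 2) (by
    rw [← Nat.card_eq_fintype_card, hF.2, hqa, ← pow_mul])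
  obtain ⟨c, hcq, hc⟩ := exists_real_AS hF h3
  have hc0 : c ≠ 0 := fun h => hc 0 (by rw [h]; ring)
  set e : Fin 3 → F := Pi.single 0 1 with he
  have hee : U.herm q e e = 1 := by rw [he, U.herm_single_one _ hF.q_ne_zero]; simp
  refine hasTwoCover_PSU_of hF (V' := F ∙ e) (by omega)
    (shiftStab (uRho 3 F q) (Jop c) (primeS F))
    (fun z ⟨d, hd⟩ => scalar_mem_shiftStab hd _ _) ?_ ?_ fun g => ?_
  · set e1 : Fin 3 → F := Pi.single 1 1 with he1
    have he1' : U.herm q e1 e1 = 1 := by rw [he1, U.herm_single_one _ hF.q_ne_zero]; simp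
    obtain ⟨s, hs⟩ := exists_sug_point hF (v := e) (by rw [hee]; exact one_ne_zero) he1'
    refine ne_top_of_not_mem (g := s) fun h => ?_
    have he1s : e1 ∈ (F ∙ e).map (uRho 3 F q s).toLinearMap :=
      hs.symm ▸ Submodule.mem_span_singleton_self e1
    obtain ⟨y, hy, hyx⟩ := he1s
    obtain ⟨d, hd⟩ := Submodule.mem_span_singleton.1 (hyx ▸ (h y).1 hy : e1 ∈ F ∙ e)
    simpa [he, he1] using congrFun hd 1
  · -- a diagonal element outside `K`
    obtain ⟨b, hb1, hb2⟩ : ∃ b : F, b ^ (q + 1) = 1 ∧ b ^ 2 ≠ 1 := by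
      by_contra! hall
      have hcard := hF.card_norm_one
      have : Nat.card {x : F // x ^ (q + 1) = 1} ≤ 2 := by
        classical
        rw [Nat.card_eq_fintype_card]
        rw [Fintype.card_subtype]
        refine (Finset.card_le_card (t := {1, -1}) fun x hx => ?_).trans Finset.card_le_two
        simp only [Finset.mem_filter, Finset.mem_univ, true_and] at hx
        rcases sq_eq_one_iff.1 (hall x hx) with h | h <;> simp [h]
      rw [hcard] at this
      have := hF.one_lt
      omega
    have hb0 : b ≠ 0 := by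
      rintro rfl
      simp at hb1
    let L : Module.End F (Fin 3 → F) := Matrix.toLin' (Matrix.diagonal ![b, b⁻¹, 1])
    have hL : ∀ x y, U.herm q (L x) (L y) = U.herm q x y := fun x y => by
      have h1 : b * b ^ q = 1 := by rw [← pow_succ', hb1]
      simp only [L, U.herm_def, Fin.sum_univ_three, Matrix.toLin'_apply, Matrix.mulVec_diagonal]
      simp only [Matrix.cons_val_zero, Matrix.cons_val_one, Matrix.cons_val, mul_pow, inv_pow,
        one_mul]
      have h2 : b⁻¹ * (b ^ q)⁻¹ = 1 := by rw [← mul_inv, h1, inv_one]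
      linear_combination (x 0 * y 0 ^ q) * h1 + (x 1 * y 1 ^ q) * h2
    obtain ⟨s, z, hz, hs⟩ := exists_sug_of_isometry hF hq L hL
    refine ne_top_of_not_mem (g := s) ?_
    rintro ⟨i, -, h⟩
    have h1 := congrFun (h (Pi.single 1 1)) 0
    have h2 := congrFun (h (Pi.single 0 1)) 0
    simp [hs, L, Matrix.mulVec_diagonal, Jop_apply, dvec] at h1 h2
    have hi : i = 0 := by
      have : i * (z * b) = 0 := by linear_combination -h2
      exact (mul_eq_zero.1 this).resolve_right (mul_ne_zero hz hb0)
    subst hi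
    field_simp at h1
    exact hb2 (h1.resolve_right hz)
  · by_cases hns : ∃ (w : Fin 3 → F) (μ : F), uEnd g w = μ • w ∧ U.herm q w w ≠ 0
    · obtain ⟨w, μ, hw, hww⟩ := hns
      obtain ⟨s, hs⟩ := exists_sug_point hF hww hee
      refine ⟨s, Or.inl (conj_mem_stabSub (W' := F ∙ w) (fun y hy => ?_) hs)⟩
      obtain ⟨d, rfl⟩ := Submodule.mem_span_singleton.1 hy
      rw [map_smul, ← uEnd_apply, hw]
      exact Submodule.smul_mem _ _ (Submodule.smul_mem _ _ (Submodule.mem_span_singleton_self w))
    · push Not at hns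
      by_cases hev : ∃ μ : F, (uEnd g).HasEigenvalue μ
      · obtain ⟨μ, hμ⟩ := hev
        obtain ⟨v, hv⟩ := hμ.exists_hasEigenvector
        obtain ⟨hN, hN'⟩ := exists_regular_unipotent hF h3 g hv.2 hv.apply_eq_smul hns
        obtain ⟨L, hLg, hL⟩ := exists_orthonormal_of_regular hF h3 g hN hN'
        obtain ⟨s, z, hz, hs⟩ := exists_sug_of_isometry hF hq L hL
        refine ⟨s⁻¹, Or.inr ⟨1, one_mem_primeS, fun x => (uRho 3 F q s).injective ?_⟩⟩
        have key : ∀ y, uRho 3 F q (s⁻¹ * g * s⁻¹⁻¹) y = cyc y := fun y => by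
          apply (uRho 3 F q s).injective
          rw [rho_mul, rho_mul, rho_apply_inv, inv_inv, hs, hs, map_smul, ← uEnd_apply, hLg]
        rw [key, key, cyc_Jop h3]
      · push Not at hev
        obtain ⟨J', L, hJ, hLJ, hL⟩ := exists_isometry_of_no_eigen hF h3 hcq hc g hev
        obtain ⟨s, z, hz, hs⟩ := exists_sug_of_isometry hF hq L hL
        refine ⟨s⁻¹, Or.inr (conj_mem_shiftStab (J' := J') (i := 0) (AddSubgroup.zero_mem _)
          (fun y => by rw [zero_smul, add_zero, ← uEnd_apply, hJ]; rfl) fun y => ?_)⟩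
        apply (uRho 3 F q s).injective
        rw [rho_apply_inv, hs, hLJ, ← map_smul, ← hs, rho_apply_inv]

end Cfsg.Agent.Cover5
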